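import Mathlib
import Cfsg.Agent.H8.SymP
import Cfsg.Agent.H25.MinNormal
import Cfsg.Agent.H1.Hall

set_option autoImplicit false

namespace H8.Sy
open Subgroup Nat

theorem card_sylow_eq {G : Type*} [Group G] [Finite G] {p : ℕ} [hp : Fact p.Prime] (P : Sylow p G)
    (h1 : p ∣ Nat.card G) (h2 : ¬ p ^ 2 ∣ Nat.card G) : Nat.card P = p := by
  have e : (Nat.card G).factorization p = 1 := by
    have := (hp.out.dvd_iff_one_le_factorization Nat.card_pos.ne').1 h1
    have := mt (hp.out.pow_dvd_iff_le_factorization (k := 2) Nat.card_pos.ne').2 h2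
    omega
  rw [P.card_eq_multiplicity, e, pow_one]

theorem exists_orderOf_mul {G : Type*} [Group G] [Finite G] {p q : ℕ} (hp : p.Prime) (hq : q.Prime)
    (N : Subgroup G) [N.Normal] (h1 : p ∣ Nat.card N) (h2 : ¬ p ^ 2 ∣ Nat.card N)
    (h3 : ¬ q ∣ Nat.card N) (h4 : q ∣ Nat.card G) (h5 : ¬ q ∣ p - 1) :
    ∃ g : G, orderOf g = p * q := by
  have := Fact.mk hp
  have := Fact.mk hq
  obtain ⟨P⟩ : Nonempty (Sylow p N) := inferInstance
  have cP : Nat.card ((P : Subgroup N).map N.subtype) = p := by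
    rw [card_map_of_injective N.subtype_injective, card_sylow_eq P h1 h2]
  have fr := P.normalizer_sup_eq_top
  generalize (P : Subgroup N).map N.subtype = X at cP fr
  have d1 : q ∣ Nat.card (normalizer (X : Set G)) := by
    have e : N.relIndex (normalizer (X : Set G)) = N.index := by
      rw [← relIndex_sup_right, fr, relIndex_top_right]
    rw [← N.card_mul_index, ← e] at h4
    exact ((hq.dvd_mul.1 h4).resolve_left h3).trans (relIndex_dvd_card _ _)
  have := isCyclic_of_prime_card cP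
  have d2 : q ∣ Nat.card X.normalizerMonoidHom.ker := by
    rw [← X.normalizerMonoidHom.ker.card_mul_index, index_ker] at d1
    refine (hq.dvd_mul.1 d1).resolve_right fun c => h5 ?_
    have := c.trans (card_subgroup_dvd_card _)
    rwa [IsCyclic.card_mulAut, cP, Nat.totient_prime hp] at this
  obtain ⟨y, hy⟩ := exists_prime_orderOf_dvd_card' q d2
  obtain ⟨x, hx⟩ := exists_prime_orderOf_dvd_card' (G := X) p cP.symm.dvd
  have c : Commute (x : G) (y.1 : G) := by
    obtain ⟨y, hy'⟩ := y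
    rw [normalizerMonoidHom_ker] at hy'
    exact hy' x x.2
  rw [← orderOf_coe, ← orderOf_coe] at hy
  rw [← orderOf_coe] at hx
  exact ⟨_, by
    rw [c.orderOf_mul_eq_mul_orderOf_of_coprime (by
      rw [hx, hy]; exact (Nat.coprime_primes hp hq).2 fun e => h3 (e ▸ h1)), hx, hy]⟩

/-- A chief factor carrying all primes of `π`. -/
theorem exists_simple_factor {G : Type*} [Group G] [Finite G] (π : Set ℕ) {p q : ℕ} (hp : p ∈ π)
    (hq : q ∈ π) (hpq : p ≠ q) (h0 : ∀ r ∈ π, r.Prime ∧ r ∣ Nat.card G ∧ ¬ r ^ 2 ∣ Nat.card G)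
    (h1 : ∀ r ∈ π, ∀ s ∈ π, ¬ s ∣ r - 1) (h2 : ∀ r ∈ π, ∀ s ∈ π, r ≠ s → ∀ g : G, orderOf g ≠ r * s) :
    ∃ (N H : Subgroup G) (_ : N.Normal), H.Normal ∧ N < H ∧
      IsSimpleGroup (↥H ⧸ N.subgroupOf H) ∧ ¬ IsMulCommutative (↥H ⧸ N.subgroupOf H) ∧
      ∀ r ∈ π, r ∣ Nat.card (↥H ⧸ N.subgroupOf H) := by
  have key : ∀ (M : Subgroup G) [M.Normal], ∀ r ∈ π, ∀ s ∈ π, r ∣ Nat.card M → s ∣ Nat.card M := by
    intro M _ r hr s hs h
    by_contra c
    obtain ⟨g, hg⟩ := exists_orderOf_mul (h0 r hr).1 (h0 s hs).1 M h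
      (fun c => (h0 r hr).2.2 (c.trans (card_subgroup_dvd_card _))) c (h0 s hs).2.1 (h1 r hr s hs)
    exact h2 r hr s hs (fun e => c (e ▸ h)) g hg
  obtain ⟨N, -, ⟨hN, pN⟩, mx⟩ := Finite.exists_le_maximal (α := Subgroup G)
    (p := fun M => M.Normal ∧ ¬ p ∣ Nat.card M) (a := ⊥) ⟨inferInstance, by
      rw [card_bot, Nat.dvd_one]; exact (h0 p hp).1.ne_one⟩
  obtain ⟨S, hS, S0, -, mn⟩ := H25.exists_minimal_normal_le (⊤ : Subgroup (G ⧸ N)) fun e => pN (by
    have := congrArg (comap (QuotientGroup.mk' N)) e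
    rw [comap_top, MonoidHom.comap_bot, QuotientGroup.ker_mk'] at this
    rw [← this, card_top]; exact (h0 p hp).2.1)
  set H := S.comap (QuotientGroup.mk' N) with hH
  have NH : N ≤ H := fun x hx => by
    rw [hH, mem_comap, QuotientGroup.mk'_apply, (QuotientGroup.eq_one_iff x).2 hx]; exact one_mem _
  have lt : N < H := lt_of_le_of_ne NH fun e => S0 (by
    rw [← map_comap_eq_self_of_surjective (QuotientGroup.mk'_surjective N) S, ← hH, ← e,
      QuotientGroup.map_mk'_self])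
  have e : (H ⧸ N.subgroupOf H) ≃* S :=
    (QuotientGroup.quotientMulEquivOfEq (by
      ext x
      rw [MonoidHom.mem_ker, mem_subgroupOf, ← QuotientGroup.eq_one_iff, Subtype.ext_iff]; rfl)).trans
    (QuotientGroup.quotientKerEquivOfSurjective ((QuotientGroup.mk' N).subgroupComap S)
      (MonoidHom.subgroupComap_surjective_of_surjective _ _ (QuotientGroup.mk'_surjective N)))
  have pH : p ∣ Nat.card H := by_contra fun c => lt.not_ge (mx ⟨inferInstance, c⟩ NH)
  have cH : Nat.card H = Nat.card (H ⧸ N.subgroupOf H) * Nat.card N := by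
    rw [card_eq_card_quotient_mul_card_subgroup (N.subgroupOf H),
      Nat.card_congr (subgroupOfEquivOfLe NH).toEquiv]
  have dv : ∀ r ∈ π, r ∣ Nat.card (H ⧸ N.subgroupOf H) := fun r hr =>
    ((h0 r hr).1.dvd_mul.1 (cH ▸ key H p hp r hr pH)).resolve_right fun c => pN (key N r hr p hp c)
  obtain ⟨T, _, m, f, hT, m0, -⟩ := H25.exists_pi_simple_decomp_minimal_normal S S0 mn
  have c1 : Nat.card (H ⧸ N.subgroupOf H) = Nat.card T ^ m := by
    rw [Nat.card_congr (e.trans f).toEquiv, Nat.card_fun, Nat.card_eq_fintype_card (α := Fin m),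
      Fintype.card_fin]
  obtain rfl : m = 1 := by
    by_contra c
    refine (h0 p hp).2.2 (Dvd.dvd.trans ?_ ((cH ▸ Dvd.intro _ rfl :
      Nat.card (H ⧸ N.subgroupOf H) ∣ Nat.card H).trans (card_subgroup_dvd_card H)))
    rw [c1]
    exact (pow_dvd_pow_of_dvd ((h0 p hp).1.dvd_of_dvd_pow (c1 ▸ dv p hp)) 2).trans
      (pow_dvd_pow _ (by omega))
  have hs : IsSimpleGroup (H ⧸ N.subgroupOf H) :=
    ((e.trans f).trans (MulEquiv.piUnique fun _ : Fin 1 => T)).isSimpleGroup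
  refine ⟨N, H, hN, inferInstance, lt, hs, fun hc => hpq ?_, dv⟩
  letI : CommGroup (H ⧸ N.subgroupOf H) := { mul_comm := hc.is_comm.comm }
  have pr := IsSimpleGroup.prime_card (α := H ⧸ N.subgroupOf H)
  exact ((Nat.prime_dvd_prime_iff_eq (h0 p hp).1 pr).1 (dv p hp)).trans
    ((Nat.prime_dvd_prime_iff_eq (h0 q hq).1 pr).1 (dv q hq)).symm

theorem alt_no_elt {G : Type*} [Group G] {n r s : ℕ} (hr : r.Prime) (hs : s.Prime) (h : r ≠ s)
    (hn : n < r + s)
    (hspec : Set.range (orderOf : G → ℕ) = Set.range (orderOf : ↥(alternatingGroup (Fin n)) → ℕ))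
    (g : G) : orderOf g ≠ r * s := fun e => by
  obtain ⟨x, hx⟩ : orderOf g ∈ Set.range (orderOf : ↥(alternatingGroup (Fin n)) → ℕ) :=
    hspec ▸ ⟨g, rfl⟩
  have := add_le_of_dvd_orderOf (σ := x.1) hr hs h (by rw [orderOf_coe, hx, e])
  rw [Fintype.card_fin] at this
  omega

theorem alt_factor {G : Type*} [Group G] [Finite G] {n p q : ℕ} (hn : 5 ≤ n) (hp : p.Prime)
    (hq : q.Prime) (hpq : p < q) (h1 : n < 2 * p) (h2 : q ≤ n)
    (hcard : Nat.card G = Nat.card ↥(alternatingGroup (Fin n)))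
    (hspec : Set.range (orderOf : G → ℕ) = Set.range (orderOf : ↥(alternatingGroup (Fin n)) → ℕ)) :
    ∃ (N H : Subgroup G) (_ : N.Normal), H.Normal ∧ N < H ∧
      IsSimpleGroup (↥H ⧸ N.subgroupOf H) ∧ ¬ IsMulCommutative (↥H ⧸ N.subgroupOf H) ∧
      ∀ p : ℕ, p.Prime → n < 2 * p → p ≤ n → p ∣ Nat.card (↥H ⧸ N.subgroupOf H) := by
  have : Nontrivial (Fin n) := Fin.nontrivial_iff_two_le.2 (by omega)
  have e : 2 * Nat.card G = n ! := by
    rw [hcard, two_mul_nat_card_alternatingGroup, Nat.card_perm, Nat.card_eq_fintype_card,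
      Fintype.card_fin]
  obtain ⟨N, H, hN, hH, a, b, c, d⟩ := exists_simple_factor (G := G) {r | r.Prime ∧ n < 2 * r ∧ r ≤ n}
    (p := p) (q := q) ⟨hp, h1, by omega⟩ ⟨hq, by omega, h2⟩ hpq.ne
    (fun r hr => ⟨hr.1, ((Nat.coprime_primes hr.1 Nat.prime_two).2 (by
      have := hr.2.1; omega)).dvd_of_dvd_mul_left (e ▸ (hr.1.dvd_factorial.2 hr.2.2)),
      fun c => not_sq_dvd_factorial hr.1 hr.2.1 (e ▸ c.mul_left 2)⟩)
    (fun r hr s hs ⟨k, hk⟩ => by
      obtain ⟨r1, r2, r3⟩ := hr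
      obtain ⟨s1, s2, s3⟩ := hs
      have := r1.two_le
      have o1 := r1.eq_two_or_odd
      have o2 := s1.eq_two_or_odd
      rcases k with _ | _ | k
      · omega
      · omega
      · rw [mul_add, mul_add] at hk; omega)
    fun r hr s hs rs => alt_no_elt hr.1 hs.1 rs (by have := hr.2.1; have := hs.2.1; omega) hspec
  exact ⟨N, H, hN, hH, a, b, c, fun r a b c => d r ⟨a, b, c⟩⟩

theorem solv_elt {G : Type*} [Group G] [Finite G] (hs : Group.IsSolvable G) {p q : ℕ} (hp : p.Prime)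
    (hq : q.Prime) (hpq : p ≠ q) (h1 : p ∣ Nat.card G) (h2 : ¬ p ^ 2 ∣ Nat.card G) (h3 : q ∣ Nat.card G)
    (h4 : ∀ i, q ^ i ∣ Nat.card G → q ^ i ≡ 1 [MOD p] → i = 0) (h5 : ¬ q ∣ p - 1) :
    ∃ g : G, orderOf g = p * q := by
  have := Fact.mk hp
  obtain ⟨K, -, k1, k2⟩ := (H1.hallOK_of_isSolvable {p, q} (X := (⊤ : Subgroup G)) inferInstance).exists
  rw [relIndex_top_right] at k2
  have dv : ∀ r, r.Prime → r ∈ ({p, q} : Set ℕ) → r ∣ Nat.card G → r ∣ Nat.card K := fun r a b c =>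
    (a.dvd_mul.1 (K.card_mul_index ▸ c)).resolve_right (k2 r a b)
  have k3 := card_subgroup_dvd_card K
  obtain ⟨P⟩ : Nonempty (Sylow p K) := inferInstance
  have cP := card_sylow_eq P (dv p hp (by simp) h1) fun c => h2 (c.trans k3)
  have d := P.card_dvd_index
  have e := Nat.eq_prime_pow_of_unique_prime_dvd (n := Nat.card (Sylow p K)) (p := q)
    Nat.card_pos.ne' fun {r} a b => (k1 r a ((b.trans d).trans (index_dvd_card _))).resolve_left
      fun e => P.not_dvd_index (e.symm.dvd.trans (b.trans d))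
  have := h4 _ (e ▸ (d.trans (index_dvd_card _)).trans k3) (e ▸ card_sylow_modEq_one p K)
  rw [this, pow_zero] at e
  have : Subsingleton (Sylow p K) := (Nat.card_eq_one_iff_unique.1 e).1
  have := P.normal_of_subsingleton
  obtain ⟨g, hg⟩ := exists_orderOf_mul hp hq (P : Subgroup K) cP.symm.dvd
    (fun c => h2 ((c.trans (card_subgroup_dvd_card _)).trans k3))
    (by rw [cP, Nat.prime_dvd_prime_iff_eq hq hp]; exact hpq.symm) (dv q hq (by simp) h3) h5
  exact ⟨g, by rw [orderOf_coe, hg]⟩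

end H8.Sy
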