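import Cfsg.Agent.H8.GbW

/-!
The mixed case of Goldschmidt's bound: central involutions at the vertices of one type.
-/

set_option autoImplicit false
set_option linter.unusedSectionVars false

namespace H8.Gb

open H10 Cfsg MulAction

/-- vertices of type `B` carry central involutions `z` -/
structure MX (G : Type*) [Group G] {V : Type*} [MulAction G V] (Γ : SimpleGraph V) (B : V → Prop)
    (z : V → G) : Prop extends AG G Γ where
  Bs : ∀ (g : G) (v : V), B (g • v) ↔ B v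
  bip : ∀ {u v : V}, Γ.Adj u v → (B u ↔ ¬ B v)
  zs : ∀ (g : G) (v : V), z (g • v) = g * z v * g⁻¹
  zm : ∀ {v : V}, B v → z v • v = v
  zne : ∀ {v : V}, B v → z v ≠ 1
  zz : ∀ v : V, z v * z v = 1
  cen : ∀ {a b : V}, Γ.Adj a b → B b →
    stabilizer G b ≤ CC(ZO 2 (stabilizer G a ⊓ stabilizer G b))

variable {G : Type*} [Group G] [Finite G] {V : Type*} [MulAction G V] {Γ : SimpleGraph V}

local notation "𝐆" a:max => MulAction.stabilizer G a
local notation "𝐐" a:max => gQ G a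

theorem cen_Q {a : V} {x : G} (h1 : x • a = a) (h2 : x * x = 1)
    (h3 : ∀ g : G, g • a = a → g * x = x * g) : x ∈ 𝐐 a := by
  refine le_pCoreOf (P := Subgroup.zpowers x) ?_ (Subgroup.zpowers_le_of_mem h1) ?_
    (Subgroup.mem_zpowers x)
  · intro y
    refine ⟨1, Subtype.ext ?_⟩
    rcases (H6.mem_zpowers_ord2 h2).1 y.2 with e | e <;> simp [e, sq, h2]
  · refine le_trans (fun g hg => mem_CC.2 fun y hy => ?_) (CC_le_NN _)
    rcases (H6.mem_zpowers_ord2 h2).1 hy with rfl | rfl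
    · simp
    · exact (h3 g hg).symm

theorem noc' (h : AG G Γ) {a b : V} (hab : Γ.Adj a b) (hc : 𝐆 b ≤ CC(ZO 2 (𝐆 a ⊓ 𝐆 b))) {x : G}
    (h1 : x • a = a) (h2 : x * x = 1) (h3 : ∀ g : G, g • a = a → g * x = x * g) : x = 1 := by
  have hT := h.Q_le_T hab (cen_Q h1 h2 h3)
  have hZ : x ∈ ZO 2 (𝐆 a ⊓ 𝐆 b) := mem_ZO.2 ⟨hT, mem_CC.2 fun g hg => h3 g hg.1, by rwa [sq]⟩
  exact (h.bot_of_CC hab (Subgroup.zpowers_le_of_mem hT)
    (Subgroup.zpowers_le_of_mem (mem_CC.2 h3))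
    ((Subgroup.zpowers_le_of_mem hZ).trans (le_CC_symm hc))).le (Subgroup.mem_zpowers x)

theorem exists_mx (h : AG G Γ) {a b : V} (hab : Γ.Adj a b) (hc : 𝐆 b ≤ CC(ZO 2 (𝐆 a ⊓ 𝐆 b))) :
    ∃ (B : V → Prop) (z : V → G), MX G Γ B z ∧ B b := by
  classical
  obtain ⟨⟨x, hx⟩, hx1⟩ := Subgroup.ne_bot_iff_exists_ne_one.1 (ZO_ne_bot (h.loc hab).pg
    fun e => (h.loc hab).not_le (e.le.trans bot_le))
  have hx1 : x ≠ 1 := fun e => hx1 (Subtype.ext e)
  obtain ⟨xT, -, x2⟩ := mem_ZO.1 hx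
  rw [sq] at x2
  let B : V → Prop := fun v => ∃ g : G, g • b = v
  let z : V → G := fun v => if hv : B v then hv.choose * x * hv.choose⁻¹ else 1
  have zv : ∀ g : G, z (g • b) = g * x * g⁻¹ := fun g => by
    have hv : B (g • b) := ⟨g, rfl⟩
    have h1 : g⁻¹ * hv.choose ∈ 𝐆 b := by
      rw [mem_stabilizer_iff, mul_smul, hv.choose_spec, inv_smul_smul]
    have h2 := mem_CC.1 (hc h1) x hx
    simp only [z, dif_pos hv]
    calc _ = g * (g⁻¹ * hv.choose * x) * hv.choose⁻¹ := by group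
      _ = _ := by rw [← h2]; group
  have Bs : ∀ (g : G) (v : V), B (g • v) ↔ B v := fun g v =>
    ⟨fun ⟨k, hk⟩ => ⟨g⁻¹ * k, by rw [mul_smul, hk, inv_smul_smul]⟩,
      fun ⟨k, hk⟩ => ⟨g * k, by rw [mul_smul, hk]⟩⟩
  have zs : ∀ (g : G) (v : V), z (g • v) = g * z v * g⁻¹ := fun g v => by
    by_cases hv : B v
    · obtain ⟨k, rfl⟩ := hv
      rw [← mul_smul, zv, zv]; group
    · simp only [z, dif_neg hv, dif_neg (mt (Bs g v).1 hv)]; simp
  have zm : ∀ {v : V}, B v → z v • v = v := by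
    rintro _ ⟨k, rfl⟩
    rw [zv, mul_smul, mul_smul, inv_smul_smul, (xT.2 : x • b = b)]
  have zne : ∀ {v : V}, B v → z v ≠ 1 := by
    rintro _ ⟨k, rfl⟩ e
    rw [zv] at e
    exact hx1 (by simpa using e)
  have zz : ∀ v : V, z v * z v = 1 := fun v => by
    by_cases hv : B v
    · obtain ⟨k, rfl⟩ := hv
      rw [zv]
      calc _ = k * (x * x) * k⁻¹ := by group
        _ = 1 := by rw [x2]; group
    · simp only [z, dif_neg hv, mul_one]
  have cen : ∀ {u v : V}, Γ.Adj u v → B v → 𝐆 v ≤ CC(ZO 2 (𝐆 u ⊓ 𝐆 v)) := by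
    rintro u _ huv ⟨k, rfl⟩
    obtain ⟨g, hg, e⟩ := h.tr hab.symm (h.smul_inv huv.symm)
    have e1 : u = (k * g) • a := by rw [mul_smul, e, smul_inv_smul]
    have e2 : k • b = (k * g) • b := by rw [mul_smul, (hg : g • b = b)]
    rw [e1, e2, stab_smul, stab_smul, ← cj_inf, ← cj_ZO, ← cj_centralizer]
    exact cj_mono _ hc
  refine ⟨B, z, ⟨h, Bs, fun {u v} huv => ⟨fun hu hv => zne hu (noc' h huv (cen huv hv) (zm hu)
    (zz u) fun g hg => ?_), fun hv => ?_⟩, zs, zm, zne, zz, cen⟩, ⟨1, one_smul _ _⟩⟩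
  · have := zs g u
    rw [hg] at this
    rw [eq_mul_inv_iff_mul_eq] at this
    exact this.symm
  · exact (h.or_of (P := B) (fun g v hv => (Bs g v).2 hv) huv ⟨1, one_smul _ _⟩).resolve_right hv

/-- `Z_a` -/
def ZA (Γ : SimpleGraph V) (z : V → G) (a : V) : Subgroup G :=
  Subgroup.closure {x | ∃ b, Γ.Adj a b ∧ x = z b}

theorem z_ZA {z : V → G} {a b : V} (hab : Γ.Adj a b) : z b ∈ ZA Γ z a :=
  Subgroup.subset_closure ⟨b, hab, rfl⟩

namespace MX

variable {B : V → Prop} {z : V → G} (h : MX G Γ B z)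
include h

theorem nb {a b : V} (hab : Γ.Adj a b) (hb : B b) : ¬ B a := fun ha => (h.bip hab).1 ha hb

theorem bn {a b : V} (hab : Γ.Adj a b) (ha : ¬ B a) : B b := by
  by_contra hb; exact ha ((h.bip hab).2 hb)

theorem bb {a b c : V} (hab : Γ.Adj a b) (hac : Γ.Adj a c) (hb : B b) : B c :=
  h.bn hac (h.nb hab hb)

theorem zinv (v : V) : (z v)⁻¹ = z v := inv_eq_of_mul_eq_one_right (h.zz v)

theorem zc {b : V} {g : G} (hg : g • b = b) : g * z b = z b * g := by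
  have := h.zs g b
  rw [hg, eq_mul_inv_iff_mul_eq] at this
  exact this.symm

theorem noc {a : V} (ha : ¬ B a) {x : G} (h1 : x • a = a) (h2 : x * x = 1)
    (h3 : ∀ g : G, g • a = a → g * x = x * g) : x = 1 := by
  obtain ⟨b, hb⟩ := h.ex a
  exact noc' h.toAG hb (h.cen hb (h.bn hb ha)) h1 h2 h3

theorem Qs {a b : V} (hab : Γ.Adj a b) {g : G} (hg : g ∈ 𝐐 a) : g • b = b := h.Q_le hab hg

theorem zQ {b : V} (hb : B b) : z b ∈ 𝐐 b := cen_Q (h.zm hb) (h.zz b) fun _ => h.zc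

theorem zQ' {a b : V} (hab : Γ.Adj a b) (hb : B b) : z b ∈ 𝐐 a :=
  h.ch a ⟨h.Qs hab.symm (h.zQ hb), mem_CC.2 fun _ hg => h.zc (h.Qs hab hg)⟩

theorem Qc {a b : V} (hab : Γ.Adj a b) {g : G} (hg : g ∈ 𝐐 a) : g * z b = z b * g :=
  h.zc (h.Qs hab hg)

theorem zne' {a b c : V} (hab : Γ.Adj a b) (hac : Γ.Adj a c) (hne : b ≠ c) (hb : B b) :
    z b ≠ z c := fun e => by
  refine h.zne hb (h.noc (h.nb hab hb) (h.Qs hab.symm (h.zQ hb)) (h.zz b) fun g hg => ?_)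
  have := h.gen' hab hac hne (X := CC(Subgroup.zpowers (z b))) (fun g hg => ?_) (fun g hg => ?_) hg
  · exact (mem_CC.1 this _ (Subgroup.mem_zpowers _)).symm
  · exact le_CC_symm (Subgroup.zpowers_le_of_mem (mem_CC.2 fun g hg => by
      rw [e]; exact h.zc hg.2)) hg
  · exact le_CC_symm (Subgroup.zpowers_le_of_mem (mem_CC.2 fun g hg => by
      exact h.zc hg.2)) hg

theorem zcm {a b c : V} (hab : Γ.Adj a b) (hac : Γ.Adj a c) (hb : B b) : z b * z c = z c * z b :=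
  h.Qc hac (h.zQ' hab hb)

theorem z3 {a b c d : V} (hb : Γ.Adj a b) (hc : Γ.Adj a c) (hd : Γ.Adj a d) (h1 : b ≠ c)
    (h2 : b ≠ d) (h3 : c ≠ d) (hB : B b) : z b * z c = z d := by
  have bc := h.zcm hb hc hB
  have bd := h.zcm hb hd hB
  have cd := h.zcm hc hd (h.bb hb hc hB)
  have key : ∀ {b c d : V}, Γ.Adj a b → Γ.Adj a c → Γ.Adj a d → b ≠ c → b ≠ d → c ≠ d → B b →
      ∀ g ∈ 𝐆 a ⊓ 𝐆 b, g * (z b * z c * z d) = z b * z c * z d * g := by
    intro b c d hb hc hd h1 h2 h3 hB g hg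
    have e : g * (z b * z c * z d) * g⁻¹ = z (g • b) * z (g • c) * z (g • d) := by
      rw [h.zs, h.zs, h.zs]; group
    rw [(hg.2 : g • b = b)] at e
    rw [← mul_inv_eq_iff_eq_mul, e]
    by_cases hq : g ∈ 𝐐 a
    · rw [h.Qs hc hq, h.Qs hd hq]
    · rw [h.smul_eq hb hc hd h1.symm h2.symm h3 hg hq,
        h.smul_eq hb hd hc h2.symm h1.symm h3.symm hg hq, mul_assoc,
        h.zcm hd hc (h.bb hb hd hB), mul_assoc]
  have hx : z b * z c * z d = 1 := by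
    refine h.noc (h.nb hb hB) (gQ_le a (mul_mem (mul_mem (h.zQ' hb hB) (h.zQ' hc (h.bb hb hc hB)))
      (h.zQ' hd (h.bb hb hd hB)))) ?_ fun g hg => ?_
    · calc _ = z b * (z c * (z d * z b) * z c) * z d := by group
        _ = z b * ((z c * z b) * (z d * z c)) * z d := by rw [← bd]; group
        _ = (z b * z b) * (z c * z c) * (z d * z d) := by rw [← bc, ← cd]; group
        _ = 1 := by rw [h.zz, h.zz, h.zz]; group
    · have := h.gen' hb hc h1 (X := CC(Subgroup.zpowers (z b * z c * z d))) (fun g hg => ?_)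
        (fun g hg => ?_) hg
      · exact (mem_CC.1 this _ (Subgroup.mem_zpowers _)).symm
      · refine le_CC_symm (Subgroup.zpowers_le_of_mem (mem_CC.2 fun g hg => ?_)) hg
        rw [bc]
        exact key hc hb hd h1.symm h3 h2 (h.bb hb hc hB) g hg
      · exact le_CC_symm (Subgroup.zpowers_le_of_mem (mem_CC.2 (key hb hc hd h1 h2 h3 hB))) hg
  rw [← h.zinv d]
  exact eq_inv_of_mul_eq_one_left hx

theorem swap {a b c : V} (hb : Γ.Adj a b) (hc : Γ.Adj a c) (hne : c ≠ b) (hB : B b) {g : G}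
    (h1 : g • a = a) (h2 : g • b = b) (hq : g ∉ 𝐐 a) : g * z c * g⁻¹ = z c * z b := by
  obtain ⟨a1, a2, a3⟩ := h.smul_ne hb hc hne ⟨h1, h2⟩ hq
  rw [← h.zs, h.z3 hc hb a1 hne a2.symm a3.symm (h.bb hb hc hB)]

theorem memQ {a b c : V} (hb : Γ.Adj a b) (hc : Γ.Adj a c) (hne : c ≠ b) (hB : B b) {g : G}
    (h1 : g • a = a) (h2 : g • b = b) (h3 : g * z c = z c * g) : g ∈ 𝐐 a := by
  by_contra hq
  have := h.swap hb hc hne hB h1 h2 hq
  rw [h3, mul_inv_cancel_right] at this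
  exact h.zne hB (by simpa using this)

theorem alt {a b c : V} (hb : Γ.Adj a b) (hc : Γ.Adj a c) (hB : B b) {g : G}
    (h1 : g • a = a) (h2 : g • b = b) : g * z c * g⁻¹ = z c ∨ g * z c * g⁻¹ = z c * z b := by
  by_cases hne : c = b
  · left; rw [hne, h.zc h2, mul_inv_cancel_right]
  by_cases hq : g ∈ 𝐐 a
  · left; rw [h.Qc hc hq, mul_inv_cancel_right]
  · exact Or.inr (h.swap hb hc hne hB h1 h2 hq)

theorem zor {a b c d : V} (hb : Γ.Adj a b) (hc : Γ.Adj a c) (hd : Γ.Adj a d) (h1 : c ≠ b)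
    (h2 : d ≠ b) (hB : B b) : z d = z c ∨ z d = z c * z b := by
  by_cases e : d = c
  · left; rw [e]
  · exact Or.inr (h.z3 hc hb hd h1 (Ne.symm e) h2.symm (h.bb hb hc hB)).symm

theorem mem_ZA {a : V} (ha : ¬ B a) {x : G} (hx : x ∈ ZA Γ z a) :
    x = 1 ∨ ∃ b, Γ.Adj a b ∧ x = z b := by
  induction hx using Subgroup.closure_induction with
  | mem x hx => exact Or.inr hx
  | one => exact Or.inl rfl
  | mul x y _ _ hx hy =>
    rcases hx with rfl | ⟨b, hb, rfl⟩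
    · rwa [one_mul]
    rcases hy with rfl | ⟨c, hc, rfl⟩
    · rw [mul_one]; exact Or.inr ⟨b, hb, rfl⟩
    by_cases e : c = b
    · left; rw [e, h.zz]
    obtain ⟨d, hd, d1, d2⟩ := h.exists_third hb hc e
    exact Or.inr ⟨d, hd, h.z3 hb hc hd (Ne.symm e) d2.symm d1.symm (h.bn hb ha)⟩
  | inv x _ hx =>
    rcases hx with rfl | ⟨b, hb, rfl⟩
    · left; exact inv_one
    · rw [h.zinv]; exact Or.inr ⟨b, hb, rfl⟩

theorem mem_ZA' {a b c : V} (hb : Γ.Adj a b) (hc : Γ.Adj a c) (hne : c ≠ b) (hB : B b) {x : G}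
    (hx : x ∈ ZA Γ z a) : x = 1 ∨ x = z b ∨ x = z c ∨ x = z c * z b := by
  rcases h.mem_ZA (h.nb hb hB) hx with e | ⟨d, hd, rfl⟩
  · exact Or.inl e
  by_cases e : d = b
  · rw [e]; exact Or.inr (Or.inl rfl)
  exact Or.inr (Or.inr (h.zor hb hc hd hne e hB))

theorem ZA_le {a : V} (ha : ¬ B a) : ZA Γ z a ≤ 𝐐 a := (Subgroup.closure_le _).2 (by
  rintro _ ⟨b, hb, rfl⟩; exact h.zQ' hb (h.bn hb ha))

theorem ZA_c {a : V} {x g : G} (hx : x ∈ ZA Γ z a) (hg : g ∈ 𝐐 a) : g * x = x * g := by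
  have : ZA Γ z a ≤ CC(𝐐 a) := (Subgroup.closure_le _).2 (by
    rintro _ ⟨b, hb, rfl⟩; exact mem_CC.2 fun g hg => h.Qc hb hg)
  exact mem_CC.1 (this hx) g hg

theorem ZA_cj {a : V} {x : G} (hx : x ∈ ZA Γ z a) (g : G) : g * x * g⁻¹ ∈ ZA Γ z (g • a) := by
  have : ZA Γ z a ≤ cj g⁻¹ (ZA Γ z (g • a)) := (Subgroup.closure_le _).2 (by
    rintro _ ⟨b, hb, rfl⟩
    have := z_ZA (z := z) (h.smul g hb)
    rw [h.zs] at this
    simpa [mem_cj] using this)
  simpa [mem_cj] using this hx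

theorem ZA_n {a : V} : 𝐆 a ≤ NN(ZA Γ z a) := le_NN_iff.2 fun g hg x hx => by
  have := h.ZA_cj hx g
  rwa [(hg : g • a = a)] at this

theorem ZA_sq {a : V} (ha : ¬ B a) {x : G} (hx : x ∈ ZA Γ z a) : x * x = 1 := by
  rcases h.mem_ZA ha hx with rfl | ⟨b, -, rfl⟩
  exacts [one_mul _, h.zz b]

theorem card_ZA {a : V} (ha : ¬ B a) : Nat.card (ZA Γ z a) ≤ 4 := by
  obtain ⟨b, hb⟩ := h.ex a
  obtain ⟨c, hc, hne⟩ := h.exists_ne hb
  have : (ZA Γ z a : Set G) ⊆ {1, z b, z c, z c * z b} := fun x hx =>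
    h.mem_ZA' hb hc hne (h.bn hb ha) hx
  rw [← SetLike.coe_sort_coe, Nat.card_coe_set_eq]
  refine (Set.ncard_le_ncard this).trans ?_
  have a1 := Set.ncard_insert_le 1 ({z b, z c, z c * z b} : Set G)
  have a2 := Set.ncard_insert_le (z b) ({z c, z c * z b} : Set G)
  have a3 := Set.ncard_insert_le (z c) ({z c * z b} : Set G)
  rw [Set.ncard_singleton] at a3
  omega

end MX

end H8.Gb
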