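import Cfsg.Agent.H8.Gb1
import Cfsg.Agent.H3.Transfer2

/-!
The mixed case of Goldschmidt's bound: elements of order three and the order bound.
-/

set_option autoImplicit false
set_option linter.unusedSectionVars false

namespace H8.Gb

open H10 Cfsg MulAction
open scoped commutatorElement

variable {G : Type*} [Group G] [Finite G] {V : Type*} [MulAction G V] {Γ : SimpleGraph V}

local notation "𝐆" a:max => MulAction.stabilizer G a
local notation "𝐐" a:max => gQ G a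
local notation "zp" => Subgroup.zpowers

theorem card_sup_zp {X : Subgroup G} {w : G} (h1 : w ∈ NN(X)) (h2 : w * w ∈ X) :
    Nat.card (X ⊔ zp w : Subgroup G) ≤ 2 * Nat.card X := by
  have : X.relIndex (X ⊔ zp w) ∣ 2 := by
    refine Subgroup.relIndex_dvd_two_iff.2 ⟨w, Subgroup.mem_sup_right (Subgroup.mem_zpowers w),
      fun b hb => ?_⟩
    obtain ⟨x, hx, y, hy, rfl⟩ := (mem_sup_of_NN' (Subgroup.zpowers_le_of_mem h1)).1 hb
    obtain ⟨k, rfl⟩ := Subgroup.mem_zpowers_iff.1 hy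
    have e : ∀ j : ℤ, w ^ (2 * j) ∈ X := fun j => by
      rw [zpow_mul, zpow_two]; exact zpow_mem h2 j
    rcases Int.even_or_odd' k with ⟨j, rfl | rfl⟩
    · exact Or.inr (mul_mem hx (e j))
    · left
      rw [mul_assoc, ← zpow_add_one, show 2 * j + 1 + 1 = 2 * (j + 1) by ring]
      exact mul_mem hx (e _)
  rw [card_eq_of_relIndex rfl (le_sup_left (a := X) (b := zp w))]
  exact Nat.mul_le_mul_right _ (Nat.le_of_dvd (by omega) this)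

theorem arith {i j : ℕ} (h1 : 2 ^ i ≡ 2 ^ j [MOD 3]) (h2 : 2 ^ i ≤ 2 ^ j * 32) (h3 : 2 ^ j ≤ 4) :
    2 ^ i ≤ 64 := by
  have j2 : j ≤ 2 := (Nat.pow_le_pow_iff_right (by omega : 1 < 2)).1 (by omega)
  have i7 : i ≤ 7 := (Nat.pow_le_pow_iff_right (by omega : 1 < 2)).1 (by omega)
  interval_cases j <;> interval_cases i <;> simp_all [Nat.ModEq]

theorem nn_sup_zp {X : Subgroup G} {w q : G} (h1 : q ∈ NN(X)) (h2 : q * w * q⁻¹ * w⁻¹ ∈ X) :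
    q ∈ NN(X ⊔ zp w) := by
  refine mem_NN_of_cj_le ?_
  rw [cj_sup, cj_zpowers, cj_eq_of_mem_NN h1]
  refine sup_le le_sup_left (Subgroup.zpowers_le_of_mem ?_)
  simpa using mul_mem (Subgroup.mem_sup_left h2) (Subgroup.mem_sup_right (Subgroup.mem_zpowers w))

theorem exists_d (h : AG G Γ) (a : V) : ∃ d : G, d • a = a ∧ d ^ 3 = 1 ∧ d ∈ resOf 2 (𝐆 a) ∧
    Nat.card (zp d) = 3 ∧ (∀ b, Γ.Adj a b → d • b ≠ b) ∧
    resOf 2 (𝐆 a) ≤ zp d ⊔ pCoreOf 2 (resOf 2 (𝐆 a)) := by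
  have : Fact (Nat.Prime 3) := ⟨Nat.prime_three⟩
  obtain ⟨b, hb⟩ := h.ex a
  obtain ⟨d, hd, ho⟩ := exists_orderOf_eq_of_dvd (p := 3) (L := 𝐆 a)
    ((h.loc hb).idx3 ▸ Dvd.intro_left _ (card_mul_relIndex (h.loc hb).le))
  have hc : Nat.card (zp d) = 3 := by rw [Nat.card_zpowers, ho]
  have hE : d ∈ resOf 2 (𝐆 a) := mem_resOf hd (by rw [ho]; decide)
  have np : ∀ P : Subgroup G, IsPGroup 2 P → d ∉ P := fun P hP e => by
    obtain ⟨k, hk⟩ := IsPGroup.iff_card.1 (hP.to_le (Subgroup.zpowers_le_of_mem e))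
    rw [hc] at hk
    rcases k with _ | k <;> omega
  refine ⟨d, hd, ho ▸ pow_orderOf_eq_one d, hE, hc, fun c hc e => np _ (h.loc hc).pg ⟨hd, e⟩,
    ((h.loc hb).k3.eq_of le_sup_right (sup_le (Subgroup.zpowers_le_of_mem hE) (pCoreOf_le _))
      fun e => np _ (isPGroup_pCoreOf _) (e (Subgroup.mem_sup_left (Subgroup.mem_zpowers d)))).ge⟩

theorem three_d (h : AG G Γ) {a b : V} (hb : Γ.Adj a b) {d : G} (h1 : d • a = a) (h3 : d ^ 3 = 1)
    (hf : ∀ b, Γ.Adj a b → d • b ≠ b) {c : V} (hc : Γ.Adj a c) :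
    c = b ∨ c = d • b ∨ c = d • d • b := by
  have a1 := h.smul_of_mem h1 hb
  refine h.three hb a1 (h.smul_of_mem h1 a1) (hf b hb).symm (fun e => hf b hb ?_)
    (hf _ a1).symm hc
  have e1 : d • d • d • b = b := by rw [← mul_smul, ← mul_smul, ← pow_three', h3, one_smul]
  rw [← e] at e1
  exact e1

theorem comm_res (h : AG G Γ) {a : V} {W : Subgroup G} (hn : 𝐆 a ≤ NN(W)) {t : G} (h1 : t • a = a)
    (h2 : t ∉ 𝐐 a) (h3 : ∀ q ∈ 𝐐 a, t * q * t⁻¹ * q⁻¹ ∈ W) : ⁅resOf 2 (𝐆 a), 𝐐 a⁆ ≤ W := by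
  obtain ⟨b, hb⟩ := h.ex a
  have k := le_stabMod.1 (Subgroup.zpowers_le_of_mem (show t ∈ stabMod (𝐐 a) W from ⟨hn h1, h3⟩))
  exact (Subgroup.commutator_mono ((h.loc hb).res_le_ncl (Subgroup.zpowers_le_of_mem h1)
    fun e => h2 (e (Subgroup.mem_zpowers t))) le_rfl).trans
    (comm_ncl_le k.2 k.1 (le_NN_gQ le_rfl) hn)

/-- the group generated by `Z_a` and a family of elements attached to the neighbours of `a` -/
def WW (Γ : SimpleGraph V) (z : V → G) (a : V) (R : V → G → Prop) : Subgroup G :=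
  ZA Γ z a ⊔ Subgroup.closure {w | ∃ c, Γ.Adj a c ∧ R c w}

theorem ZA_WW {z : V → G} {a : V} {R : V → G → Prop} {x : G} (hx : x ∈ ZA Γ z a) :
    x ∈ WW Γ z a R := Subgroup.mem_sup_left hx

theorem R_WW {z : V → G} {a c : V} {R : V → G → Prop} {x : G} (hc : Γ.Adj a c) (hx : R c x) :
    x ∈ WW Γ z a R := Subgroup.mem_sup_right (Subgroup.subset_closure ⟨c, hc, hx⟩)

namespace MX

variable {B : V → Prop} {z : V → G} (h : MX G Γ B z)
include h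

theorem CE {a : V} (ha : ¬ B a) : 𝐐 a ⊓ CC(resOf 2 (𝐆 a)) = ⊥ := by
  by_contra hne
  obtain ⟨b, hb⟩ := h.ex a
  have hn : 𝐆 a ≤ NN(𝐐 a ⊓ CC(resOf 2 (𝐆 a))) :=
    le_NN_inf (le_NN_gQ le_rfl) (le_NN_CC (le_NN_resOf _))
  obtain ⟨⟨y, hy⟩, hy1⟩ := Subgroup.ne_bot_iff_exists_ne_one.1 (inf_ZO_ne_bot (h.loc hb).pg
    (inf_le_left.trans (h.Q_le_T hb)) (inf_le_left.trans hn) hne)
  obtain ⟨y1, y2, y3⟩ := mem_ZO.1 hy.2
  have : y ∈ CC(𝐆 a) := by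
    rw [← (h.loc hb).res_sup, CC_sup]; exact ⟨hy.1.2, y2⟩
  exact hy1 (Subtype.ext (h.noc ha y1.1 (by rwa [sq] at y3) (mem_CC.1 this)))

theorem O_le {a : V} : pCoreOf 2 (resOf 2 (𝐆 a)) ≤ 𝐐 a := by
  obtain ⟨b, hb⟩ := h.ex a
  exact (h.loc hb).O_res.le.trans inf_le_left

theorem WW_n {a : V} {R : V → G → Prop}
    (R1 : ∀ g c w, g • a = a → Γ.Adj a c → R c w → R (g • c) (g * w * g⁻¹)) :
    𝐆 a ≤ NN(WW Γ z a R) := by
  refine le_NN_of_cj_le fun g hg => ?_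
  rw [WW, cj_sup, cj_eq_of_mem_NN (h.ZA_n hg)]
  refine sup_le_sup_left (cj_le_iff.2 ((Subgroup.closure_le _).2 ?_)) _
  rintro w ⟨c, hc, hw⟩
  simpa [mem_cj] using Subgroup.subset_closure (k := {w | ∃ c, Γ.Adj a c ∧ R c w})
    ⟨_, h.smul_of_mem hg hc, R1 g c w hg hc hw⟩

/-- the order bound -/
theorem bt {a : V} (ha : ¬ B a) (R : V → G → Prop)
    (R1 : ∀ g c w, g • a = a → Γ.Adj a c → R c w → R (g • c) (g * w * g⁻¹))
    (R2 : ∀ c w w', Γ.Adj a c → R c w → R c w' → w' * w⁻¹ ∈ ZA Γ z a)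
    (R3 : ∀ c w, Γ.Adj a c → R c w → w ∈ 𝐐 a ∧ w * w ∈ ZA Γ z a)
    (R4 : ∃ c w, Γ.Adj a c ∧ R c w)
    (R5 : ∃ t : G, t • a = a ∧ t ∉ 𝐐 a ∧ ∀ q ∈ 𝐐 a, t * q * t⁻¹ * q⁻¹ ∈ WW Γ z a R) :
    Nat.card (𝐐 a) ≤ 64 := by
  have : Fact (Nat.Prime 3) := ⟨Nat.prime_three⟩
  obtain ⟨t, t1, t2, t3⟩ := R5
  obtain ⟨b, w, hb, hw⟩ := R4
  obtain ⟨d, d1, d3, dE, dc, df, dg⟩ := exists_d h.toAG a
  have hE := comm_res h.toAG (h.WW_n R1) t1 t2 t3
  have hD : zp d ≤ NN(𝐐 a) := le_NN_gQ (Subgroup.zpowers_le_of_mem d1)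
  have b2 := h.smul_of_mem d1 hb
  have b3 := h.smul_of_mem d1 b2
  have w2 := R1 d b w d1 hb hw
  have w3 := R1 d _ _ d1 b2 w2
  have cm : ∀ c w, Γ.Adj a c → R c w → ∀ q ∈ 𝐐 a, q * w * q⁻¹ * w⁻¹ ∈ ZA Γ z a :=
    fun c w hc hw q hq => R2 c _ _ hc hw (by
      have := R1 q c w (gQ_le a hq) hc hw
      rwa [h.Qs hc hq] at this)
  have n0 : 𝐐 a ≤ NN(ZA Γ z a) := (gQ_le a).trans h.ZA_n
  have n1 : 𝐐 a ≤ NN(ZA Γ z a ⊔ zp w) := fun q hq => nn_sup_zp (n0 hq) (cm _ _ hb hw q hq)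
  have n2 : 𝐐 a ≤ NN(ZA Γ z a ⊔ zp w ⊔ zp (d * w * d⁻¹)) := fun q hq =>
    nn_sup_zp (n1 hq) (Subgroup.mem_sup_left (cm _ _ b2 w2 q hq))
  have c0 := h.card_ZA ha
  have c1 := card_sup_zp (n0 (R3 _ _ hb hw).1) (R3 _ _ hb hw).2
  have c2 := card_sup_zp (n1 (R3 _ _ b2 w2).1) (Subgroup.mem_sup_left (R3 _ _ b2 w2).2)
  have c3 := card_sup_zp (n2 (R3 _ _ b3 w3).1)
    (Subgroup.mem_sup_left (Subgroup.mem_sup_left (R3 _ _ b3 w3).2))
  have hW : WW Γ z a R ≤ ZA Γ z a ⊔ zp w ⊔ zp (d * w * d⁻¹) ⊔ zp (d * (d * w * d⁻¹) * d⁻¹) := by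
    have l0 : ZA Γ z a ≤ ZA Γ z a ⊔ zp w ⊔ zp (d * w * d⁻¹) ⊔ zp (d * (d * w * d⁻¹) * d⁻¹) :=
      le_sup_left.trans (le_sup_left.trans le_sup_left)
    refine sup_le l0 ((Subgroup.closure_le _).2 ?_)
    rintro x ⟨c, hc, hx⟩
    rcases three_d h.toAG hb d1 d3 df hc with rfl | rfl | rfl
    · simpa using mul_mem (l0 (R2 _ _ _ hc hw hx)) (Subgroup.mem_sup_left (Subgroup.mem_sup_left
        (Subgroup.mem_sup_right (Subgroup.mem_zpowers w))))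
    · have := mul_mem (l0 (R2 _ _ _ hc w2 hx)) (Subgroup.mem_sup_left
        (Subgroup.mem_sup_right (Subgroup.mem_zpowers _)))
      rwa [inv_mul_cancel_right] at this
    · have := mul_mem (l0 (R2 _ _ _ hc w3 hx)) (Subgroup.mem_sup_right (Subgroup.mem_zpowers _))
      rwa [inv_mul_cancel_right] at this
  have c4 := Subgroup.card_le_of_le hW
  have hQ := H1.commutator_sup_centralizer hD (coprime_card_of_isPGroup (gQ_pg a)
    (by rw [dc]; decide)).symm (Or.inr (isSolvable_of_isPGroup (gQ_pg a)))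
  have hQ' : 𝐐 a ≤ 𝐐 a ⊓ CC(zp d) ⊔ WW Γ z a R := by
    refine hQ.ge.trans (sup_le (le_trans ?_ le_sup_right) le_sup_left)
    rw [Subgroup.commutator_comm]
    exact (Subgroup.commutator_mono (Subgroup.zpowers_le_of_mem dE) le_rfl).trans hE
  have c5 := card_sup_mul_card_inf (L := 𝐐 a ⊓ CC(zp d)) (N := WW Γ z a R)
    (inf_le_left.trans ((gQ_le a).trans (h.WW_n R1)))
  have c6 := Subgroup.card_le_of_le hQ'
  have c7 : 0 < Nat.card (𝐐 a ⊓ CC(zp d) ⊓ WW Γ z a R : Subgroup G) := Nat.card_pos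
  have hO : pCoreOf 2 (resOf 2 (𝐆 a)) ≤ WW Γ z a R := (h.loc hb).k3.O_le_comm.trans (by
    rw [Subgroup.commutator_comm]
    exact (Subgroup.commutator_mono le_rfl h.O_le).trans hE)
  have c8 : Nat.card (𝐐 a ⊓ CC(zp d) : Subgroup G) ≤ Nat.card (ZA Γ z a) := by
    refine Nat.card_le_card_of_injective (fun n => ⟨n * w * (n : G)⁻¹ * w⁻¹, cm _ _ hb hw n n.2.1⟩) ?_
    rintro ⟨n, hn⟩ ⟨n', hn'⟩ e
    have e1 : n * w * n⁻¹ * w⁻¹ = n' * w * n'⁻¹ * w⁻¹ := congrArg Subtype.val e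
    have hk := mul_mem (inv_mem hn') hn
    have k1 : Commute (n'⁻¹ * n) w := by
      calc n'⁻¹ * n * w = n'⁻¹ * (n * w * n⁻¹ * w⁻¹) * w * n := by group
        _ = _ := by rw [e1]; group
    refine Subtype.ext (inv_mul_eq_one.1 ?_).symm
    generalize n'⁻¹ * n = k at hk k1
    have k2 : Commute k d := (mem_CC.1 hk.2 d (Subgroup.mem_zpowers d)).symm
    have k3 := (k2.mul_right k1).mul_right k2.inv_right
    have k4 := (k2.mul_right k3).mul_right k2.inv_right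
    have zc : ∀ x : G, Commute k x → zp x ≤ CC(zp k) := fun x hx =>
      Subgroup.zpowers_le_of_mem (mem_CC.2 fun y hy => by
        obtain ⟨j, rfl⟩ := Subgroup.mem_zpowers_iff.1 hy
        exact (hx.zpow_left j).eq)
    have k5 : resOf 2 (𝐆 a) ≤ CC(zp k) := dg.trans (sup_le (zc d k2) (hO.trans (hW.trans
      (sup_le (sup_le (sup_le (fun x hx => zc x (h.ZA_c hx hk.1) (Subgroup.mem_zpowers x))
        (zc _ k1)) (zc _ k3)) (zc _ k4)))))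
    exact (h.CE ha).le ⟨hk.1, le_CC_symm k5 (Subgroup.mem_zpowers k)⟩
  have c9 := H3.card_modEq_card_inf_centralizer (p := 3) (IsPGroup.of_card (n := 1) dc) hD
  obtain ⟨i, hi⟩ := IsPGroup.iff_card.1 (gQ_pg (G := G) a)
  obtain ⟨j, hj⟩ := IsPGroup.iff_card.1 ((gQ_pg (G := G) a).to_le
    (inf_le_left (b := CC(zp d))))
  have c10 : Nat.card (𝐐 a) ≤ Nat.card (𝐐 a ⊓ CC(zp d) : Subgroup G) * 32 := by
    refine c6.trans ((Nat.le_mul_of_pos_right _ c7).trans (c5.le.trans ?_))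
    exact Nat.mul_le_mul_left _ (by omega)
  rw [hi, hj] at c9 c10
  rw [hj] at c8
  rw [hi]
  exact arith c9 c10 (c8.trans c0)

end MX

end H8.Gb
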