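import Cfsg.Agent.H8.Gb2
import Cfsg.Agent.Lead.Gam3

/-!
The mixed case of Goldschmidt's bound: products of involutions at distance two, and even critical
distance.
-/

set_option autoImplicit false
set_option linter.unusedSectionVars false

namespace H8.Gb

open H10 Cfsg MulAction
open scoped commutatorElement

variable {G : Type*} [Group G] [Finite G] {V : Type*} [MulAction G V] {Γ : SimpleGraph V}

local notation "𝐆" a:max => MulAction.stabilizer G a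
local notation "𝐐" a:max => gQ G a
local notation "𝐙" a:max => gZ G a
local notation "𝐕" a:max => gV G Γ a
local notation "zp" => Subgroup.zpowers

/-- equal modulo `ζ` -/
def Ez (ζ x y : G) : Prop := y = x ∨ y = x * ζ

theorem Ez.trans {ζ x y w : G} (h2 : ζ * ζ = 1) (a : Ez ζ x y) (b : Ez ζ y w) : Ez ζ x w := by
  rcases a with rfl | rfl <;> rcases b with rfl | rfl <;> simp [Ez, mul_assoc, h2]

theorem Ez.symm {ζ x y : G} (h2 : ζ * ζ = 1) (a : Ez ζ x y) : Ez ζ y x := by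
  rcases a with rfl | rfl <;> simp [Ez, mul_assoc, h2]

theorem Ez.mul {ζ x y x' y' : G} (h2 : ζ * ζ = 1) (c : y * ζ = ζ * y) (a : Ez ζ x x')
    (b : Ez ζ y y') : Ez ζ (x * y) (x' * y') := by
  rcases a with rfl | rfl <;> rcases b with rfl | rfl
  · exact Or.inl rfl
  · exact Or.inr (mul_assoc _ _ _).symm
  · right; rw [mul_assoc, ← c, mul_assoc]
  · left; rw [mul_assoc, ← mul_assoc ζ, ← c, mul_assoc, h2, mul_one]

/-- products of the two involutions beyond `b`, seen from `a` -/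
def SS (Γ : SimpleGraph V) (z : V → G) (b a : V) (p : G) : Prop :=
  ∃ c c' u u' : V, Γ.Adj b c ∧ Γ.Adj b c' ∧ c ≠ a ∧ c' ≠ a ∧ c ≠ c' ∧ Γ.Adj c u ∧ u ≠ b ∧
    Γ.Adj c' u' ∧ u' ≠ b ∧ p = z u * z u'

/-- critical distance at least two -/
def H2 (Γ : SimpleGraph V) (B : V → Prop) (z : V → G) : Prop :=
  ∀ b a u : V, B b → Γ.Adj b a → Γ.Adj a u → z u ∈ gQ G b

namespace MX

variable {B : V → Prop} {z : V → G} (h : MX G Γ B z)
include h

theorem SS_cj {b a : V} {p : G} (hp : SS Γ z b a p) (g : G) :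
    SS Γ z (g • b) (g • a) (g * p * g⁻¹) := by
  obtain ⟨c, c', u, u', h1, h2, h3, h4, h5, h6, h7, h8, h9, rfl⟩ := hp
  refine ⟨g • c, g • c', g • u, g • u', h.smul g h1, h.smul g h2, by simpa, by simpa, by simpa,
    h.smul g h6, by simpa, h.smul g h8, by simpa, ?_⟩
  rw [h.zs, h.zs]; group

theorem SS_ex {b a : V} (hab : Γ.Adj b a) : ∃ p, SS Γ z b a p := by
  obtain ⟨c, hc, c1⟩ := h.exists_ne hab
  obtain ⟨c', hc', c2, c3⟩ := h.exists_third hab hc c1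
  obtain ⟨u, hu, u1⟩ := h.exists_ne hc.symm
  obtain ⟨u', hu', u2⟩ := h.exists_ne hc'.symm
  exact ⟨_, c, c', u, u', hc, hc', c1, c3, c2.symm, hu, u1, hu', u2, rfl⟩

variable (h2 : H2 Γ B z)
include h2

theorem zb {b a u : V} (hB : B b) (h1 : Γ.Adj b a) (h3 : Γ.Adj a u) : z u * z b = z b * z u :=
  h.zc (gQ_le b (h2 b a u hB h1 h3))

theorem sw {b c c' u u' : V} (hB : B b) (h1 : Γ.Adj b c) (h3 : Γ.Adj b c') (h4 : Γ.Adj c u)
    (h5 : Γ.Adj c' u') : Ez (z b) (z u * z u') (z u' * z u) := by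
  have q := h2 b c u hB h1 h4
  refine Ez.symm (h.zz b) ?_
  rcases h.alt h3.symm h5 hB (h.Qs h3 q) (gQ_le b q) with e | e
  · left; rw [← mul_inv_eq_iff_eq_mul, e]
  · right; rw [mul_assoc, h.zb h2 hB h1 h4, ← mul_assoc, ← e, inv_mul_cancel_right]

theorem SS_cos {b a : V} (hB : B b) (hab : Γ.Adj b a) {p p' : G} (hp : SS Γ z b a p)
    (hp' : SS Γ z b a p') : Ez (z b) p p' := by
  obtain ⟨c, c', u, u', h1, h3, h4, h5, h6, h7, h8, h9, h10, rfl⟩ := hp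
  obtain ⟨e, e', v, v', k1, k3, k4, k5, k6, k7, k8, k9, k10, rfl⟩ := hp'
  rcases h.three hab h1 h3 h4.symm h5.symm h6 k1 with rfl | rfl | rfl
  · exact absurd rfl k4
  · rcases h.three hab h1 h3 h4.symm h5.symm h6 k3 with rfl | rfl | rfl
    · exact absurd rfl k5
    · exact absurd rfl k6
    · exact Ez.mul (h.zz b) (h.zb h2 hB h3 h9) (h.zor h1.symm h7 k7 h8 k8 hB)
        (h.zor h3.symm h9 k9 h10 k10 hB)
  · rcases h.three hab h1 h3 h4.symm h5.symm h6 k3 with rfl | rfl | rfl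
    · exact absurd rfl k5
    · exact (h.sw h2 hB h1 h3 h7 h9).trans (h.zz b) (Ez.mul (h.zz b) (h.zb h2 hB h1 h7)
        (h.zor h3.symm h9 k7 h10 k8 hB) (h.zor h1.symm h7 k9 h8 k10 hB))
    · exact absurd rfl k6

theorem SS_Q {b a : V} (hB : B b) {p : G} (hp : SS Γ z b a p) : p ∈ 𝐐 b := by
  obtain ⟨c, c', u, u', h1, h3, -, -, -, h7, -, h9, -, rfl⟩ := hp
  exact mul_mem (h2 b c u hB h1 h7) (h2 b c' u' hB h3 h9)

theorem SS_sq {b a : V} (hB : B b) {p : G} (hp : SS Γ z b a p) : p * p = 1 ∨ p * p = z b := by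
  obtain ⟨c, c', u, u', h1, h3, -, -, -, h7, -, h9, -, rfl⟩ := hp
  have e : z u' * z u * (z u * z u') = 1 := by
    rw [mul_assoc, ← mul_assoc (z u), h.zz, one_mul, h.zz]
  rcases (h.sw h2 hB h1 h3 h7 h9).symm (h.zz b) with k | k
  · left; nth_rewrite 1 [k]; exact e
  · right
    nth_rewrite 1 [k]
    rw [mul_assoc, ← h.zc (gQ_le b (mul_mem (h2 b c u hB h1 h7) (h2 b c' u' hB h3 h9))),
      ← mul_assoc, e, one_mul]

theorem SS_div {b a : V} (hB : B b) (hab : Γ.Adj b a) {p p' : G} (hp : SS Γ z b a p)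
    (hp' : SS Γ z b a p') : p' * p⁻¹ = 1 ∨ p' * p⁻¹ = z b := by
  rcases h.SS_cos h2 hB hab hp hp' with rfl | rfl
  · left; exact mul_inv_cancel _
  · right; rw [h.zc (gQ_le b (h.SS_Q h2 hB hp)), mul_inv_cancel_right]

omit h2 in
theorem ZA_of {a b : V} (hab : Γ.Adj a b) {x : G} (hx : x = 1 ∨ x = z b) : x ∈ ZA Γ z a := by
  rcases hx with rfl | rfl
  exacts [one_mem _, z_ZA hab]

/-- critical distance two -/
theorem b2 (h3 : ∀ b a u a' : V, B b → Γ.Adj b a → Γ.Adj a u → Γ.Adj b a' → u ≠ b → a ≠ a' →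
    z u ∉ 𝐐 a') {a : V} (ha : ¬ B a) : Nat.card (𝐐 a) ≤ 64 := by
  obtain ⟨b, hb⟩ := h.ex a
  have hB := h.bn hb ha
  refine h.bt ha (fun c w => SS Γ z c a w) (fun g c w hg _ hw => ?_)
    (fun c w w' hc hw hw' => h.ZA_of hc (h.SS_div h2 (h.bn hc ha) hc.symm hw hw'))
    (fun c w hc hw => ⟨?_, h.ZA_of hc (h.SS_sq h2 (h.bn hc ha) hw)⟩)
    (let ⟨p, hp⟩ := h.SS_ex hb.symm; ⟨b, p, hb, hp⟩) ?_
  · have := h.SS_cj hw g
    rwa [hg] at this
  · obtain ⟨e, e', u, u', h1, h3', h4, h5, -, h7, h8, h9, h10, rfl⟩ := hw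
    have hC := h.bn hc ha
    exact (h.loc hc).mul_mem_Q (h.Q_le_T' hc (h2 c e u hC h1 h7))
      (h.Q_le_T' hc (h2 c e' u' hC h3' h9)) (h3 c e u a hC h1 h7 hc.symm h8 h4)
      (h3 c e' u' a hC h3' h9 hc.symm h10 h5)
  · obtain ⟨c, hc, c1⟩ := h.exists_ne hb.symm
    obtain ⟨u, hu, u1⟩ := h.exists_ne hc.symm
    refine ⟨z u, h.Qs hb.symm (h2 b c u hB hc hu), h3 b c u a hB hc hu hb.symm u1 c1,
      fun q hq => ?_⟩
    have e : z u * q * (z u)⁻¹ * q⁻¹ = z u * z (q • u) := by rw [h.zs, h.zinv]; group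
    have q1 := h.Qs hb hq
    have q2 : q • u ≠ b := fun k => u1 (smul_left_cancel q (k.trans q1.symm))
    rw [e]
    by_cases k : q • c = c
    · refine ZA_WW (h.ZA_of hb ?_)
      rcases h.zor hc.symm hu (h.smul_of_mem k hu) u1 q2 hB with e | e
      · left; rw [e, h.zz]
      · right; rw [e, ← mul_assoc, h.zz, one_mul]
    · exact R_WW hb ⟨c, q • c, u, q • u, hc, h.smul_of_mem q1 hc, c1, fun k =>
        c1 (smul_left_cancel q (k.trans (gQ_le a hq : q • a = a).symm)), Ne.symm k, hu, u1,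
        h.smul q hu, q2, rfl⟩

end MX

open Lead.Gam

theorem gs_mx (h : GS G Γ) : ∃ z : V → G, MX G Γ (B G) z ∧ ∀ v, B G v → z v ∈ 𝐙 v := by
  obtain ⟨b, hb⟩ := h.exB
  obtain ⟨a, ha⟩ := h.ex b
  obtain ⟨B', z, k, -⟩ := exists_mx h.toAG ha.symm (h.cenB ha.symm hb)
  have zo : ∀ u v, Γ.Adj u v → B' v → z v ∈ ZO 2 (𝐆 u ⊓ 𝐆 v) := fun u v huv hv =>
    mem_ZO.2 ⟨h.Q_le_T' huv (k.zQ hv), mem_CC.2 fun g hg => k.zc hg.2, by rw [sq, k.zz]⟩
  have e1 : ∀ v, B' v → B G v := fun v hv => by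
    obtain ⟨u, hu⟩ := h.ex v
    refine (h.alt hu).2 fun hU => k.zne hv (k.noc (k.nb hu.symm hv) (k.Qs hu (k.zQ hv)) (k.zz v)
      fun g hg => (hU.comm (h.ZO_le hu.symm (zo u v hu.symm hv)) hg).eq.symm)
  have e : B' = B G := funext fun v => propext ⟨e1 v, fun hv => by
    obtain ⟨u, hu⟩ := h.ex v
    by_contra hn
    exact h.not_both hu hv (e1 u (k.bn hu hn))⟩
  subst e
  refine ⟨z, k, fun v hv => ?_⟩
  obtain ⟨u, hu⟩ := h.ex v
  exact h.ZO_le hu (inf_comm (𝐆 u) (𝐆 v) ▸ zo u v hu.symm hv)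

theorem card_T (h : AG G Γ) {a c : V} (hac : Γ.Adj a c) (k : Nat.card (𝐐 a) ≤ 64) :
    Nat.card ↥(𝐆 a ⊓ 𝐆 c) ≤ 128 := by
  have := card_eq_of_relIndex (h.loc hac).idx2 (h.loc hac).QT
  unfold gQ at k
  omega

theorem even2 (h : CR G Γ 2) {a c : V} (hac : Γ.Adj a c) (hc : B G c) :
    Nat.card ↥(𝐆 a ⊓ 𝐆 c) ≤ 128 := by
  obtain ⟨z, k, hz⟩ := gs_mx h.toGS
  obtain ⟨p, hp, hn⟩ := h.crit
  obtain ⟨x, hx, hxQ⟩ := SetLike.not_le_iff_exists.1 hn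
  have w : WT G Γ (0 - -1) 0 := by
    obtain ⟨t, ht, htQ⟩ := h.exT (hp.adj' 0 (-1) rfl)
    refine ⟨p, t, hp, fun i i1 i2 => ?_, htQ⟩
    rcases (show i = 0 ∨ i = -1 by omega) with rfl | rfl
    exacts [ht.1, ht.2]
  have tr := h.trS (i := -1) (j := 0) (by omega) (h.tr1 (-1)) w
  refine card_T h.toAG hac (k.b2 (fun b a u hB h1 h2 => h.F2 h1.symm
    (h.ZB_le h2 (k.bb h1.symm h2 hB) (hz u (k.bb h1.symm h2 hB))))
    (fun b a u a' hB h1 h2 h3 h4 h5 hQ => ?_) (h.nB hac hc))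
  have hU := k.bb h1.symm h2 hB
  obtain ⟨q, hq, e0, e1⟩ := h.exBL hB h1
  obtain ⟨r, hr, f1, f2⟩ := h.modL hq 0 (e0 ▸ h3) (by rw [zero_add, e1]; exact h5.symm)
  obtain ⟨g, hg⟩ := tr p r hp hr
  have g1 : g • p (-1) = a' := (hg (-1) le_rfl (by omega)).trans f2
  have g2 : g • p 1 = a := (hg 1 (by omega) le_rfl).trans ((f1 1 (by omega)).trans e1)
  have y1 := cZ g1 hx
  have y2 : g * x * g⁻¹ ∉ 𝐐 a := fun e => hxQ (cQ' g2 e)
  have := h.fix h1.symm (h.ZB_le h2 hU (hz u hU)) (h.Q_le_T' h1.symm (h.F2 h3.symm y1)) y2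
    (h.cZQ y1 hQ).symm
  exact k.zne hU (h.sib h1.symm h2 h4.symm hB this (hz u hU))

section
variable {b : ℕ} (h : CR G Γ b) (hb : b % 2 = 0)
include h hb

theorem crit1 {p : ℤ → V} (hp : BL G Γ p) (hn : ¬ 𝐙 (p (-1)) ≤ 𝐐 (p (b - 1))) :
    𝐙 (p (b - 2)) ≤ 𝐙 (p 0) ∧ ¬ 𝐙 (p (b - 1)) ≤ 𝐐 (p (-1)) := by
  have h2 := h.two
  obtain ⟨x, hx, hxQ⟩ := SetLike.not_le_iff_exists.1 hn
  have xT : x ∈ 𝐆 (p (b - 1)) ⊓ 𝐆 (p (b - 2)) :=
    ⟨h.lZG hp _ _ (by omega) hx, h.lZG hp _ _ (by omega) hx⟩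
  have key : ∀ w ∈ 𝐙 (p (b - 2)), ∃ y ∈ 𝐙 (p (b - 1)), y * (x * y * x⁻¹) = w := fun w hw => by
    obtain ⟨y, hy, e⟩ := h.surj (hp.adj' (b - 1) (b - 2) (by omega)) (hp.adj (b - 1) b (by omega))
      (hp.ne' _ _ (by omega)) (hp.b _ (by omega)) xT hxQ hw
    exact ⟨y, h.ZB_le (hp.adj _ _ (by omega)) (hp.b _ (by omega)) hy, e⟩
  refine ⟨fun w hw => ?_, fun hle => ?_⟩
  · obtain ⟨y, hy, rfl⟩ := key w hw
    have := inv_mem (h.cz (hp.adj (-1) 0 rfl) hx (t := y)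
      ⟨h.lZG hp _ _ (by omega) hy, h.lZG hp _ _ (by omega) hy⟩)
    rw [inv_eq_of_mul_eq_one_right (h.mul_self hy)] at this
    rw [inv_eq_of_mul_eq_one_right (h.mul_self hx)]
    simpa [mul_assoc, inv_eq_of_mul_eq_one_right (h.mul_self hy),
      inv_eq_of_mul_eq_one_right (h.mul_self hx)] using this
  · obtain ⟨w, hw, w1⟩ := h.exZ (p (b - 2))
    obtain ⟨y, hy, rfl⟩ := key w hw
    exact w1 (by rw [conj_of_comm (h.cZQ hx (hle hy)).symm, h.mul_self hy])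

theorem crit2 {p : ℤ → V} (hp : BL G Γ p) (hn : ¬ 𝐙 (p (-1)) ≤ 𝐐 (p (b - 1))) :
    𝐙 (p 0) ≤ 𝐙 (p (b - 2)) := by
  have := (crit1 h hb (hp.rev (b - 2) (by omega)) (by
    simp only [show (b : ℤ) - 2 - -1 = b - 1 by omega, show (b : ℤ) - 2 - (b - 1) = -1 by omega]
    exact (crit1 h hb hp hn).2)).1
  simpa using this

theorem even4 (h4 : 4 ≤ b) : False := by
  obtain ⟨p, hp, hn⟩ := h.crit
  have k1 : ∀ c, Γ.Adj (p (-2)) c → 𝐙 c ≤ 𝐐 (p (b - 3)) := fun c hc => by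
    by_cases e : c = p (-2 + 1)
    · rw [e]; exact h.lZQ hp _ _ (by omega)
    by_contra hm
    obtain ⟨q, hq, e1, e2⟩ := h.modL hp (-2) hc e
    have := crit2 h hb (hq.shift (-2) (by omega)) (by
      simp only [show (-1 : ℤ) + -2 = -2 - 1 by omega, e2]
      rwa [e1 _ (by omega), show (b : ℤ) - 1 + -2 = b - 3 by omega])
    simp only [zero_add] at this
    rw [e1 _ le_rfl, e1 _ (by omega)] at this
    refine hn fun x hx => ?_
    obtain ⟨v, hv, e⟩ := h.dec (hp.adj (-1) 0 rfl) (hp.adj' (-1) (-2) rfl) (hp.ne _ _ rfl)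
      (hp.b 0 rfl) (h.Z_le_ZO _ hx)
    have := mul_mem (h.lZQ hp 0 (b - 1) (by omega) e)
      (inv_mem (h.lZQ hp _ (b - 1) (by omega) (this hv)))
    rwa [mul_inv_cancel_right] at this
  have k2 : 𝐕 (p (-2)) ≤ 𝐆 (p (b - 2)) :=
    (gV_le k1).trans (h.Q_le (hp.adj _ _ (by omega)))
  have k3 : ¬ 𝐕 (p (-2)) ≤ 𝐐 (p (b - 2)) := fun hle => by
    obtain ⟨c1, c2⟩ := crit1 h hb hp hn
    obtain ⟨y, hy, hyQ⟩ := SetLike.not_le_iff_exists.1 c2
    have zv : 𝐙 (p (-1)) ≤ 𝐕 (p (-2)) := le_gV (hp.adj _ _ rfl)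
    have yN : y ∈ NN(𝐕 (p (-2))) := mem_NN_of_conj_mem fun v hv => by
      have := zv (h.ZB_le (hp.adj (-1) 0 rfl) (hp.b 0 rfl) (c1 (h.cz
        (hp.adj' (b - 1) (b - 2) (by omega)) hy (t := v)
        ⟨h.Q_le (hp.adj _ _ (by omega)) (hle hv), k2 hv⟩)))
      have := mul_mem this hv
      rw [inv_eq_of_mul_eq_one_right (h.mul_self hy)]
      simpa [mul_assoc] using this
    have := h.bot (hp.adj (-2) (-1) rfl) (h.lVG hp _ _ (by omega)) (h.lVG hp _ _ (by omega))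
      (h.le_NN_V le_rfl) (h.gen (hp.adj' (-1) (-2) rfl) (hp.adj (-1) 0 rfl) (hp.ne _ _ rfl)
        (P := zp y) (Subgroup.zpowers_le_of_mem ⟨h.lZG hp _ _ (by omega) hy,
          h.lZG hp _ _ (by omega) hy⟩) (fun e => hyQ (e (Subgroup.mem_zpowers y)))
        (Subgroup.zpowers_le_of_mem yN) (h.le_NN_V inf_le_right))
    exact h.Z_ne_bot _ (le_bot_iff.1 (zv.trans this.le))
  obtain ⟨w, hw, hwQ⟩ := SetLike.not_le_iff_exists.1 k3
  obtain ⟨x, hx, hxQ⟩ := SetLike.not_le_iff_exists.1 hn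
  have w0 : WT G Γ b (b - 2) := ⟨p, w, hp, fun i i1 i2 => by
    rcases (show i = b - 2 ∨ i ≤ b - 3 by omega) with rfl | e
    exacts [k2 hw, h.lVG hp _ _ (by omega) hw], hwQ⟩
  have w1 : WT G Γ b (b - 1) := ⟨p, x, hp, fun i i1 i2 => h.lZG hp _ _ (by omega) hx, hxQ⟩
  obtain ⟨g, hg⟩ := h.trans' (i := -1) (j := b - 1) (by omega) (w0.mono le_rfl (by omega))
    (w1.mono le_rfl (by omega)) (fun _ _ _ _ => by omega) (fun _ _ _ _ => by omega) p _ hp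
    (hp.shift (-2) rfl)
  refine hxQ (cQ' (hg (b - 1) (by omega) le_rfl) ?_)
  rw [show (b : ℤ) - 1 + -2 = b - 3 by omega]
  exact k1 _ (hp.adj' (-2) (-1 + -2) rfl) (cZ (hg (-1) le_rfl (by omega)) hx)

theorem even {a c : V} (hac : Γ.Adj a c) (hc : B G c) : Nat.card ↥(𝐆 a ⊓ 𝐆 c) ≤ 128 := by
  have := h.two
  by_cases e : b = 2
  · subst e; exact even2 h hac hc
  · exact (even4 h hb (by omega)).elim

end

end H8.Gb
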