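import Cfsg.Agent.H8.Gb3
import Cfsg.Agent.Lead.Gam7

/-!
Goldschmidt's bound: the mixed case.
-/

set_option autoImplicit false
set_option linter.unusedSectionVars false

namespace H8.Gb

open H10 Cfsg MulAction Lead.Gam
open scoped commutatorElement

section
variable {G : Type*} [Group G] [Finite G] {V : Type*} [MulAction G V] {Γ : SimpleGraph V}

local notation "𝐆" a:max => MulAction.stabilizer G a
local notation "𝐐" a:max => gQ G a
local notation "𝐙" a:max => gZ G a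
local notation "𝐕" a:max => gV G Γ a

theorem odd {b : ℕ} (h : OD G Γ b 2) {a c : V} (hac : Γ.Adj a c) (hc : B G c) :
    Nat.card ↥(𝐆 a ⊓ 𝐆 c) ≤ 128 := by
  obtain ⟨z, k, hz⟩ := gs_mx h.toGS
  have ha := h.nB hac hc
  have zb : ∀ d, Γ.Adj a d → 𝐙 d ≤ ZA Γ z a := fun d hd x hx => by
    have hd' := h.isB hd ha
    by_cases e : x = 1
    · rw [e]; exact one_mem _
    · rw [h.K1 hd' hx (hz d hd') e (k.zne hd')]; exact z_ZA hd
  have e : ZA Γ z a = 𝐙 a := by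
    refine le_antisymm ((Subgroup.closure_le _).2 ?_) fun y hy => ?_
    · rintro _ ⟨d, hd, rfl⟩
      exact h.ZB_le hd (h.isB hd ha) (hz d (h.isB hd ha))
    · obtain ⟨d, hd, hne⟩ := h.exists_ne hac
      obtain ⟨v, hv, e⟩ := h.dec hac hd hne hc (h.Z_le_ZO a hy)
      simpa using mul_mem (zb c hac e) (inv_mem (zb d hd hv))
  obtain ⟨d, w, hd, hw, hwQ⟩ := h.P4 hac hc
  obtain ⟨t, ht, htQ, h5⟩ := h.P5 hac hc
  have R1 : ∀ g c w, g • a = a → Γ.Adj a c → (w ∈ 𝐕 c ∧ w ∉ 𝐙 a) →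
      (g * w * g⁻¹ ∈ 𝐕 (g • c) ∧ g * w * g⁻¹ ∉ 𝐙 a) := fun g c w hg _ hw => h.P1 g c w hg hw
  refine card_T h.toAG hac (k.bt ha (fun c w => w ∈ 𝐕 c ∧ w ∉ 𝐙 a) R1
    (fun c w w' hc hw hw' => ?_) (fun c w hc hw => e ▸ h.P3 c w hc hw) ⟨d, w, hd, hw⟩
    ⟨t, ht.1, htQ, fun q hq => ?_⟩)
  · rw [e]
    have := h.P2 ha c w'⁻¹ w⁻¹ hc ⟨inv_mem hw'.1, fun k => hw'.2 (inv_mem_iff.1 k)⟩
      ⟨inv_mem hw.1, fun k => hw.2 (inv_mem_iff.1 k)⟩
    rwa [inv_inv] at this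
  · have k1 : ∀ q ∈ 𝐐 a ⊓ 𝐐 c, t * q * t⁻¹ * q⁻¹ ∈ WW Γ z a fun c w => w ∈ 𝐕 c ∧ w ∉ 𝐙 a :=
      fun q hq => by
        have := inv_mem (h5 q hq)
        rw [commutatorElement_inv] at this
        rw [WW, e]
        exact this
    have wQ := (h.P3 d w hd hw).1
    rcases h.tq hac.symm (h.Q_le_T' hac.symm wQ) hwQ (h.Q_le_T' hac.symm hq) with e1 | e1
    · exact k1 q ⟨hq, e1⟩
    · have wW : w ∈ WW Γ z a fun c w => w ∈ 𝐕 c ∧ w ∉ 𝐙 a := R_WW hd hw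
      have := mul_mem (mul_mem (conj_mem_of_mem_NN (k.WW_n R1 ht.1) wW)
        (k1 _ ⟨(𝐐 a).mul_mem (inv_mem wQ) hq, e1⟩)) (inv_mem wW)
      convert this using 1
      group

end

universe u

theorem gamMain : GamMain.{u} := by
  intro G V _ _ _ Γ h a c hac hc
  have hB : B G c := by
    have e : gZ G c = ZO 2 (stabilizer G c ⊓ stabilizer G a) := by
      rw [gZ, (h.loc hac.symm).syl.scc_eq]
      exact ncl_eq_of_le_NN ((inf_comm (stabilizer G a) _ ▸ hc).trans (CC_le_NN _))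
    rw [B, e, inf_comm]; exact hc
  obtain ⟨b, hb⟩ := GS.exCR ⟨h, c, hB⟩
  by_cases e : b % 2 = 0
  · exact even hb e hac hB
  · have k : OD G Γ b (b - 1) := ⟨hb, by omega, by omega⟩
    have := k.eq_two
    rw [this] at k
    exact odd k hac hB

end H8.Gb
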