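import Cfsg.Agent.H10.Compl

/-!
Reduction of Goldschmidt's bound for amalgams of index `(3, 3)` to the mixed case.
-/

set_option autoImplicit false

namespace H8.Gb

open H10 Cfsg MulAction

universe u

/-- the mixed case of Goldschmidt's bound -/
def GamMain : Prop := ∀ (G V : Type u) [Group G] [Finite G] [MulAction G V] (Γ : SimpleGraph V),
  AG G Γ → ∀ a b : V, Γ.Adj a b → stabilizer G b ≤ CC(ZO 2 (stabilizer G a ⊓ stabilizer G b)) →
    Nat.card ↥(stabilizer G a ⊓ stabilizer G b) ≤ 128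

theorem nc2 {G : Type*} [Group G] [Finite G] {P₁ P₂ T : Subgroup G} (h : AM0 P₁ P₂ T)
    (hc : ¬ CharPIn 2 P₂) : Nat.card T ≤ 16 := by
  classical
  have hE : resOf 2 P₂ ≤ CC(pCoreOf 2 P₂) := (h.s2.res_le inf_le_left
    (le_NN_inf (le_NN_self _) (le_NN_CC (le_NN_pCoreOf _))) hc).trans inf_le_right
  set D := pCoreOf 2 P₁ ⊓ pCoreOf 2 P₂ with hD
  have hTD : T ≤ NN(D) := le_NN_inf (h.s1.le.trans (le_NN_pCoreOf _))
    (h.s2.le.trans (le_NN_pCoreOf _))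
  let H : P₁ ⧸ T.subgroupOf P₁ → Subgroup G := fun c => cj (c.out : P₁) D
  have k : ∀ g ∈ P₁, ⨅ c, H c ≤ cj g D := fun g hg => by
    obtain ⟨t, ht⟩ := QuotientGroup.mk_out_eq_mul (T.subgroupOf P₁) ⟨g, hg⟩
    refine (iInf_le H (QuotientGroup.mk ⟨g, hg⟩)).trans (le_of_eq ?_)
    simp only [H, ht, Subgroup.coe_mul]
    rw [cj_mul, cj_eq_of_mem_NN (hTD (show ((t : P₁) : G) ∈ T from t.2))]
  have n1 : P₁ ≤ NN(⨅ c, H c) := le_NN_of_cj_le fun g hg => le_iInf fun c => by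
    rw [cj_le_iff]
    refine (k _ (mul_mem (inv_mem hg) (c.out).2)).trans (le_of_eq ?_)
    rw [cj_mul]
  have kD : ⨅ c, H c ≤ D := by simpa using k 1 (one_mem _)
  have hK := h.bot _ (kD.trans (inf_le_left.trans h.s1.QT)) n1 (h.s2.res_sup.ge.trans
    (sup_le (hE.trans ((CC_anti (kD.trans inf_le_right)).trans (CC_le_NN _))) (h.s1.le.trans n1)))
  have f : Fintype (P₁ ⧸ T.subgroupOf P₁) := Fintype.ofFinite _
  have c3 : Fintype.card (P₁ ⧸ T.subgroupOf P₁) = 3 := by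
    rw [← Nat.card_eq_fintype_card]; exact h.s1.idx3
  have i1 := Subgroup.relIndex_iInf_le (L := pCoreOf 2 P₁) H
  rw [hK, Subgroup.relIndex_bot_left] at i1
  have i2 : ∏ c, (H c).relIndex (pCoreOf 2 P₁) ≤ 2 ^ 3 := by
    rw [← c3]
    refine Finset.prod_le_pow_card _ _ _ fun c _ => ?_
    rw [← cj_eq_of_mem_NN (le_NN_pCoreOf (p := 2) P₁ (c.out).2), relIndex_cj, hD,
      Subgroup.inf_relIndex_left]
    exact (Subgroup.relIndex_le_of_le_right h.s1.QT (by rw [h.s2.idx2]; omega)).trans h.s2.idx2.le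
  have := card_eq_of_relIndex h.s1.idx2 h.s1.QT
  omega

theorem mixed_gen (main : GamMain.{u}) {G : Type u} [Group G] [Finite G] {P₁ P₂ T : Subgroup G}
    (h : AM P₁ P₂ T) (hgen : P₁ ⊔ P₂ = ⊤) (n : P₂ ≤ CC(ZO 2 T)) : Nat.card T ≤ 128 := by
  have hab := cg_adj_base (M₁ := P₁) (M₂ := P₂) (1 : G)
  have e1 := cg_stab_inl (M₁ := P₁) (M₂ := P₂) (1 : G)
  have e2 := cg_stab_inr (M₁ := P₁) (M₂ := P₂) (1 : G)
  rw [cj_one] at e1 e2
  have := main G _ _ (h.ag hgen) _ _ hab (by rwa [e1, e2, h.inf_eq])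
  rwa [e1, e2, h.inf_eq] at this

theorem mixed (main : GamMain.{u}) {G : Type u} [Group G] [Finite G] {P₁ P₂ T : Subgroup G}
    (h : AM P₁ P₂ T) (n : P₂ ≤ CC(ZO 2 T)) : Nat.card T ≤ 128 := by
  have hf := (P₁ ⊔ P₂).subtype_injective
  have hT := h.s1.le.trans (le_sup_left (b := P₂))
  have e1 := map_subgroupOf_of_le (le_sup_left (a := P₁) (b := P₂))
  have e2 := map_subgroupOf_of_le (le_sup_right (a := P₁) (b := P₂))
  have e3 := map_subgroupOf_of_le hT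
  have k : AM (P₁.subgroupOf (P₁ ⊔ P₂)) (P₂.subgroupOf (P₁ ⊔ P₂)) (T.subgroupOf (P₁ ⊔ P₂)) :=
    AM.of_map hf (by rwa [e1, e2, e3])
  have := mixed_gen main k (Subgroup.map_injective hf (by
    rw [Subgroup.map_sup, e1, e2, map_top_subtype])) (by
    rw [← comm_eq_bot, ← Subgroup.map_eq_bot_iff_of_injective _ hf, Subgroup.map_commutator,
      map_ZO_of_injective hf, e2, e3, comm_eq_bot]
    exact n)
  rwa [Nat.card_congr (Subgroup.subgroupOfEquivOfLe hT).toEquiv] at this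

theorem am0 (main : GamMain.{u}) {G : Type u} [Group G] [Finite G] {P₁ P₂ T : Subgroup G}
    (h : AM0 P₁ P₂ T) : Nat.card T ≤ 128 := by
  by_cases c2 : CharPIn 2 P₂
  swap
  · exact (nc2 h c2).trans (by omega)
  by_cases c1 : CharPIn 2 P₁
  swap
  · exact (nc2 h.symm c1).trans (by omega)
  have k : AM P₁ P₂ T := ⟨h, c1, c2⟩
  by_cases n2 : P₂ ≤ CC(ZO 2 T)
  · exact mixed main k n2
  by_cases n1 : P₁ ≤ CC(ZO 2 T)
  · exact mixed main k.symm n1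
  have := card_eq_of_relIndex h.s1.idx2 h.s1.QT
  rcases k.card_Q n1 n2 with e | e <;> omega

theorem wrap (main : GamMain.{u}) {G : Type u} [Group G] (M₁ M₂ : Subgroup G) [Finite M₁]
    [Finite M₂] (ha₁ : ∃ P : Sylow 2 M₁, (P : Subgroup M₁) = (M₁ ⊓ M₂).subgroupOf M₁)
    (ha₂ : ∃ P : Sylow 2 M₂, (P : Subgroup M₂) = (M₁ ⊓ M₂).subgroupOf M₂)
    (hb₁ : Nonempty (M₁ ⧸ Cfsg.pCore 2 M₁ ≃* Equiv.Perm (Fin 3)))
    (hb₂ : Nonempty (M₂ ⧸ Cfsg.pCore 2 M₂ ≃* Equiv.Perm (Fin 3)))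
    (hc : ∀ N : Subgroup G, N ≤ M₁ ⊓ M₂ → (N.subgroupOf M₁).Normal → (N.subgroupOf M₂).Normal →
      N = ⊥) : Nat.card ↥(M₁ ⊓ M₂) ≤ 2 ^ 7 := by
  obtain ⟨S₁, h₁⟩ := ha₁
  obtain ⟨S₂, h₂⟩ := ha₂
  have a : AM0 M₁ M₂ (M₁ ⊓ M₂) :=
    ⟨s3_of_relIndex (isSylowIn_of_subgroupOf_eq inf_le_left S₁ h₁) (relIndex_six_of_equiv hb₁),
      s3_of_relIndex (isSylowIn_of_subgroupOf_eq inf_le_right S₂ h₂) (relIndex_six_of_equiv hb₂),
      fun N h1 h2 h3 => hc N h1 (normal_subgroupOf h2) (normal_subgroupOf h3)⟩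
  obtain ⟨H, _, _, f, g, hf, -, -, k⟩ := a.exists_finite
  have := am0 main k
  rwa [Subgroup.card_map_of_injective hf,
    Nat.card_congr (Subgroup.subgroupOfEquivOfLe (inf_le_left (a := M₁) (b := M₂))).toEquiv] at this

end H8.Gb
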