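import Cfsg.Agent.H13.JT

set_option autoImplicit false
open Subgroup Cfsg.Spor

namespace H8Gq

variable {C : Type*} [Group C] [Finite C]

theorem core {A H : Type*} [Group A] [Group H] (ι : H →* A) (hp : commutator H = ⊤)
    (hi : ι.range.index = 2) (Q N : Subgroup C) [Q.Normal] [N.Normal] (hQN : Q ≤ N)
    (hN : Nat.card N = 3 * Nat.card Q) (hns : ∀ K : Subgroup C, K ⊓ N = Q → K ⊔ N = ⊤ → False)
    (f : C →* A) (hf : Function.Surjective f) (hk : f.ker = N) :
    ∃ M : Subgroup C, ⁅M, N⁆ ≤ Q ∧ N ≤ ⁅M, M⁆ ⊔ Q := by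
  have f2 : Fact (Nat.Prime 2) := ⟨Nat.prime_two⟩
  have f3 : Fact (Nat.Prime 3) := ⟨Nat.prime_three⟩
  have r3 : Q.relIndex N = 3 := by
    have := (Q.subgroupOf N).card_mul_index
    rw [Nat.card_congr (subgroupOfEquivOfLe hQN).toEquiv, hN, mul_comm] at this
    exact Nat.eq_of_mul_eq_mul_right Nat.card_pos this
  set I := ι.range.comap f with hI
  have i2 : I.index = 2 := by rw [hI, index_comap_of_surjective _ hf, hi]
  have In : I.Normal := normal_of_index_eq_two i2
  have eI : ⁅I, I⁆ ⊔ N = I := by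
    rw [← hk, ← comap_map_eq, map_commutator, hI, map_comap_eq_self_of_surjective hf,
      MonoidHom.range_eq_map, ← map_commutator, ← commutator_def, hp]
  let π := QuotientGroup.mk' Q
  have nb : (N.map π).Normal := Normal.map inferInstance π (QuotientGroup.mk'_surjective Q)
  have c3 : Nat.card (N.map π) = 3 := by
    rw [← relIndex_ker, QuotientGroup.ker_mk', r3]
  have cy : IsCyclic (N.map π) := isCyclic_of_prime_card c3
  let χ := (MulAut.conjNormal (H := N.map π)).comp π
  have hχ : I ≤ χ.ker := by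
    rw [← eI]
    refine sup_le (commutator_le.2 fun a _ b _ => ?_) fun n hn => ?_
    · rw [MonoidHom.mem_ker, map_commutatorElement, commutatorElement_eq_one_iff_mul_comm]
      apply (IsCyclic.mulAutMulEquiv (N.map π)).injective
      rw [map_mul, map_mul, mul_comm]
    · refine MulEquiv.ext fun m => Subtype.ext ?_
      have := congrArg Subtype.val (cy.commGroup.mul_comm ⟨π n, n, hn, rfl⟩ m)
      change π n * m.1 * (π n)⁻¹ = m.1
      exact mul_inv_eq_iff_eq_mul.2 this
  refine ⟨I, commutator_le.2 fun a ha n hn => ?_, ?_⟩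
  · have := congrArg Subtype.val (MulEquiv.congr_fun (hχ ha) ⟨π n, n, hn, rfl⟩)
    change π a * π n * (π a)⁻¹ = π n at this
    rw [← QuotientGroup.ker_mk' Q, MonoidHom.mem_ker, map_commutatorElement, commutatorElement_def]
    exact mul_inv_eq_one.2 this
  by_contra hc
  have mid : ∀ K : Subgroup C, Q ≤ K → ¬ N ≤ K → K ⊓ N = Q := fun K h1 h2 => by
    have := relIndex_mul_relIndex Q (K ⊓ N) N (le_inf h1 hQN) inf_le_right
    rw [r3] at this
    rcases (Nat.dvd_prime Nat.prime_three).1 (Dvd.intro _ this) with h | h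
    · exact le_antisymm (relIndex_eq_one.1 h) (le_inf h1 hQN)
    · rw [h] at this
      exact absurd ((relIndex_eq_one.1 (show (K ⊓ N).relIndex N = 1 by omega)).trans inf_le_left) h2
  set D := ⁅I, I⁆ ⊔ Q with hD
  have Dn : D.Normal := sup_normal _ _
  have eD : D ⊔ N = I := by rw [hD, sup_assoc, sup_eq_right.2 hQN, eI]
  have d6 : D.index = 6 := by
    rw [← relIndex_mul_index (eD ▸ le_sup_left : D ≤ I), i2, ← eD, relIndex_sup_left,
      ← inf_relIndex_right, mid D le_sup_right hc, r3]
  obtain ⟨S⟩ : Nonempty (Sylow 2 (C ⧸ D)) := inferInstance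
  have s2 : Nat.card S = 2 := by
    rw [S.card_eq_multiplicity, ← index_eq_card, d6,
      show Nat.factorization 6 2 = 1 by decide +kernel]; rfl
  have s3 : (S : Subgroup (C ⧸ D)).index = 3 := by
    have := (S : Subgroup (C ⧸ D)).card_mul_index
    rw [s2, ← index_eq_card, d6] at this
    omega
  set K := (S : Subgroup (C ⧸ D)).comap (QuotientGroup.mk' D) with hK
  have k3 : K.index = 3 := by rw [hK, index_comap_of_surjective _ (QuotientGroup.mk'_surjective D), s3]
  have DK : D ≤ K := by
    rw [← QuotientGroup.ker_mk' D]; exact ker_le_comap _ _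
  have nK : ¬ N ≤ K := fun h => by
    have := index_dvd_of_le (eD ▸ sup_le DK h : I ≤ K)
    rw [k3, i2] at this
    omega
  refine hns K (mid K (le_sup_right.trans DK) nK) ?_
  have := relIndex_mul_index (le_sup_left : K ≤ K ⊔ N)
  rw [k3] at this
  rcases (Nat.dvd_prime Nat.prime_three).1 (Dvd.intro_left _ this) with h | h
  · exact index_eq_one.1 h
  · rw [h] at this
    exact absurd (le_sup_right.trans (relIndex_eq_one.1 (show K.relIndex (K ⊔ N) = 1 by omega))) nK

theorem gq (Q N : Subgroup C) [Q.Normal] [N.Normal] (hQN : Q ≤ N) (hN : Nat.card N = 3 * Nat.card Q)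
    (hns : ∀ K : Subgroup C, K ⊓ N = Q → K ⊔ N = ⊤ → False) (e : C ⧸ N ≃* MulAut ↥M22) :
    ∃ M : Subgroup C, ⁅M, N⁆ ≤ Q ∧ N ≤ ⁅M, M⁆ ⊔ Q := by
  have := H27.simple_H22
  refine core H13.ι22 ((commutator_normal ⊤ ⊤).eq_bot_or_eq_top.resolve_left fun h => H13.nc_H22
    fun x y => commutatorElement_eq_one_iff_mul_comm.1
      (h.le (commutator_mem_commutator (mem_top x) (mem_top y))))
    H13.idx_ι22 Q N hQN hN hns (e.toMonoidHom.comp (QuotientGroup.mk' N))
    (e.surjective.comp (QuotientGroup.mk'_surjective N)) ?_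
  ext c
  rw [MonoidHom.mem_ker, MonoidHom.comp_apply]
  exact (map_eq_one_iff e e.injective).trans (QuotientGroup.eq_one_iff c)

end H8Gq
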