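import Cfsg.Agent.S4303
import Cfsg.Agent.S0044
import Cfsg.Agent.H1.Fitting
import Cfsg.Agent.H2.FiltG
import Cfsg.Agent.H3.Transfer2
import Cfsg.Agent.H17.Deg
import Cfsg.Agent.H4.SL2Deg

set_option autoImplicit false
open H17 Cfsg Subgroup

namespace H8M3

variable {G : Type*} [Group G] [Finite G]

theorem not_mem_of_normal {p : ℕ} (A : Subgroup G) [A.Normal] (hA : IsMulCommutative A)
    (h : ¬ p ∣ A.index) : p ∉ degreePrimes G := by
  rintro ⟨-, _, ⟨χ, rfl⟩, hd⟩
  exact h (hd.trans (χ.2.degree_dvd_index_of_comm (H4.irr_one_eq χ.2) A hA))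

theorem gen [Group.IsSolvable G] {p r : ℕ} [pp : Fact p.Prime] [pr : Fact r.Prime]
    (h1 : p ∣ Nat.card G) (h2 : ¬ p * p ∣ Nat.card G) (h4 : ¬ r ^ 3 * r ∣ Nat.card G)
    (h3 : ∀ q a : ℕ, q.Prime → q ^ a ∣ Nat.card G → q ^ a ≡ 1 [MOD p] → a = 0 ∨ (q = r ∧ a = 3))
    (hp : p ∈ degreePrimes G) (hr : r ∈ degreePrimes G) : False := by
  set F := fittingSubgroup G with hF
  have nF : ∀ (q : ℕ) [Fact q.Prime] (Q : Sylow q F), ((Q : Subgroup F).map F.subtype).Normal :=
    fun q _ Q => H2.sm_normal_of_sylow_normal Q inferInstance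
  have cF : ∀ (Q : Subgroup F), Nat.card (Q.map F.subtype) = Nat.card Q :=
    fun Q => card_map_of_injective F.subtype_injective
  have hFG := card_subgroup_dvd_card F
  by_cases hpF : p ∣ Nat.card F
  · obtain ⟨Q⟩ : Nonempty (Sylow p F) := inferInstance
    have hQ := H2.sm_sylow_prime hpF (fun h => h2 (h.trans hFG)) Q
    rw [← cF] at hQ
    have := nF p Q
    have := isCyclic_of_prime_card hQ
    refine not_mem_of_normal ((Q : Subgroup F).map F.subtype) inferInstance (fun h => h2 ?_) hp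
    rw [← ((Q : Subgroup F).map F.subtype).card_mul_index, hQ]
    exact Nat.mul_dvd_mul_left _ h
  obtain ⟨P⟩ : Nonempty (Sylow p G) := inferInstance
  have cop : (Nat.card F).Coprime p := ((Nat.Prime.coprime_iff_not_dvd pp.out).2 hpF).symm
  have hi := ((centralizer ((P : Subgroup G) : Set G)).subgroupOf F).card_mul_index
  have i1 : (centralizer ((P : Subgroup G) : Set G)).relIndex F ≠ 1 := fun h => hpF (by
    rw [← H2.sm_sylow_prime h1 h2 P]
    exact card_dvd_of_le ((le_centralizer_iff.1 (relIndex_eq_one.1 h)).trans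
      Cfsg.Agent.S0044.result))
  obtain ⟨q, hq, hqd⟩ := Nat.exists_prime_and_dvd i1
  have i0 : (centralizer ((P : Subgroup G) : Set G)).relIndex F ≠ 0 := index_ne_zero_of_finite
  have i2 := Nat.ordProj_dvd ((centralizer ((P : Subgroup G) : Set G)).relIndex F) q
  obtain h | ⟨rfl, h⟩ := h3 q _ hq (i2.trans ((Dvd.intro_left _ hi).trans hFG))
    (Cfsg.Agent.S4303.part (K := F) P.2 le_normalizer_of_normal cop hq)
  · exact (hq.factorization_pos_of_dvd i0 hqd).ne' h
  rw [h] at i2
  have c1 : ¬ q ∣ Nat.card ((centralizer ((P : Subgroup G) : Set G)).subgroupOf F) := fun h =>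
    h4 (by
      rw [mul_comm]
      exact ((Nat.mul_dvd_mul h i2).trans hi.dvd).trans hFG)
  obtain ⟨R⟩ : Nonempty (Sylow q F) := inferInstance
  have := nF q R
  set R' := (R : Subgroup F).map F.subtype with hR'
  have rp : IsPGroup q R' := R.2.map _
  have r3 : q ^ 3 ∣ Nat.card R' := by
    rw [cF]
    exact R.pow_dvd_card_of_pow_dvd_card (i2.trans (Dvd.intro_left _ hi))
  let Z : Subgroup G := R' ⊓ centralizer (R' : Set G)
  have zp : IsPGroup q Z := rp.to_inf_left
  have z1 : Z ⊓ centralizer ((P : Subgroup G) : Set G) = ⊥ := by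
    obtain ⟨k, hk⟩ := IsPGroup.iff_card.1
      (zp.to_inf_left (K := centralizer ((P : Subgroup G) : Set G)))
    rcases k with _ | k
    · exact card_eq_one.1 hk
    refine absurd ?_ c1
    rw [← inf_subgroupOf_right, Nat.card_congr (subgroupOfEquivOfLe inf_le_right).toEquiv]
    refine (Dvd.intro_left _ (hk.trans (pow_succ _ _)).symm).trans (card_dvd_of_le ?_)
    exact le_inf inf_le_right ((inf_le_left.trans inf_le_left).trans (map_subtype_le _))
  have z2 := H3.card_modEq_card_inf_centralizer (Q := Z) P.2 le_normalizer_of_normal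
  rw [z1, card_bot] at z2
  obtain ⟨k, hk⟩ := IsPGroup.iff_card.1 zp
  rw [hk] at z2
  obtain h | ⟨-, h⟩ := h3 q k hq (hk ▸ card_subgroup_dvd_card Z) z2
  · have : Nontrivial R' := Finite.one_lt_card_iff_nontrivial.1
      ((Nat.one_lt_pow (by norm_num) hq.one_lt).trans_le (Nat.le_of_dvd Nat.card_pos r3))
    have := rp.center_nontrivial
    obtain ⟨⟨z, hz⟩, hz1⟩ := exists_ne (1 : center R')
    have : (z : G) ∈ Z := ⟨z.2, mem_centralizer_iff.2 fun x hx =>
      congrArg Subtype.val (mem_center_iff.1 hz ⟨x, hx⟩)⟩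
    rw [h, pow_zero, card_eq_one] at hk
    rw [hk, mem_bot] at this
    exact hz1 (Subtype.ext (Subtype.ext this))
  · refine not_mem_of_normal Z ⟨⟨fun a b => Subtype.ext (mem_centralizer_iff.1 b.2.2 a a.2.1)⟩⟩
      (fun h5 => h4 ?_) hr
    rw [← Z.card_mul_index, hk, h]
    exact Nat.mul_dvd_mul_left _ h5

theorem csol [Group.IsSolvable G] {p r : ℕ}
    (h : (Nat.card G = 168 ∧ p = 7 ∧ r = 2) ∨ (Nat.card G = 5616 ∧ p = 13 ∧ r = 3))
    (hp : p ∈ degreePrimes G) (hr : r ∈ degreePrimes G) : False := by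
  have := Fact.mk hp.1
  have := Fact.mk hr.1
  rcases h with ⟨h, rfl, rfl⟩ | ⟨h, rfl, rfl⟩
  · refine gen (by rw [h]; norm_num) (by rw [h]; norm_num) (by rw [h]; norm_num)
      (fun q a hq hd hm => ?_) hp hr
    rw [h] at hd
    have h1 := Nat.le_of_dvd (by norm_num) hd
    have h2 : a < 8 := by
      by_contra h3
      have := (Nat.pow_le_pow_left hq.two_le _).trans (Nat.pow_le_pow_right hq.pos (not_lt.1 h3))
      omega
    rcases a with _ | a
    · exact Or.inl rfl
    have h3 := (dvd_pow_self q (Nat.succ_ne_zero a)).trans hd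
    have h4 : q = 2 ∨ q = 3 ∨ q = 7 := by
      rw [show 168 = 2 ^ 3 * 3 * 7 by norm_num, hq.dvd_mul, hq.dvd_mul] at h3
      rcases h3 with (h3 | h3) | h3
      · exact Or.inl ((Nat.prime_dvd_prime_iff_eq hq Nat.prime_two).1 (hq.dvd_of_dvd_pow h3))
      · exact Or.inr (Or.inl ((Nat.prime_dvd_prime_iff_eq hq Nat.prime_three).1 h3))
      · exact Or.inr (Or.inr ((Nat.prime_dvd_prime_iff_eq hq (by norm_num)).1 h3))
    have h5 : a < 7 := by omega
    rcases h4 with rfl | rfl | rfl <;> interval_cases a <;> simp_all [Nat.ModEq]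
  · refine gen (by rw [h]; norm_num) (by rw [h]; norm_num) (by rw [h]; norm_num)
      (fun q a hq hd hm => ?_) hp hr
    rw [h] at hd
    have h1 := Nat.le_of_dvd (by norm_num) hd
    have h2 : a < 13 := by
      by_contra h3
      have := (Nat.pow_le_pow_left hq.two_le _).trans (Nat.pow_le_pow_right hq.pos (not_lt.1 h3))
      omega
    rcases a with _ | a
    · exact Or.inl rfl
    have h3 := (dvd_pow_self q (Nat.succ_ne_zero a)).trans hd
    have h4 : q = 2 ∨ q = 3 ∨ q = 13 := by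
      rw [show 5616 = 2 ^ 4 * 3 ^ 3 * 13 by norm_num, hq.dvd_mul, hq.dvd_mul] at h3
      rcases h3 with (h3 | h3) | h3
      · exact Or.inl ((Nat.prime_dvd_prime_iff_eq hq Nat.prime_two).1 (hq.dvd_of_dvd_pow h3))
      · exact Or.inr (Or.inl ((Nat.prime_dvd_prime_iff_eq hq Nat.prime_three).1
          (hq.dvd_of_dvd_pow h3)))
      · exact Or.inr (Or.inr ((Nat.prime_dvd_prime_iff_eq hq (by norm_num)).1 h3))
    have h5 : a < 12 := by omega
    rcases h4 with rfl | rfl | rfl <;> interval_cases a <;> simp_all [Nat.ModEq]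

end H8M3
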