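import Mathlib
import Cfsg.Prelude.Def_AxialAlgebras

set_option autoImplicit false
open Cfsg Cfsg.Axial

namespace H8.Maj

variable {V : Type*} [AddCommGroup V] [Module ℝ V] {mul : V →ₗ[ℝ] V →ₗ[ℝ] V}
  {B : LinearMap.BilinForm ℝ V} {μ ν : V ≃ₗ[ℝ] V} {x u v : V}

theorem mem_eigen {c : ℝ} : v ∈ eigen mul x c ↔ mul x v = c • v := Module.End.mem_eigenspace_iff

theorem le_eigenSum {S : Set ℝ} {c : ℝ} (hc : c ∈ S) : eigen mul x c ≤ eigenSum mul x S :=
  le_iSup₂_of_le (f := fun c (_ : c ∈ S) => eigen mul x c) c hc le_rfl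

theorem eigenSum_le {S : Set ℝ} {W : Submodule ℝ V} (h : ∀ c ∈ S, eigen mul x c ≤ W) :
    eigenSum mul x S ≤ W := iSup₂_le h

theorem decomp (h : IsMajoranaPair mul B μ x) (v : V) : ∃ (c : ℝ) (p q r : V), mul x p = 0 ∧
    mul x q = (1 / 4 : ℝ) • q ∧ mul x r = (1 / 32 : ℝ) • r ∧ v = c • x + p + q + r ∧
    μ v = c • x + p + q - r := by
  have h1 : (⊤ : Submodule ℝ V) ≤ eigen mul x 1 ⊔ eigen mul x 0 ⊔ eigen mul x (1 / 4) ⊔
      eigen mul x (1 / 32) := by
    rw [← h.2.2.1.1.2.2.1]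
    refine eigenSum_le fun c hc => ?_
    rcases hc with rfl | rfl | rfl | rfl
    · exact le_sup_of_le_left (le_sup_of_le_left le_sup_left)
    · exact le_sup_of_le_left (le_sup_of_le_left le_sup_right)
    · exact le_sup_of_le_left le_sup_right
    · exact le_sup_right
  obtain ⟨w2, hw2, r, hr, rfl⟩ := Submodule.mem_sup.1 (h1 (Submodule.mem_top (x := v)))
  obtain ⟨w1, hw1, q, hq, rfl⟩ := Submodule.mem_sup.1 hw2
  obtain ⟨w, hw, p, hp, rfl⟩ := Submodule.mem_sup.1 hw1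
  have e1 : μ w = w := h.2.2.2.1 w (le_eigenSum (by simp) hw)
  have e2 : μ p = p := h.2.2.2.1 p (le_eigenSum (by simp) hp)
  have e3 : μ q = q := h.2.2.2.1 q (le_eigenSum (by simp) hq)
  have e4 : μ r = -r := h.2.2.2.2 r hr
  rw [h.2.2.1.2] at hw
  obtain ⟨c, rfl⟩ := Submodule.mem_span_singleton.1 hw
  exact ⟨c, p, q, r, by simpa using mem_eigen.1 hp, mem_eigen.1 hq, mem_eigen.1 hr, rfl,
    by rw [map_add, map_add, map_add, e1, e2, e3, e4, sub_eq_add_neg]⟩

theorem idem (h : IsMajoranaPair mul B μ x) : mul x x = x := h.2.2.1.1.2.1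

theorem fix (h : IsMajoranaPair mul B μ x) : μ x = x :=
  h.2.2.2.1 x (le_eigenSum (c := 1) (by simp) (mem_eigen.2 (by rw [idem h, one_smul])))

theorem odd (h : IsMajoranaPair mul B μ x) (v : V) :
    mul x (v - μ v) = (1 / 32 : ℝ) • (v - μ v) := by
  obtain ⟨c, p, q, r, -, -, hr, e, e'⟩ := decomp h v
  have : v - μ v = (2 : ℝ) • r := by rw [e', e]; module
  rw [this, map_smul, hr]; module

theorem invol (h : IsMajoranaPair mul B μ x) (v : V) : μ (μ v) = v := by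
  obtain ⟨c, p, q, r, hp, hq, hr, e, e'⟩ := decomp h v
  have e2 : μ p = p := h.2.2.2.1 p (le_eigenSum (c := 0) (by simp) (mem_eigen.2 (by simpa using hp)))
  have e3 : μ q = q := h.2.2.2.1 q (le_eigenSum (by simp) (mem_eigen.2 hq))
  have e4 : μ r = -r := h.2.2.2.2 r (mem_eigen.2 hr)
  rw [e', map_sub, map_add, map_add, map_smul, fix h, e2, e3, e4, e]; module

theorem uniq (h : IsMajoranaPair mul B μ x) (h' : IsMajoranaPair mul B ν x) : μ = ν := by
  ext v
  obtain ⟨c, p, q, r, hp, hq, hr, e, e'⟩ := decomp h v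
  have e2 : ν p = p := h'.2.2.2.1 p (le_eigenSum (c := 0) (by simp) (mem_eigen.2 (by simpa using hp)))
  have e3 : ν q = q := h'.2.2.2.1 q (le_eigenSum (by simp) (mem_eigen.2 hq))
  have e4 : ν r = -r := h'.2.2.2.2 r (mem_eigen.2 hr)
  rw [e', e, map_add, map_add, map_add, map_smul, fix h', e2, e3, e4, sub_eq_add_neg]

theorem orth (hV : IsMajoranaAmbient mul B) {c d : ℝ} (hu : mul x u = c • u) (hv : mul x v = d • v)
    (hcd : c ≠ d) : B u v = 0 := by
  have := hV.2.2.2.1 u x v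
  rw [hv, hV.1 u x, hu, map_smul, map_smul, LinearMap.smul_apply, smul_eq_mul, smul_eq_mul] at this
  exact (mul_eq_zero.1 (by linarith : (c - d) * B u v = 0)).resolve_left (sub_ne_zero.2 hcd)

theorem star (hV : IsMajoranaAmbient mul B) (h : IsMajoranaPair mul B μ x) (hn : B x x = 1)
    (hu : μ u = u) : mul x (mul x u) = (1 / 4 : ℝ) • mul x u + (3 / 4 * B x u) • x := by
  obtain ⟨c, p, q, r, hp, hq, hr, e, e'⟩ := decomp h u
  have h1 : mul x x = (1 : ℝ) • x := by rw [idem h, one_smul]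
  have r0 : r = 0 := by
    have : (2 : ℝ) • r = 0 := by rw [hu] at e'; linear_combination (norm := module) e' - e
    simpa using this
  have b1 : B x p = 0 := orth hV h1 (d := 0) (by simpa using hp) (by norm_num)
  have b2 : B x q = 0 := orth hV h1 hq (by norm_num)
  rw [e, r0]
  simp only [map_add, map_smul, map_zero, idem h, hp, hq, hn, b1, b2, smul_eq_mul]
  module

theorem f00 (h : IsMajoranaPair mul B μ x) (hu : mul x u = 0) (hv : mul x v = 0) :
    mul x (mul u v) = 0 := by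
  have := h.2.2.1.1.2.2.2 0 (by simp [majoranaSpectrum]) 0 (by simp [majoranaSpectrum]) u
    (mem_eigen.2 (by simpa using hu)) v (mem_eigen.2 (by simpa using hv))
  have e : monsterLaw (1 / 4 : ℝ) (1 / 32) 0 0 = {0} := by
    unfold monsterLaw; norm_num
  rw [e] at this
  simpa using mem_eigen.1 (eigenSum_le (W := eigen mul x 0) (by rintro c rfl; rfl) this)

theorem f04 (h : IsMajoranaPair mul B μ x) (hu : mul x u = 0) (hv : mul x v = (1 / 4 : ℝ) • v) :
    mul x (mul u v) = (1 / 4 : ℝ) • mul u v := by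
  have := h.2.2.1.1.2.2.2 0 (by simp [majoranaSpectrum]) (1 / 4) (by simp [majoranaSpectrum]) u
    (mem_eigen.2 (by simpa using hu)) v (mem_eigen.2 hv)
  have e : monsterLaw (1 / 4 : ℝ) (1 / 32) 0 (1 / 4) = {1 / 4} := by
    unfold monsterLaw; norm_num
  rw [e] at this
  exact mem_eigen.1 (eigenSum_le (W := eigen mul x (1 / 4)) (by rintro c rfl; rfl) this)

theorem f44 (hV : IsMajoranaAmbient mul B) (h : IsMajoranaPair mul B μ x) (hn : B x x = 1)
    (hu : mul x u = (1 / 4 : ℝ) • u) (hv : mul x v = (1 / 4 : ℝ) • v) :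
    mul x (mul u v) = (1 / 4 * B u v) • x := by
  have := h.2.2.1.1.2.2.2 (1 / 4) (by simp [majoranaSpectrum]) (1 / 4) (by simp [majoranaSpectrum]) u
    (mem_eigen.2 hu) v (mem_eigen.2 hv)
  have e : monsterLaw (1 / 4 : ℝ) (1 / 32) (1 / 4) (1 / 4) = {1, 0} := by
    unfold monsterLaw; norm_num
  rw [e] at this
  have k := eigenSum_le (W := eigen mul x 1 ⊔ eigen mul x 0)
    (by rintro c (rfl | rfl); exacts [le_sup_left, le_sup_right]) this
  obtain ⟨w, hw, p, hp, e⟩ := Submodule.mem_sup.1 k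
  rw [h.2.2.1.2] at hw
  obtain ⟨c, rfl⟩ := Submodule.mem_span_singleton.1 hw
  have hp' : mul x p = 0 := by simpa using mem_eigen.1 hp
  have b1 : B x p = 0 := orth hV (c := 1) (by rw [idem h, one_smul]) (mem_eigen.1 hp) (by norm_num)
  have b2 := hV.2.2.2.1 x u v
  rw [hu, ← e] at b2
  simp only [map_add, map_smul, hn, b1, smul_eq_mul, LinearMap.smul_apply] at b2
  rw [← e, map_add, map_smul, idem h, hp', ← b2]; module

theorem eq_of_one (hV : IsMajoranaAmbient mul B) (hu : B u u = 1) (hv : B v v = 1) (h : B u v = 1) :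
    u = v := by
  by_contra hn
  have := hV.2.2.1 _ (sub_ne_zero.2 hn)
  simp only [map_sub, LinearMap.sub_apply, hu, hv, h, hV.2.1 v u] at this
  norm_num at this

theorem eigen_map {g : V ≃ₗ[ℝ] V} (hg : ∀ u v, g (mul u v) = mul (g u) (g v)) (c : ℝ) :
    eigen mul (g x) c = (eigen mul x c).map (g : V →ₗ[ℝ] V) := by
  ext v
  obtain ⟨v, rfl⟩ := g.surjective v
  rw [mem_eigen, ← hg, ← map_smul, g.injective.eq_iff, ← mem_eigen]
  exact ⟨fun h => ⟨v, h, rfl⟩, fun ⟨w, hw, e⟩ => g.injective e ▸ hw⟩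

theorem eigenSum_map {g : V ≃ₗ[ℝ] V} (hg : ∀ u v, g (mul u v) = mul (g u) (g v)) (S : Set ℝ) :
    eigenSum mul (g x) S = (eigenSum mul x S).map (g : V →ₗ[ℝ] V) := by
  simp only [eigenSum, Submodule.map_iSup, eigen_map hg]

theorem conj (h : IsMajoranaPair mul B μ x) {g : V ≃ₗ[ℝ] V}
    (hg : ∀ u v, g (mul u v) = mul (g u) (g v)) (hB : ∀ u v, B (g u) (g v) = B u v) :
    IsMajoranaPair mul B (g * μ * g⁻¹) (g x) := by
  have ap : ∀ v, (g * μ * g⁻¹) (g v) = g (μ v) := fun v => by simp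
  refine ⟨fun u v => ?_, fun u v => ?_, ⟨⟨fun e => h.2.2.1.1.1 (g.map_eq_zero_iff.1 e),
    by rw [← hg, idem h], ?_, fun c hc d hd u hu v hv => ?_⟩, ?_⟩, fun v hv => ?_, fun v hv => ?_⟩
  · obtain ⟨u, rfl⟩ := g.surjective u
    obtain ⟨v, rfl⟩ := g.surjective v
    rw [← hg, ap, ap, ap, h.1, hg]
  · obtain ⟨u, rfl⟩ := g.surjective u
    obtain ⟨v, rfl⟩ := g.surjective v
    rw [ap, ap, hB, hB, h.2.1]
  · rw [eigenSum_map hg, h.2.2.1.1.2.2.1, Submodule.map_top, LinearEquiv.range]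
  · rw [eigen_map hg] at hu hv
    obtain ⟨u, hu, rfl⟩ := hu
    obtain ⟨v, hv, rfl⟩ := hv
    rw [eigenSum_map hg]
    exact ⟨_, h.2.2.1.1.2.2.2 c hc d hd u hu v hv, hg u v⟩
  · rw [eigen_map hg, h.2.2.1.2, Submodule.map_span, Set.image_singleton]; rfl
  · rw [eigenSum_map hg] at hv
    obtain ⟨v, hv, rfl⟩ := hv
    exact (ap v).trans (congrArg g (h.2.2.2.1 v hv))
  · rw [eigen_map hg] at hv
    obtain ⟨v, hv, rfl⟩ := hv
    exact (ap v).trans ((congrArg g (h.2.2.2.2 v hv)).trans (map_neg g v))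

end H8.Maj
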