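import Cfsg.Agent.H8.Maj

set_option autoImplicit false
open Cfsg Cfsg.Axial

namespace H8.Maj

variable {V : Type*} [AddCommGroup V] [Module ℝ V] {mul : V →ₗ[ℝ] V →ₗ[ℝ] V}
  {B : LinearMap.BilinForm ℝ V} {μ : V ≃ₗ[ℝ] V} {x y y' z z' S E O : V} {l m n : ℝ}

theorem xsig (hV : IsMajoranaAmbient mul B) (h : IsMajoranaPair mul B μ x) (hn : B x x = 1)
    (hy : μ y = y') (xy : mul x y = S + (1 / 32 : ℝ) • (x + y)) (hl : B x y = l) :
    mul x y' = S + (1 / 32 : ℝ) • (x + y') ∧ B x y' = l ∧ B x S = l - (1 + l) / 32 ∧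
      mul x S = (7 / 32 : ℝ) • S + (3 / 4 * l - 25 / 1024) • x + (7 / 2048 : ℝ) • (y + y') := by
  have h1 : mul x y' = S + (1 / 32 : ℝ) • (x + y') := by
    have := odd h y
    rw [hy, map_sub, xy] at this
    linear_combination (norm := module) -this
  have h2 : B x y' = l := by rw [← hl, ← hy, ← h.2.1 x y, fix h]
  refine ⟨h1, h2, ?_, ?_⟩
  · have := hV.2.2.2.1 x x y
    rw [idem h, xy] at this
    simp only [map_add, map_smul, smul_eq_mul, hn, hl] at this
    linarith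
  · have := star hV h hn (u := y + y') (by rw [map_add, ← hy, invol h, add_comm])
    simp only [map_add, map_smul, xy, h1, hl, h2, idem h] at this
    linear_combination (norm := module) (1 / 2 : ℝ) • this

theorem core (hV : IsMajoranaAmbient mul B) (h : IsMajoranaPair mul B μ x) (hn : B x x = 1)
    (yy : mul y y = y) (yy' : mul y' y' = y') (xy : mul x y = S + (1 / 32 : ℝ) • (x + y))
    (xy' : mul x y' = S + (1 / 32 : ℝ) • (x + y')) (xz : mul x z = E + (1 / 32 : ℝ) • (x + z))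
    (xz' : mul x z' = E + (1 / 32 : ℝ) • (x + z')) (y'y : mul y' y = O + (1 / 32 : ℝ) • (y' + y))
    (xS : mul x S = (7 / 32 : ℝ) • S + (3 / 4 * l - 25 / 1024) • x + (7 / 2048 : ℝ) • (y + y'))
    (yS : mul y S = (7 / 32 : ℝ) • S + (3 / 4 * l - 25 / 1024) • y + (7 / 2048 : ℝ) • (z + x))
    (y'S : mul y' S = (7 / 32 : ℝ) • S + (3 / 4 * l - 25 / 1024) • y' + (7 / 2048 : ℝ) • (z' + x))
    (b1 : B x y = l) (b2 : B x y' = l) (b3 : B y y = 1) (b4 : B y' y' = 1) (b5 : B y' y = n)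
    (b6 : B S y = l - (1 + l) / 32) (b7 : B S y' = l - (1 + l) / 32) :
    mul x O = (32/3 * l - 19/48 : ℝ) • S + (-32/3 * l^2 + 5/3 * l - 1/24 * n - 127/3072 : ℝ) • x + (1/6 * l - 19/3072 : ℝ) • y + (1/6 * l - 19/3072 : ℝ) • y' + (7/96 : ℝ) • E + (7/6144 : ℝ) • z + (7/6144 : ℝ) • z' ∧
    mul S S = (-5/12 * l - 13/1536 : ℝ) • S + (7/6 * l^2 - 7/384 * l + 7/1536 * n - 7/98304 : ℝ) • x + (49/768 * l - 245/196608 : ℝ) • y + (49/768 * l - 245/196608 : ℝ) • y' + (-7/1536 : ℝ) • E + (49/196608 : ℝ) • z + (49/196608 : ℝ) • z' + (7/2048 : ℝ) • O := by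
  have xx := idem h
  have yx := (hV.1 y x).trans xy
  have y'x := (hV.1 y' x).trans xy'
  have yy'' := (hV.1 y y').trans y'y
  have Sx := (hV.1 S x).trans xS
  have Sy := (hV.1 S y).trans yS
  have Sy' := (hV.1 S y').trans y'S
  have b8 := (hV.2.1 y y').trans b5
  obtain ⟨al, hal⟩ : ∃ al, al = (-4 : ℝ) • S + (3 * l - 1 / 8) • x + (7 / 16 : ℝ) • (y + y') :=
    ⟨_, rfl⟩
  obtain ⟨be, hbe⟩ : ∃ be, be = (4 : ℝ) • S + (1 / 8 - 4 * l) • x + (1 / 16 : ℝ) • (y + y') :=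
    ⟨_, rfl⟩
  have ha : mul x al = 0 := by
    simp only [hal, map_add, map_smul, xx, xy, xy', xS]; module
  have hb : mul x be = (1 / 4 : ℝ) • be := by
    simp only [hbe, map_add, map_smul, xx, xy, xy', xS]; module
  have o1 : B be al = 0 := orth hV hb (d := 0) (by rw [ha, zero_smul]) (by norm_num)
  have o2 : B be x = 0 := orth hV hb (d := 1) (by rw [xx, one_smul]) (by norm_num)
  have o3 : B be be = B be ((1 / 2 : ℝ) • (y + y')) := by
    have : (1 / 2 : ℝ) • (y + y') = be + al + l • x := by rw [hal, hbe]; module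
    rw [this, map_add, map_add, map_smul, o1, o2]; simp
  have E1 := f00 h ha ha
  have E2 := f44 hV h hn hb hb
  have E3 := f04 h ha hb
  rw [o3] at E2
  simp only [hal, hbe, map_add, map_smul, LinearMap.add_apply, LinearMap.smul_apply, xx, yy, yy',
    xy, xy', xz, xz', y'y, xS, yS, y'S, yx, y'x, yy'', Sx, Sy, Sy', b1, b2, b3, b4, b5, b6, b7, b8,
    smul_eq_mul] at E1 E2 E3
  constructor
  · linear_combination (norm := module) (8 / 3 : ℝ) • E1 - (8 / 3 : ℝ) • E2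
  · linear_combination (norm := module) (1 / 4 : ℝ) • E1 + (1 / 4 : ℝ) • E3 -
      (7 / 24 : ℝ) • E1 + (7 / 24 : ℝ) • E2

end H8.Maj
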