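import Cfsg.Agent.H8.Maj2

set_option autoImplicit false
open Cfsg Cfsg.Axial

namespace H8.Maj

variable {V : Type*} [AddCommGroup V] [Module ℝ V] {mul : V →ₗ[ℝ] V →ₗ[ℝ] V}
  {B : LinearMap.BilinForm ℝ V} {a : ℤ → V} {S E O : V} {l m n : ℝ}

structure St (mul : V →ₗ[ℝ] V →ₗ[ℝ] V) (B : LinearMap.BilinForm ℝ V) (a : ℤ → V) (S E O : V)
    (l m n : ℝ) : Prop where
  hV : IsMajoranaAmbient mul B
  ax : ∀ i, ∃ μ, IsMajoranaPair mul B μ (a i) ∧ ∀ j, μ (a j) = a (2 * i - j)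
  nm : ∀ i, B (a i) (a i) = 1
  p1 : mul (a 0) (a 1) = S + (1 / 32 : ℝ) • (a 0 + a 1)
  p2 : mul (a 0) (a 2) = E + (1 / 32 : ℝ) • (a 0 + a 2)
  p3 : mul (a (-1)) (a 1) = O + (1 / 32 : ℝ) • (a (-1) + a 1)
  l1 : B (a 0) (a 1) = l
  l2 : B (a 0) (a 2) = m
  l3 : B (a (-1)) (a 1) = n

namespace St

theorem one (h : St mul B a S E O l m n) :
    mul (a 0) (a (-1)) = S + (1 / 32 : ℝ) • (a 0 + a (-1)) ∧ B (a 0) (a (-1)) = l ∧
    B (a 0) S = l - (1 + l) / 32 ∧ mul (a 0) S = (7 / 32 : ℝ) • S + (3 / 4 * l - 25 / 1024) • a 0 + (7 / 2048 : ℝ) • (a 1 + a (-1)) := by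
  obtain ⟨μ, h1, h2⟩ := h.ax 0
  exact xsig h.hV h1 (h.nm 0) (h2 1) h.p1 h.l1

theorem two (h : St mul B a S E O l m n) :
    mul (a 0) (a (-2)) = E + (1 / 32 : ℝ) • (a 0 + a (-2)) ∧ B (a 0) (a (-2)) = m ∧
    B (a 0) E = m - (1 + m) / 32 ∧ mul (a 0) E = (7 / 32 : ℝ) • E + (3 / 4 * m - 25 / 1024) • a 0 + (7 / 2048 : ℝ) • (a 2 + a (-2)) := by
  obtain ⟨μ, h1, h2⟩ := h.ax 0
  exact xsig h.hV h1 (h.nm 0) (h2 2) h.p2 h.l2

theorem neg (h : St mul B a S E O l m n) : St mul B (fun j => a (-j)) S E O l m n where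
  hV := h.hV
  ax i := (h.ax (-i)).imp fun μ k => ⟨k.1, fun j => (k.2 _).trans (congrArg a (by ring))⟩
  nm i := h.nm _
  p1 := h.one.1
  p2 := h.two.1
  p3 := by rw [add_comm (a _)]; exact (h.hV.1 _ _).trans h.p3
  l1 := h.one.2.1
  l2 := h.two.2.1
  l3 := (h.hV.2.1 _ _).trans h.l3

theorem up (h : St mul B a S E O l m n) : St mul B (fun j => a (j + 1)) S O E l n m := by
  obtain ⟨μ, h1, h2⟩ := h.ax 1
  have k1 := xsig (S := S) h.hV h1 (h.nm 1) (h2 0)
    (by rw [add_comm (a _)]; exact (h.hV.1 _ _).trans h.p1) ((h.hV.2.1 _ _).trans h.l1)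
  have k2 := xsig (S := O) h.hV h1 (h.nm 1) (h2 (-1))
    (by rw [add_comm (a _)]; exact (h.hV.1 _ _).trans h.p3) ((h.hV.2.1 _ _).trans h.l3)
  exact ⟨h.hV, fun i => (h.ax (i + 1)).imp fun μ k =>
    ⟨k.1, fun j => (k.2 _).trans (congrArg a (by ring))⟩, fun i => h.nm _, k1.1, k2.1, h.p2,
    k1.2.1, k2.2.1, h.l2⟩

theorem dn (h : St mul B a S E O l m n) : St mul B (fun j => a (j - 1)) S O E l n m := by
  have := h.neg.up.neg
  convert this using 3
  ring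

theorem zx (h : St mul B a S E O l m n) :
    mul (a 0) O = (32/3 * l - 19/48 : ℝ) • S + (-32/3 * l^2 + 5/3 * l - 1/24 * n - 127/3072 : ℝ) • a 0 + (1/6 * l - 19/3072 : ℝ) • a 1 + (1/6 * l - 19/3072 : ℝ) • a (-1) + (7/96 : ℝ) • E + (7/6144 : ℝ) • a 2 + (7/6144 : ℝ) • a (-2) ∧
    mul S S = (-5/12 * l - 13/1536 : ℝ) • S + (7/6 * l^2 - 7/384 * l + 7/1536 * n - 7/98304 : ℝ) • a 0 + (49/768 * l - 245/196608 : ℝ) • a 1 + (49/768 * l - 245/196608 : ℝ) • a (-1) + (-7/1536 : ℝ) • E + (49/196608 : ℝ) • a 2 + (49/196608 : ℝ) • a (-2) + (7/2048 : ℝ) • O := by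
  obtain ⟨μ, h1, -⟩ := h.ax 0
  obtain ⟨_, h2, -⟩ := h.ax 1
  obtain ⟨_, h3, -⟩ := h.ax (-1)
  exact core h.hV h1 (h.nm 0) (idem h2) (idem h3) h.p1 h.one.1 h.p2 h.two.1 h.p3 h.one.2.2.2
    h.up.one.2.2.2 h.neg.up.one.2.2.2 h.l1 h.one.2.1 (h.nm 1) (h.nm (-1)) h.l3
    ((h.hV.2.1 _ _).trans h.up.one.2.2.1) ((h.hV.2.1 _ _).trans h.neg.up.one.2.2.1)

theorem bO (h : St mul B a S E O l m n) : B (a 0) O = l - (1 + l) / 32 + (l + n) / 32 - l / 16 := by
  have := h.hV.2.2.2.1 (a 0) (a (-1)) (a 1)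
  rw [h.p3, h.one.1] at this
  have b : B S (a 1) = l - (1 + l) / 32 := (h.hV.2.1 _ _).trans h.up.one.2.2.1
  simp only [map_add, map_smul, LinearMap.add_apply, LinearMap.smul_apply, smul_eq_mul, h.l1,
    h.one.2.1, h.l3, b] at this
  linarith

theorem mn (h : St mul B a S E O l m n) : n = m := by
  obtain ⟨μ, h1, -⟩ := h.ax 0
  have := h.hV.2.2.2.1 (a 0) (a 0) O
  rw [idem h1, h.zx.1] at this
  simp only [map_add, map_smul, smul_eq_mul, h.l1, h.one.2.1, h.l2, h.two.2.1, h.nm, h.bO,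
    h.one.2.2.1, h.two.2.2.1] at this
  linarith

theorem rel (h : St mul B a S E O l m m) : (32768/7 * l^2 - 2304/7 * l + 128/7 * m + 33/7 : ℝ) • a 0 + (-32768/7 * l^2 + 2304/7 * l - 128/7 * m - 33/7 : ℝ) • a 1 + (256 * l - 6 : ℝ) • a (-1) + (-32 : ℝ) • E + (-256 * l + 6 : ℝ) • a 2 + (1 : ℝ) • a (-2) + (32 : ℝ) • O + (-1 : ℝ) • a 3 = 0 := by
  have h1 := h.zx.2
  have h2 := h.up.zx.2
  simp only [Int.reduceNeg, Int.reduceAdd] at h2
  linear_combination (norm := module) (196608 / 49 : ℝ) • h2 - (196608 / 49 : ℝ) • h1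

theorem lam3 (h : St mul B a S E O l m m) : B (a 0) (a 3) = -32768/7 * l^3 + 36864/7 * l^2 - 1920/7 * l * m - 2169/7 * l - 33/7 * m + 33/7 := by
  have := congrArg (B (a 0)) h.rel
  simp only [map_add, map_smul, map_zero, smul_eq_mul, h.l1, h.one.2.1, h.l2, h.two.2.1, h.nm, h.bO,
    h.two.2.2.1] at this
  linarith

theorem lam4 (h : St mul B a S E O l m m) : B (a 0) (a 4) = 8388608/7 * l^4 - 9601024/7 * l^3 + 65536 * l^2 * m + 110592 * l^2 - 640/7 * l * m - 19840/7 * l - 128/7 * m^2 - 3 * m + 156/7 := by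
  have := congrArg (B (a 0)) h.up.rel
  simp only [Int.reduceNeg, Int.reduceAdd, map_add, map_smul, map_zero, smul_eq_mul, h.l1,
    h.one.2.1, h.l2, h.nm, h.bO, h.two.2.2.1, h.lam3] at this
  linarith

theorem lam5 (h : St mul B a S E O l m m) : B (a 0) (a 5) = -13958643712/49 * l^5 + 16273899520/49 * l^4 - 754974720/49 * l^3 * m - 1633419264/49 * l^3 + 12582912/49 * l^2 * m + 8683520/7 * l^2 + 475136/49 * l * m^2 + 259584/49 * l * m - 137721/7 * l - 256/49 * m^2 - 5256/49 * m + 5512/49 := by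
  have := congrArg (B (a 0)) h.up.up.rel
  simp only [Int.reduceNeg, Int.reduceAdd, map_add, map_smul, map_zero, smul_eq_mul, h.l1,
    h.l2, h.nm, h.bO, h.two.2.2.1, h.lam3, h.lam4] at this
  linarith

theorem lam6 (h : St mul B a S E O l m m) : B (a 0) (a 6) = 3298534883328/49 * l^6 - 3917010173952/49 * l^5 + 177167400960/49 * l^4 * m + 469317451776/49 * l^4 - 5511315456/49 * l^3 * m - 22767894528/49 * l^3 - 25165824/7 * l^2 * m^2 - 97910784/49 * l^2 * m + 542429184/49 * l^2 + 2457600/49 * l * m^2 + 5162880/49 * l * m - 904320/7 * l + 16384/49 * m^3 + 1152/49 * m^2 - 46500/49 * m + 29013/49 := by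
  have := congrArg (B (a 0)) h.up.up.up.rel
  simp only [Int.reduceNeg, Int.reduceAdd, map_add, map_smul, map_zero, smul_eq_mul, h.l1,
    h.l2, h.nm, h.bO, h.two.2.2.1, h.lam3, h.lam4, h.lam5] at this
  linarith

theorem pairE (h : St mul B a S E O l m m) (w : V) :
    B E w = B (a 2) (mul (a 0) w) - 1 / 32 * (B (a 0) w + B (a 2) w) := by
  have := h.hV.2.2.2.1 (a 2) (a 0) w
  rw [h.hV.1 (a 2), h.p2] at this
  simp only [map_add, map_smul, LinearMap.add_apply, LinearMap.smul_apply, smul_eq_mul] at this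
  linarith

theorem eqp (h : St mul B a S E O l m m) : 16384 * l^4 - 18176 * l^3 + 320 * l^2 * m + 1440 * l^2 + 139/2 * l * m - 75/2 * l + m^2 - 167/128 * m + 39/128 = 0 := by
  have s := h.hV.2.1
  have u := h.up
  have u2 := h.up.up
  have e1 := h.pairE E
  have e2 := h.pairE O
  rw [h.two.2.2.2] at e1
  rw [h.zx.1] at e2
  have c0 := u2.two.2.2.1
  have c1 := u2.bO
  have c2 := u2.one.2.2.1
  have c3 := u2.one.2.1
  have c4 := u2.two.2.1
  have c5 := u2.neg.lam3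
  have c6 := u2.neg.lam4
  have r := congrArg (B E) h.rel
  have d0 := (s _ _).trans h.neg.up.up.two.2.2.1
  have d1 := (s _ _).trans h.neg.up.bO
  have d2 := (s _ _).trans h.two.2.2.1
  have d3 := (s _ _).trans u.bO
  have d4 := (s _ _).trans c0
  have d5 := (s _ _).trans u2.up.bO
  simp only [Int.reduceNeg, Int.reduceAdd, neg_neg] at c0 c1 c2 c3 c4 c5 c6 d0 d1 d2 d3 d4 d5
  simp only [map_add, map_smul, map_zero, smul_eq_mul, c0, c1, c2, c3, c4, c5, c6, h.nm, h.bO,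
    h.two.2.2.1] at e1 e2
  simp only [map_add, map_smul, map_zero, smul_eq_mul, d0, d1, d2, d3, d4, d5, e1, e2] at r
  linarith

theorem eqq (h : St mul B a S E O l m m) : (61440/7 * l^3 + 20160 * l^2 - 5955/28 * l - 2925/1792) * m + (15728640/7 * l^5 - 16588800/7 * l^4 + 639360/7 * l^3 + 20880/7 * l^2 - 4605/28 * l + 2925/1792) = 0 := by
  have s := h.hV.2.1
  have u3 := h.up.up.up
  have e : B (a 3) (mul (a 0) E) = B (a 0) (mul (a 3) E) := by
    rw [h.hV.2.2.2.1, h.hV.2.2.2.1, h.hV.1 (a 3)]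
  have z := u3.zx.1
  have c0 := u3.bO
  have c1 := u3.one.2.1
  have c2 := u3.neg.lam3
  have c3 := u3.neg.lam5
  simp only [Int.reduceNeg, Int.reduceAdd] at z c0 c1 c2 c3
  rw [h.two.2.2.2, z] at e
  simp only [map_add, map_smul, smul_eq_mul, c0, c1, c2, c3, h.l1, h.l2, h.lam3, h.lam4, h.lam5,
    h.bO, h.one.2.2.1] at e
  linear_combination e - (-192 * l - 27/7) * h.eqp

theorem cases (h : St mul B a S E O l m m) : a 0 = a 4 ∨ a 0 = a 5 ∨ a 0 = a 6 := by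
  have k : B (a 0) (a 4) = 1 ∨ B (a 0) (a 5) = 1 ∨ B (a 0) (a 6) = 1 := by
    rw [h.lam4, h.lam5, h.lam6]
    have p := h.eqp
    have q := h.eqq
    have r : (l - 1) * (l * ((l - 1 / 8) * ((l - 1 / 64) ^ 2 * ((l - 13 / 256) * ((l - 1 / 32) *
        ((l - 3 / 128) * (l - 5 / 256))))))) = 0 := by
      linear_combination (1 / -15461882265600 : ℝ) * ((61440/7 * l^3 + 20160 * l^2 - 5955/28 * l - 2925/1792) ^ 2 * p -
        ((61440/7 * l^3 + 20160 * l^2 - 5955/28 * l - 2925/1792) * (m + (320 * l^2 + 139/2 * l - 167/128)) - (15728640/7 * l^5 - 16588800/7 * l^4 + 639360/7 * l^3 + 20880/7 * l^2 - 4605/28 * l + 2925/1792)) * q)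
    simp only [mul_eq_zero, sub_eq_zero, pow_eq_zero_iff two_ne_zero] at r
    rcases r with rfl | rfl | rfl | rfl | rfl | rfl | rfl | rfl
    · obtain rfl : m = 1 := by linarith
      norm_num
    · obtain rfl : m = 1 := by linarith
      norm_num
    · obtain rfl : m = 1 := by linarith
      norm_num
    · have : (m - 1 / 64) * (m - 1 / 8) = 0 := by linear_combination p
      simp only [mul_eq_zero, sub_eq_zero] at this
      rcases this with rfl | rfl <;> norm_num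
    · obtain rfl : m = 13 / 256 := by linarith
      norm_num
    · obtain rfl : m = 0 := by linarith
      norm_num
    · obtain rfl : m = 3 / 128 := by linarith
      norm_num
    · obtain rfl : m = 13 / 256 := by linarith
      norm_num
  exact k.imp (eq_of_one h.hV (h.nm _) (h.nm _))
    (Or.imp (eq_of_one h.hV (h.nm _) (h.nm _)) (eq_of_one h.hV (h.nm _) (h.nm _)))

end St
end H8.Maj
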