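import Mathlib
import Cfsg.Prelude.Def_SporadicCombinatorics

set_option autoImplicit false
open Cfsg

namespace H8.Mono

variable {α F : Type*} [Field F]

/-- The monomial map preserves the code. -/
def Pres (C : Submodule F (α → F)) (σ : Equiv.Perm α) (c : α → Fˣ) : Prop :=
  ∀ x ∈ C, monomialMap σ c x ∈ C

theorem mon_add (σ : Equiv.Perm α) (c : α → Fˣ) (x y : α → F) :
    monomialMap σ c (x + y) = monomialMap σ c x + monomialMap σ c y := by
  funext i; simp [monomialMap, mul_add]

theorem mon_smul (σ : Equiv.Perm α) (c : α → Fˣ) (a : F) (x : α → F) :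
    monomialMap σ c (a • x) = a • monomialMap σ c x := by
  funext i; simp [monomialMap]; ring

theorem mon_mul (σ τ : Equiv.Perm α) (c d : α → Fˣ) (x : α → F) :
    monomialMap (σ * τ) (fun i => c i * d (σ.symm i)) x =
      monomialMap σ c (monomialMap τ d x) := by
  funext i
  simp only [monomialMap, Units.val_mul, mul_assoc]
  rfl

theorem mon_inv (σ : Equiv.Perm α) (c : α → Fˣ) (x : α → F) :
    monomialMap σ⁻¹ (fun i => (c (σ i))⁻¹) (monomialMap σ c x) = x := by
  funext i
  simp only [monomialMap]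
  have : (σ⁻¹).symm i = σ i := rfl
  rw [this, Equiv.symm_apply_apply, ← mul_assoc, Units.inv_mul, one_mul]

variable {C : Submodule F (α → F)}

theorem Pres.mul {σ τ : Equiv.Perm α} {c d : α → Fˣ} (a : Pres C σ c) (b : Pres C τ d) :
    Pres C (σ * τ) (fun i => c i * d (σ.symm i)) := fun x hx => by
  rw [mon_mul]; exact a _ (b _ hx)

theorem Pres.one : Pres C 1 (fun _ => 1) := fun x hx => by
  have : monomialMap 1 (fun _ => (1 : Fˣ)) x = x := by
    funext i; exact one_mul _
  rwa [this]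

theorem Pres.const (u : Fˣ) : Pres C 1 (fun _ => u) := fun x hx => by
  have : monomialMap 1 (fun _ => u) x = (u : F) • x := rfl
  rw [this]; exact C.smul_mem _ hx

theorem Pres.inv [Finite C] {σ : Equiv.Perm α} {c : α → Fˣ} (a : Pres C σ c) :
    Pres C σ⁻¹ (fun i => (c (σ i))⁻¹) := by
  intro x hx
  let f : C → C := fun y => ⟨monomialMap σ c y, a _ y.2⟩
  have hf : Function.Injective f := fun y z h => by
    have h' := congrArg (fun w : C => monomialMap σ⁻¹ (fun i => (c (σ i))⁻¹) (w : α → F)) h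
    simp only [f, mon_inv] at h'
    exact Subtype.ext h'
  obtain ⟨y, hy⟩ := Finite.surjective_of_injective hf ⟨x, hx⟩
  have : monomialMap σ c y = x := congrArg Subtype.val hy
  rw [← this, mon_inv]; exact y.2

/-- The permutation parts of the monomial automorphisms. -/
def A (C : Submodule F (α → F)) [Finite C] : Subgroup (Equiv.Perm α) where
  carrier := {σ | ∃ c, Pres C σ c}
  one_mem' := ⟨_, Pres.one⟩
  mul_mem' := fun ⟨_, a⟩ ⟨_, b⟩ => ⟨_, a.mul b⟩
  inv_mem' := fun ⟨_, a⟩ => ⟨_, a.inv⟩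

theorem mem_A [Finite C] {σ : Equiv.Perm α} : σ ∈ A C ↔ ∃ c, Pres C σ c := Iff.rfl

theorem card_pairs [Finite C] :
    Nat.card {f : Equiv.Perm α × (α → Fˣ) // Pres C f.1 f.2} =
      Nat.card (A C) * Nat.card {c : α → Fˣ // Pres C 1 c} := by
  rw [← Nat.card_prod]
  choose k hk using fun σ : A C => (mem_A.1 σ.2)
  symm
  refine Nat.card_eq_of_bijective
    (fun p : A C × {c : α → Fˣ // Pres C 1 c} =>
      (⟨(p.1, fun i => p.2.1 i * k p.1 i), by
        have := p.2.2.mul (hk p.1)
        rw [one_mul] at this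
        exact this⟩ : {f : Equiv.Perm α × (α → Fˣ) // Pres C f.1 f.2})) ⟨?_, ?_⟩
  · rintro ⟨σ, c, hc⟩ ⟨τ, d, hd⟩ h
    have h1 : (σ : Equiv.Perm α) = τ := congrArg (fun w => w.1.1) h
    have h2 : (fun i => c i * k σ i) = fun i => d i * k τ i := congrArg (fun w => w.1.2) h
    obtain rfl : σ = τ := Subtype.ext h1
    have : c = d := funext fun i => mul_right_cancel (congrFun h2 i)
    subst this; rfl
  · rintro ⟨⟨σ, c⟩, h⟩
    have hσ : σ ∈ A C := ⟨c, h⟩
    have h2 := Pres.mul h (hk ⟨σ, hσ⟩).inv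
    simp only [mul_inv_cancel, Equiv.apply_symm_apply] at h2
    refine ⟨(⟨σ, hσ⟩, ⟨_, h2⟩), ?_⟩
    simp

theorem supp_mon [Fintype α] [DecidableEq α] [DecidableEq F] (σ : Equiv.Perm α) (c : α → Fˣ)
    (x : α → F) : (Finset.univ.filter fun a => monomialMap σ c x a ≠ 0) =
      (Finset.univ.filter fun a => x a ≠ 0).map σ.toEmbedding := by
  ext a
  simp [monomialMap, Finset.mem_map_equiv]

end H8.Mono
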