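import Cfsg.Agent.H8.NS1
import Cfsg.Agent.S0228
import Cfsg.Agent.S0494

/-! Same-order counts of `A₄` and `A₅`. -/

set_option autoImplicit false
set_option linter.unusedSectionVars false

namespace H8.NS
open Subgroup H1.Ord

variable {G : Type*} [Group G] [Finite G]

theorem fprime {p : ℕ} (hp : p.Prime) (h : p ∣ Nat.card G) :
    s G p ≠ 0 ∧ p ∣ 1 + s G p ∧ p - 1 ∣ s G p := by
  refine ⟨s_pos hp h, ?_, ?_⟩
  · have := frob h
    rwa [hp.sum_divisors, s_one, add_comm] at this
  · have := tot G p
    rwa [Nat.totient_prime hp] at this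

theorem big {a b : ℕ} (ha : a ≠ 0) (hb : b ≠ 0) (hab : a ≠ b) (e1 : a % 2 = 0) (e2 : b % 2 = 0)
    (h1 : ∃ m, s G m = a) (h2 : ∃ m, s G m = b) (h3 : s G 2 % 2 = 1) :
    1 + s G 2 + a + b ≤ Nat.card G := by
  obtain ⟨m, hm⟩ := h1
  obtain ⟨n, hn⟩ := h2
  have a1 := s_one G
  have := sum_le (G := G) {1, 2, m, n}
  have b1 : m ≠ 1 := by rintro rfl; omega
  have b2 : m ≠ 2 := by rintro rfl; omega
  have b3 : n ≠ 1 := by rintro rfl; omega
  have b4 : n ≠ 2 := by rintro rfl; omega
  have b5 : m ≠ n := by rintro rfl; omega
  rw [Finset.sum_insert (by simp [b1.symm, b3.symm]), Finset.sum_insert (by simp [b2.symm, b4.symm]),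
    Finset.sum_pair b5] at this
  omega

theorem a4 (hv : ∀ m, s G m = 0 ∨ s G m = 1 ∨ s G m = 3 ∨ s G m = 8) (h3 : ∃ m, s G m = 3)
    (h8 : ∃ m, s G m = 8) : Nonempty (G ≃* alternatingGroup (Fin 4)) := by
  have s1 := s_one G
  have s2 : s G 2 = 3 := s_two (by norm_num) (by norm_num) h3
  have hv' : ∀ m, 2 < m → s G m = 0 ∨ s G m = 8 := by
    intro m hm
    have := s_even (G := G) hm
    have := hv m
    omega
  have hpr : ∀ p, p.Prime → p ∣ Nat.card G → p = 2 ∨ p = 3 := by
    intro p hp h
    obtain ⟨a1, a2, -⟩ := fprime hp h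
    by_cases h2 : p = 2
    · exact Or.inl h2
    have := hv' p (by have := hp.two_le; omega)
    have a3 : p ∣ 3 ^ 2 := by
      have : s G p = 8 := by omega
      rwa [this] at a2
    exact Or.inr ((Nat.prime_dvd_prime_iff_eq hp Nat.prime_three).1 (hp.dvd_of_dvd_pow a3))
  have s9 : s G 9 = 0 := by
    have := tot G 9
    rw [show Nat.totient 9 = 6 by decide] at this
    have := hv' 9 (by norm_num); omega
  have s27 : s G 27 = 0 := by
    by_contra h; exact s_dvd h (show 9 ∣ 27 by norm_num) s9
  have n8 : ¬ 2 ^ (2 + 1) ∣ Nat.card G := by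
    intro h
    have := frob h
    rw [show Nat.divisors (2 ^ (2 + 1)) = {1, 2, 4, 8} by decide] at this
    simp only [Finset.mem_insert, Finset.mem_singleton, Nat.reduceEqDiff, or_self, not_false_eq_true,
      Finset.sum_insert, Finset.sum_singleton] at this
    have := hv' 4 (by norm_num); have := hv' 8 (by norm_num); omega
  have n27 : ¬ 3 ^ (2 + 1) ∣ Nat.card G := by
    intro h
    have := frob h
    rw [show Nat.divisors (3 ^ (2 + 1)) = {1, 3, 9, 27} by decide] at this
    simp only [Finset.mem_insert, Finset.mem_singleton, Nat.reduceEqDiff, or_self, not_false_eq_true,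
      Finset.sum_insert, Finset.sum_singleton] at this
    have := hv' 3 (by norm_num); omega
  have hd : Nat.card G ∣ 36 := by
    refine dvd_of_pp fun p k hp hk h => ?_
    rcases hpr p hp ((dvd_pow_self p hk.ne').trans h) with rfl | rfl
    · exact pp_dvd n8 (by norm_num) h
    · exact pp_dvd n27 (by norm_num) h
  have s6 : s G 6 = 0 := by
    by_contra h
    have h6 := s_card h
    have := frob h6
    rw [show Nat.divisors 6 = {1, 2, 3, 6} by decide] at this
    simp only [Finset.mem_insert, Finset.mem_singleton, Nat.reduceEqDiff, or_self, not_false_eq_true,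
      Finset.sum_insert, Finset.sum_singleton] at this
    have := hv' 3 (by norm_num); have := hv' 6 (by norm_num)
    have := s_dvd h (show 3 ∣ 6 by norm_num)
    omega
  have hsum := card_eq_sum (G := G) (E := 36) (by norm_num) fun m hm => (s_card hm).trans hd
  rw [show Nat.divisors 36 = {1, 2, 3, 4, 6, 9, 12, 18, 36} by decide] at hsum
  simp only [Finset.mem_insert, Finset.mem_singleton, Nat.reduceEqDiff, or_self, not_false_eq_true,
    Finset.sum_insert, Finset.sum_singleton] at hsum
  have s12 : s G 12 = 0 := by
    by_contra h; exact s_dvd h (show 6 ∣ 12 by norm_num) s6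
  have s18 : s G 18 = 0 := by
    by_contra h; exact s_dvd h (show 6 ∣ 18 by norm_num) s6
  have s36 : s G 36 = 0 := by
    by_contra h; exact s_dvd h (show 6 ∣ 36 by norm_num) s6
  have h12 : 12 ≤ Nat.card G := by
    obtain ⟨m, hm⟩ := h8
    have := sum_le (G := G) {1, 2, m}
    have b1 : m ≠ 1 := by rintro rfl; omega
    have b2 : m ≠ 2 := by rintro rfl; omega
    rw [Finset.sum_insert (by simp [b1.symm]), Finset.sum_pair b2.symm] at this
    omega
  have hG : Nat.card G = 12 := by
    have := hv' 3 (by norm_num); have := hv' 4 (by norm_num)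
    have h20 : Nat.card G = 12 ∨ Nat.card G = 20 := by omega
    rcases h20 with h | h
    · exact h
    · rw [h] at hd; norm_num at hd
  refine Cfsg.Agent.S0228.result hG fun z hz hc => ?_
  refine s_mul Nat.prime_two Nat.prime_three (by norm_num) hz ?_ s6
  have : centralizer ({z} : Set G) = ⊤ := by
    rw [centralizer_eq_top_iff_subset]; simpa using hc
  rw [this, card_top, hG]; norm_num

set_option maxHeartbeats 1600000 in
theorem a5 (hv : ∀ m, s G m = 0 ∨ s G m = 1 ∨ s G m = 15 ∨ s G m = 20 ∨ s G m = 24)
    (h15 : ∃ m, s G m = 15) (h20 : ∃ m, s G m = 20) (h24 : ∃ m, s G m = 24) :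
    Nonempty (G ≃* alternatingGroup (Fin 5)) := by
  haveI := Fact.mk Nat.prime_three
  haveI := Fact.mk Nat.prime_five
  have s1 := s_one G
  have s2 : s G 2 = 15 := s_two (by norm_num) (by norm_num) h15
  have hv' : ∀ m, 2 < m → s G m = 0 ∨ s G m = 20 ∨ s G m = 24 := by
    intro m hm
    have := s_even (G := G) hm
    have := hv m
    omega
  have h60 := big (by norm_num) (by norm_num) (by norm_num) (by norm_num) (by norm_num) h20 h24
    (by omega)
  have hpr : ∀ p, p.Prime → p ∣ Nat.card G → p = 2 ∨ p = 3 ∨ p = 5 := by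
    intro p hp h
    obtain ⟨a1, a2, a3⟩ := fprime hp h
    by_cases h2 : p = 2
    · exact Or.inl h2
    have := hv' p (by have := hp.two_le; omega)
    rcases this with e | e | e
    · exact absurd e a1
    · rw [e] at a2 a3
      rcases (hp.dvd_mul (m := 3) (n := 7)).1 a2 with h | h
      · exact Or.inr (Or.inl ((Nat.prime_dvd_prime_iff_eq hp Nat.prime_three).1 h))
      · have := (Nat.prime_dvd_prime_iff_eq hp (by norm_num)).1 h
        subst this; norm_num at a3
    · rw [e] at a2
      exact Or.inr (Or.inr ((Nat.prime_dvd_prime_iff_eq hp Nat.prime_five).1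
        (hp.dvd_of_dvd_pow (n := 2) a2)))
  have s3 : 3 ∣ Nat.card G → s G 3 = 20 := by
    intro h
    obtain ⟨a1, a2, -⟩ := fprime Nat.prime_three h
    have := hv' 3 (by norm_num); omega
  have s5 : 5 ∣ Nat.card G → s G 5 = 24 := by
    intro h
    obtain ⟨a1, a2, -⟩ := fprime Nat.prime_five h
    have := hv' 5 (by norm_num); omega
  have zt : ∀ m t, 2 < m → m.totient = t → ¬ t ∣ 20 → ¬ t ∣ 24 → s G m = 0 := by
    intro m t hm ht a b
    have := tot G m
    rw [ht] at this
    rcases hv' m hm with e | e | e
    · exact e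
    · exact absurd (e ▸ this) a
    · exact absurd (e ▸ this) b
  have s27 : s G 27 = 0 := zt 27 18 (by norm_num) (by decide) (by norm_num) (by norm_num)
  have s32 : s G 32 = 0 := zt 32 16 (by norm_num) (by decide) (by norm_num) (by norm_num)
  have s125 : s G 125 = 0 := zt 125 100 (by norm_num) (by decide +kernel) (by norm_num) (by norm_num)
  have n27 : ¬ 3 ^ (2 + 1) ∣ Nat.card G := by
    intro h
    have := frob h
    rw [show Nat.divisors (3 ^ (2 + 1)) = {1, 3, 9, 27} by decide] at this
    simp only [Finset.mem_insert, Finset.mem_singleton, Nat.reduceEqDiff, or_self, not_false_eq_true,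
      Finset.sum_insert, Finset.sum_singleton] at this
    have := s3 (Dvd.dvd.trans (by norm_num) h)
    have := hv' 9 (by norm_num); omega
  have n9 : ¬ 3 ^ (1 + 1) ∣ Nat.card G := by
    intro h
    have a1 := frob h
    have a2 := sol_le h n27
    rw [show Nat.divisors (3 ^ (1 + 1)) = {1, 3, 9} by decide] at a1 a2
    simp only [Finset.mem_insert, Finset.mem_singleton, Nat.reduceEqDiff, or_self, not_false_eq_true,
      Finset.sum_insert, Finset.sum_singleton] at a1 a2
    have := s3 (Dvd.dvd.trans (by norm_num) h)
    have := hv' 9 (by norm_num)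
    have a3 := s_cyc (G := G) (p := 3) (k := 2) (by norm_num; omega) n27
    rw [show Nat.totient (3 ^ 2) = 6 by decide] at a3
    norm_num at a3 a2
    omega
  have s9 : s G 9 = 0 := by
    by_contra h; exact n9 (s_card h)
  have s25 : s G 25 = 0 := by
    by_contra h
    have h25 := s_card h
    have := frob h25
    rw [show Nat.divisors 25 = {1, 5, 25} by decide] at this
    simp only [Finset.mem_insert, Finset.mem_singleton, Nat.reduceEqDiff, or_self, not_false_eq_true,
      Finset.sum_insert, Finset.sum_singleton] at this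
    have := s5 (Dvd.dvd.trans (by norm_num) h25)
    have := hv' 25 (by norm_num); omega
  have n125 : ¬ 5 ^ (2 + 1) ∣ Nat.card G := by
    intro h
    have := frob h
    rw [show Nat.divisors (5 ^ (2 + 1)) = {1, 5, 25, 125} by decide +kernel] at this
    simp only [Finset.mem_insert, Finset.mem_singleton, Nat.reduceEqDiff, or_self, not_false_eq_true,
      Finset.sum_insert, Finset.sum_singleton] at this
    have := s5 (Dvd.dvd.trans (by norm_num) h)
    omega
  have n128 : ¬ 2 ^ (6 + 1) ∣ Nat.card G := by
    intro h
    have := frob h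
    rw [show Nat.divisors (2 ^ (6 + 1)) = {1, 2, 4, 8, 16, 32, 64, 128} by decide +kernel] at this
    simp only [Finset.mem_insert, Finset.mem_singleton, Nat.reduceEqDiff, or_self, not_false_eq_true,
      Finset.sum_insert, Finset.sum_singleton] at this
    have s64 : s G 64 = 0 := by
      by_contra h; exact s_dvd h (show 32 ∣ 64 by norm_num) s32
    have s128 : s G 128 = 0 := by
      by_contra h; exact s_dvd h (show 32 ∣ 128 by norm_num) s32
    have := hv' 4 (by norm_num); have := hv' 8 (by norm_num); have := hv' 16 (by norm_num); omega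
  have hE : ∀ m, s G m ≠ 0 → m ∣ 240 := by
    intro m hm
    refine dvd_of_pp fun p k hp hk h => ?_
    rcases hpr p hp (((dvd_pow_self p hk.ne').trans h).trans (s_card hm)) with rfl | rfl | rfl
    · exact pp_dvd (a := 4) (fun h => s_dvd hm h s32) (by norm_num) h
    · exact pp_dvd (a := 1) (fun h => s_dvd hm h s9) (by norm_num) h
    · exact pp_dvd (a := 1) (fun h => s_dvd hm h s25) (by norm_num) h
  have hsum := card_eq_sum (G := G) (E := 240) (by norm_num) hE
  rw [show Nat.divisors 240 = {1, 2, 3, 4, 5, 6, 8, 10, 12, 15, 16, 20, 24, 30, 40, 48, 60, 80,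
    120, 240} by decide +kernel] at hsum
  simp only [Finset.mem_insert, Finset.mem_singleton, Nat.reduceEqDiff, or_self, not_false_eq_true,
    Finset.sum_insert, Finset.sum_singleton] at hsum
  have s15 : s G 15 = 0 := by
    by_contra h
    have h15 := s_card h
    have := frob h15
    rw [show Nat.divisors 15 = {1, 3, 5, 15} by decide] at this
    simp only [Finset.mem_insert, Finset.mem_singleton, Nat.reduceEqDiff, or_self, not_false_eq_true,
      Finset.sum_insert, Finset.sum_singleton] at this
    have := s3 (Dvd.dvd.trans (by norm_num) h15)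
    have := s5 (Dvd.dvd.trans (by norm_num) h15)
    have := hv' 15 (by norm_num); omega
  have z15 : ∀ m, 15 ∣ m → s G m = 0 := fun m hm => by
    by_contra h; exact s_dvd h hm s15
  have s30 := z15 30 (by norm_num)
  have s60 := z15 60 (by norm_num)
  have s120 := z15 120 (by norm_num)
  have s240 := z15 240 (by norm_num)
  have s40 : s G 40 = 0 := zt 40 16 (by norm_num) (by decide) (by norm_num) (by norm_num)
  have s48 : s G 48 = 0 := zt 48 16 (by norm_num) (by decide) (by norm_num) (by norm_num)
  have s80 : s G 80 = 0 := zt 80 32 (by norm_num) (by decide +kernel) (by norm_num) (by norm_num)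
  have zd : ∀ p m, ¬ p ∣ Nat.card G → p ∣ m → s G m = 0 := fun p m h1 h2 => by
    by_contra h; exact h1 (h2.trans (s_card h))
  have n3 : 3 ∣ Nat.card G → Nat.card (Sylow 3 G) = 10 := by
    intro h
    have a3 := s_cyc (G := G) (p := 3) (k := 1) (by rw [pow_one, s3 h]; norm_num) n9
    rw [show Nat.totient (3 ^ 1) = 2 by decide, pow_one, s3 h] at a3
    omega
  have s10 : 5 ∣ Nat.card G → s G 10 = 0 ∨ s G 10 = 20 := by
    intro h
    have h10 : 10 ∣ Nat.card G := by
      have := s_card (G := G) (m := 2) (by omega); omega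
    have := frob h10
    rw [show Nat.divisors 10 = {1, 2, 5, 10} by decide] at this
    simp only [Finset.mem_insert, Finset.mem_singleton, Nat.reduceEqDiff, or_self, not_false_eq_true,
      Finset.sum_insert, Finset.sum_singleton] at this
    have := s5 h
    have := hv' 10 (by norm_num); omega
  have hd : Nat.card G ∣ 4800 := by
    refine dvd_of_pp fun p k hp hk h => ?_
    rcases hpr p hp ((dvd_pow_self p hk.ne').trans h) with rfl | rfl | rfl
    · exact pp_dvd n128 (by norm_num) h
    · exact pp_dvd n9 (by norm_num) h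
    · exact pp_dvd n125 (by norm_num) h
  have n25 : ¬ 5 ^ (1 + 1) ∣ Nat.card G := by
    intro h
    have h5 : 5 ∣ Nat.card G := Dvd.dvd.trans (by norm_num) h
    by_cases h3 : 3 ∣ Nat.card G
    · obtain ⟨x, hx, hdv⟩ := card_dvd h3 n9
      rw [n3 h3] at hdv
      refine s_mul Nat.prime_three Nat.prime_five (by norm_num) hx ?_ s15
      have := h.trans hdv
      omega
    · have a3 := zd 3 3 h3 (by norm_num)
      have a6 := zd 3 6 h3 (by norm_num)
      have a12 := zd 3 12 h3 (by norm_num)
      have a24 := zd 3 24 h3 (by norm_num)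
      have b4 := hv' 4 (by norm_num); have b8 := hv' 8 (by norm_num)
      have b16 := hv' 16 (by norm_num); have b20 := hv' 20 (by norm_num)
      have b10 := s10 h5
      have b5 := s5 h5
      have c20 := tot G 20
      rw [show Nat.totient 20 = 8 by decide] at c20
      have hle : Nat.card G ≤ 156 := by
        have c4 : s G 4 ≤ 24 := by clear * - b4; omega
        have c8 : s G 8 ≤ 24 := by clear * - b8; omega
        have c16 : s G 16 ≤ 24 := by clear * - b16; omega
        have c10 : s G 10 ≤ 20 := by clear * - b10; omega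
        have d20 : s G 20 ≤ 24 := by clear * - b20; omega
        clear * - c4 c8 c16 c10 d20 hsum s1 s2 a3 a6 a12 a24 b5 s15 s30 s60 s120 s240 s40 s48 s80
        omega
      have hG : Nat.card G = 100 := by
        obtain ⟨c, hc⟩ := h
        rw [hc] at hle h60 h3 n125 ⊢
        have c1 : 3 < c + 1 := by clear * - h60 s2; omega
        have c2 : c < 7 := by clear * - hle; omega
        clear * - c1 c2 h3 n125
        interval_cases c <;> simp_all
      have a8 := zd 8 8 (by rw [hG]; norm_num) (by norm_num)
      have a16 := zd 8 16 (by rw [hG]; norm_num) (by norm_num)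
      clear * - hG b4 b10 b20 c20 a8 a16 hsum s1 s2 a3 a6 a12 a24 b5 s15 s30 s60 s120 s240 s40 s48 s80
      omega
  have h5 : 5 ∣ Nat.card G := by
    by_contra h5
    have h3 : ¬ 3 ∣ Nat.card G := fun h3 => h5 (Dvd.dvd.trans (by rw [n3 h3]; norm_num) (nsyl_card 3))
    have h64 : Nat.card G ∣ 64 := by
      refine dvd_of_pp fun p k hp hk h => ?_
      rcases hpr p hp ((dvd_pow_self p hk.ne').trans h) with rfl | rfl | rfl
      · exact pp_dvd n128 (by norm_num) h
      · exact absurd ((dvd_pow_self 3 hk.ne').trans h) h3
      · exact absurd ((dvd_pow_self 5 hk.ne').trans h) h5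
    have hG : Nat.card G = 64 := by
      obtain ⟨c, hc⟩ := h64
      have : c = 1 := by
        rcases c with _ | _ | c
        · omega
        · rfl
        · nlinarith
      subst this; omega
    obtain ⟨m, hm⟩ := h20
    have hm' : m ∈ Nat.divisors 64 := Nat.mem_divisors.2 ⟨hG ▸ s_card (by omega), by norm_num⟩
    have a := card_eq_sum (G := G) (E := 64) (by norm_num) fun m hm => hG ▸ s_card hm
    rw [show Nat.divisors 64 = {1, 2, 4, 8, 16, 32, 64} by decide +kernel] at hm' a
    simp only [Finset.mem_insert, Finset.mem_singleton, Nat.reduceEqDiff, or_self, not_false_eq_true,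
      Finset.sum_insert, Finset.sum_singleton] at hm' a
    have s64 : s G 64 = 0 := by
      by_contra h; exact s_dvd h (show 32 ∣ 64 by norm_num) s32
    have b4 := hv' 4 (by norm_num); have b8 := hv' 8 (by norm_num)
    have b16 := hv' 16 (by norm_num)
    rcases hm' with rfl | rfl | rfl | rfl | rfl | rfl | rfl <;> omega
  have b5 := s5 h5
  have n5 : Nat.card (Sylow 5 G) = 6 := by
    have a3 := s_cyc (G := G) (p := 5) (k := 1) (by rw [pow_one, b5]; norm_num) n25
    rw [show Nat.totient (5 ^ 1) = 4 by decide, pow_one, b5] at a3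
    omega
  have h3 : 3 ∣ Nat.card G := Dvd.dvd.trans (by rw [n5]; norm_num) (nsyl_card 5)
  have b3 := s3 h3
  have b10 : s G 10 = 0 := by
    have := nsyl_dvd (G := G) (p := 5) (k := 1) (m := 10) (by simpa using h5) n25 (by norm_num)
    rw [n5] at this
    have := s10 h5; omega
  obtain ⟨x, hx, hdv⟩ := card_dvd h5 n25
  have hC : Nat.card (centralizer ({x} : Set G)) ∣ 5 := by
    refine cent_card Nat.prime_five n25 hx fun q hq h1 h2 => ?_
    rcases hpr q hq h2 with rfl | rfl | rfl
    · exact b10
    · exact s15
    · exact absurd rfl h1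
  have h120 : Nat.card G ∣ 120 := by
    rw [n5] at hdv
    exact hdv.trans (Nat.mul_dvd_mul_left 24 hC)
  have hG : Nat.card G = 60 := by
    have : Nat.card G = 60 ∨ Nat.card G = 120 := by
      obtain ⟨c, hc⟩ := h120
      rcases c with _ | _ | _ | c
      · omega
      · omega
      · omega
      · nlinarith
    refine this.resolve_right fun hG => ?_
    have n16 : ¬ 2 ^ (3 + 1) ∣ Nat.card G := by rw [hG]; norm_num
    have h8 : 2 ^ 3 ∣ Nat.card G := by rw [hG]; norm_num
    have a16 := zd 16 16 n16 (by norm_num)
    have a20 : s G 20 = 0 := by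
      by_contra h; exact s_dvd h (show 10 ∣ 20 by norm_num) b10
    have c24 := tot G 24
    rw [show Nat.totient 24 = 8 by decide] at c24
    have a1 := frob h8
    have a2 := sol_le h8 n16
    rw [show Nat.divisors (2 ^ 3) = {1, 2, 4, 8} by decide] at a1 a2
    simp only [Finset.mem_insert, Finset.mem_singleton, Nat.reduceEqDiff, or_self, not_false_eq_true,
      Finset.sum_insert, Finset.sum_singleton] at a1 a2
    have b4 := hv' 4 (by norm_num); have b8 := hv' 8 (by norm_num)
    have b6 := hv' 6 (by norm_num); have b12 := hv' 12 (by norm_num)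
    have b24 := hv' 24 (by norm_num)
    have e8 : s G 8 = 20 ∧ s G 4 = 20 := by
      clear * - hG b4 b8 b6 b12 b24 c24 a1 a16 a20 hsum s1 s2 b3 b5 b10 s15 s30 s60 s120 s240 s40
        s48 s80
      omega
    have a3 := s_cyc (G := G) (p := 2) (k := 3) (by norm_num; omega) n16
    rw [show Nat.totient (2 ^ 3) = 4 by decide] at a3
    norm_num at a3
    clear * - a3 a2 e8 s1 s2
    omega
  haveI : Nontrivial G := Finite.one_lt_card_iff_nontrivial.1 (by omega)
  haveI : IsSimpleGroup G := by
    refine ⟨fun N hN => ?_⟩
    by_contra hcon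
    push Not at hcon
    have e := N.index_mul_card
    have e1 : Nat.card N ≠ 1 := fun h => hcon.1 (card_eq_one.1 h)
    have e2 : N.index ≠ 1 := fun h => hcon.2 (index_eq_one.1 h)
    rw [hG] at e
    have hm : Nat.card N ∈ Nat.divisors 60 := Nat.mem_divisors.2 ⟨Dvd.intro_left _ e, by norm_num⟩
    rw [show Nat.divisors 60 = {1, 2, 3, 4, 5, 6, 10, 12, 15, 20, 30, 60} by decide +kernel] at hm
    simp only [Finset.mem_insert, Finset.mem_singleton] at hm
    have k5 : (5 : ℕ).Coprime N.index → 25 ≤ Nat.card N := fun h => by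
      have := sol_le_normal N (by norm_num) h
      rw [Nat.prime_five.sum_divisors] at this; omega
    have k3 : (3 : ℕ).Coprime N.index → 21 ≤ Nat.card N := fun h => by
      have := sol_le_normal N (by norm_num) h
      rw [Nat.prime_three.sum_divisors] at this; omega
    have k15 : (15 : ℕ).Coprime N.index → 45 ≤ Nat.card N := fun h => by
      have := sol_le_normal N (by norm_num) h
      rw [show Nat.divisors 15 = {1, 3, 5, 15} by decide] at this
      simp only [Finset.mem_insert, Finset.mem_singleton, Nat.reduceEqDiff, or_self,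
        not_false_eq_true, Finset.sum_insert, Finset.sum_singleton] at this
      omega
    have k2 : ¬ 5 ∣ Nat.card N → 2 ∣ Nat.card N → 6 ≤ Nat.card N := fun h h2 => by
      have a := fpf Nat.prime_five hx hC N h (m := 2) (by norm_num)
      have b := s_pos Nat.prime_two h2
      have c := sum_le (G := N) {1, 2}
      rw [Finset.sum_pair (by norm_num), s_one] at c
      omega
    rcases hm with h | h | h | h | h | h | h | h | h | h | h | h <;> rw [h] at e k5 k3 k15 k2 e1
    · exact e1 rfl
    · omega
    · have := k3 (by rw [show N.index = 20 by omega]; norm_num); omega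
    · omega
    · have := k5 (by rw [show N.index = 12 by omega]; norm_num); omega
    · have := k3 (by rw [show N.index = 10 by omega]; norm_num); omega
    · have := k5 (by rw [show N.index = 6 by omega]; norm_num); omega
    · have := k3 (by rw [show N.index = 5 by omega]; norm_num); omega
    · have := k5 (by rw [show N.index = 4 by omega]; norm_num); omega
    · have := k5 (by rw [show N.index = 3 by omega]; norm_num); omega
    · have := k15 (by rw [show N.index = 2 by omega]; norm_num); omega
    · omega
  exact Cfsg.Agent.S0494.result hG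

end H8.NS
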