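import Mathlib
import Cfsg.Agent.H8.Mono

set_option autoImplicit false
open Cfsg

namespace H8.Tern

abbrev Z := ZMod 3
abbrev T6 := Z × Z × Z × Z × Z × Z

def mk (a0 a1 a2 a3 a4 a5 a6 a7 a8 a9 a10 a11 : Z) : ArrayPt → Z :=
  fun p => ![![a0, a1, a2], ![a3, a4, a5], ![a6, a7, a8], ![a9, a10, a11]] p.1 p.2

theorem mk_eta (x : ArrayPt → Z) : x = mk (x (0, 0)) (x (0, 1)) (x (0, 2)) (x (1, 0)) (x (1, 1))
    (x (1, 2)) (x (2, 0)) (x (2, 1)) (x (2, 2)) (x (3, 0)) (x (3, 1)) (x (3, 2)) := by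
  funext ⟨i, r⟩
  fin_cases i <;> fin_cases r <;> rfl

def D (x : ArrayPt → Z) : Prop :=
  ∃ s : Z, (∀ i : Fin 4, ∑ r : Z, x (i, r) = -s) ∧
    ∀ u v : Z, ∑ i : Fin 4, x (i, u * ![0, 1, 1, 1] i + v * ![1, 0, 1, 2] i) = s

instance (x : ArrayPt → Z) : Decidable (D x) := by unfold D; infer_instance

theorem mem_iff {x : ArrayPt → Z} : x ∈ ternaryGolayCode ↔ D x := by
  change IsTernaryGolayWord x ↔ D x
  unfold IsTernaryGolayWord D tetracode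
  refine exists_congr fun s => and_congr_right fun _ => ⟨fun h u v => ?_, fun h t ht => ?_⟩
  · exact h (u • ![0, 1, 1, 1] + v • ![1, 0, 1, 2]) (Submodule.mem_span_pair.2 ⟨u, v, rfl⟩)
  · obtain ⟨u, v, rfl⟩ := Submodule.mem_span_pair.1 ht
    exact h u v

def W' (a b c d e f : Z) : ArrayPt → Z :=
  mk a b c d e (a + b + c + 2 * d + 2 * e) f (2 * b + c + 2 * d + e + f)
    (a + 2 * b + d + 2 * e + f) (a + 2 * b + 2 * c + 2 * d + 2 * f) (a + c + d + e + 2 * f)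
    (2 * a + 2 * b + c + 2 * e + 2 * f)

def W (t : T6) : ArrayPt → Z := W' t.1 t.2.1 t.2.2.1 t.2.2.2.1 t.2.2.2.2.1 t.2.2.2.2.2

def inf (x : ArrayPt → Z) : T6 := (x (0, 0), x (0, 1), x (0, 2), x (1, 0), x (1, 1), x (2, 0))

theorem inf_W (t : T6) : inf (W t) = t := rfl

theorem W_inj : Function.Injective W := Function.LeftInverse.injective inf_W

theorem D_W : ∀ a b c d e f : Z, D (W' a b c d e f) := by decide +kernel

theorem D_zero : ∀ a b c d e f : Z, D (mk 0 0 0 0 0 a 0 b c d e f) →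
    a = 0 ∧ b = 0 ∧ c = 0 ∧ d = 0 ∧ e = 0 ∧ f = 0 := by decide +kernel

theorem W_mem (t : T6) : W t ∈ ternaryGolayCode := mem_iff.2 (D_W _ _ _ _ _ _)

theorem W_inf {x : ArrayPt → Z} (hx : x ∈ ternaryGolayCode) : W (inf x) = x := by
  have hy := sub_mem hx (W_mem (inf x))
  set y := x - W (inf x) with hyd
  have e : y = mk 0 0 0 0 0 (y (1, 2)) 0 (y (2, 1)) (y (2, 2)) (y (3, 0)) (y (3, 1)) (y (3, 2)) := by
    have h0 : y (0, 0) = 0 := sub_self _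
    have h1 : y (0, 1) = 0 := sub_self _
    have h2 : y (0, 2) = 0 := sub_self _
    have h3 : y (1, 0) = 0 := sub_self _
    have h4 : y (1, 1) = 0 := sub_self _
    have h5 : y (2, 0) = 0 := sub_self _
    conv_lhs => rw [mk_eta y, h0, h1, h2, h3, h4, h5]
  have hD := mem_iff.1 hy
  rw [e] at hD
  obtain ⟨a, b, c, d, f, g⟩ := D_zero _ _ _ _ _ _ hD
  rw [a, b, c, d, f, g] at e
  have : mk 0 0 0 0 0 0 0 0 0 0 0 0 = 0 := (mk_eta 0).symm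
  rw [this] at e
  exact (sub_eq_zero.1 e).symm

theorem mem_iff_W {x : ArrayPt → Z} : x ∈ ternaryGolayCode ↔ ∃ t, W t = x :=
  ⟨fun h => ⟨_, W_inf h⟩, fun ⟨t, h⟩ => h ▸ W_mem t⟩

theorem card_code : Nat.card ternaryGolayCode = 729 := by
  have : Nat.card T6 = Nat.card ternaryGolayCode :=
    Nat.card_eq_of_bijective (fun t => ⟨W t, W_mem t⟩)
      ⟨fun s t h => W_inj (congrArg Subtype.val h), fun x => ⟨_, Subtype.ext (W_inf x.2)⟩⟩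
  rw [← this]; simp [T6, Z]

def wt (t : T6) : ℕ := (ternarySupport (W t)).card

theorem wt_chk : ∀ a b c d e f : Z, W' a b c d e f = 0 ∨ (ternarySupport (W' a b c d e f)).card = 6 ∨
    (ternarySupport (W' a b c d e f)).card = 9 ∨ (ternarySupport (W' a b c d e f)).card = 12 := by
  decide +kernel

theorem weights {x : ArrayPt → Z} (hx : x ∈ ternaryGolayCode) (h0 : x ≠ 0) :
    (ternarySupport x).card = 6 ∨ (ternarySupport x).card = 9 ∨ (ternarySupport x).card = 12 := by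
  obtain ⟨t, rfl⟩ := mem_iff_W.1 hx
  exact (wt_chk _ _ _ _ _ _).resolve_left h0

theorem ncard_wt (j : ℕ) : {x : ArrayPt → Z | x ∈ ternaryGolayCode ∧ (ternarySupport x).card = j}.ncard =
    (Finset.univ.filter fun t : T6 => wt t = j).card := by
  rw [← Set.ncard_coe_finset, ← Set.ncard_image_of_injective _ W_inj]
  congr 1
  ext x
  constructor
  · rintro ⟨h1, h⟩
    obtain ⟨t, rfl⟩ := mem_iff_W.1 h1
    exact ⟨t, Finset.mem_coe.2 (Finset.mem_filter.2 ⟨Finset.mem_univ _, h⟩), rfl⟩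
  · rintro ⟨t, h, rfl⟩
    exact ⟨W_mem t, (Finset.mem_filter.1 (Finset.mem_coe.1 h)).2⟩

theorem cnt_chk : (Finset.univ.filter fun t : T6 => wt t = 6).card = 264 ∧
    (Finset.univ.filter fun t : T6 => wt t = 9).card = 440 ∧
    (Finset.univ.filter fun t : T6 => wt t = 12).card = 24 := by decide +kernel

theorem sq_chk : ∀ a b c d e f : Z, ∑ p, W' a b c d e f p * W' a b c d e f p = 0 := by
  decide +kernel

theorem orth {x y : ArrayPt → Z} (hx : x ∈ ternaryGolayCode) (hy : y ∈ ternaryGolayCode) :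
    ∑ p, x p * y p = 0 := by
  have h : ∀ z ∈ ternaryGolayCode, ∑ p, z p * z p = 0 := fun z hz => by
    obtain ⟨t, rfl⟩ := mem_iff_W.1 hz
    exact sq_chk _ _ _ _ _ _
  have h1 := h _ (add_mem hx hy)
  have e : ∑ p, (x + y) p * (x + y) p =
      ∑ p, x p * x p + ∑ p, y p * y p + 2 * ∑ p, x p * y p := by
    rw [Finset.mul_sum, ← Finset.sum_add_distrib, ← Finset.sum_add_distrib]
    exact Finset.sum_congr rfl fun p _ => by simp only [Pi.add_apply]; ring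
  rw [e, h x hx, h y hy, zero_add, zero_add] at h1
  exact (mul_eq_zero.1 h1).resolve_left (by decide)

theorem W_lin : ∀ a b c d e f : Z, W' a b c d e f = a • W' 1 0 0 0 0 0 + b • W' 0 1 0 0 0 0 +
    c • W' 0 0 1 0 0 0 + d • W' 0 0 0 1 0 0 + e • W' 0 0 0 0 1 0 + f • W' 0 0 0 0 0 1 := by
  decide +kernel

open H8.Mono in
theorem pres_of {σ : Equiv.Perm ArrayPt} {c : ArrayPt → Zˣ}
    (h : D (monomialMap σ c (W' 1 0 0 0 0 0)) ∧ D (monomialMap σ c (W' 0 1 0 0 0 0)) ∧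
      D (monomialMap σ c (W' 0 0 1 0 0 0)) ∧ D (monomialMap σ c (W' 0 0 0 1 0 0)) ∧
      D (monomialMap σ c (W' 0 0 0 0 1 0)) ∧ D (monomialMap σ c (W' 0 0 0 0 0 1))) :
    Pres ternaryGolayCode σ c := by
  intro x hx
  obtain ⟨t, rfl⟩ := mem_iff_W.1 hx
  obtain ⟨h1, h2, h3, h4, h5, h6⟩ := h
  rw [← mem_iff] at h1 h2 h3 h4 h5 h6
  unfold W
  rw [W_lin]
  simp only [mon_add, mon_smul]
  refine add_mem (add_mem (add_mem (add_mem (add_mem ?_ ?_) ?_) ?_) ?_) ?_ <;>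
    exact Submodule.smul_mem _ _ ‹_›

set_option synthInstance.maxSize 100000 in
theorem ker_chk : ∀ a0 ≠ (0 : Z), ∀ a1 ≠ (0 : Z), ∀ a2 ≠ (0 : Z), ∀ a3 ≠ (0 : Z), ∀ a4 ≠ (0 : Z),
    ∀ a5 ≠ (0 : Z), ∀ a6 ≠ (0 : Z), ∀ a7 ≠ (0 : Z), ∀ a8 ≠ (0 : Z), ∀ a9 ≠ (0 : Z), ∀ a10 ≠ (0 : Z),
    ∀ a11 ≠ (0 : Z),
    mk a0 a1 a2 a3 a4 a5 a6 a7 a8 a9 a10 a11 * W' 1 0 0 0 0 0 = W' a0 0 0 0 0 0 →
    mk a0 a1 a2 a3 a4 a5 a6 a7 a8 a9 a10 a11 * W' 0 1 0 0 0 0 = W' 0 a1 0 0 0 0 →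
    mk a0 a1 a2 a3 a4 a5 a6 a7 a8 a9 a10 a11 * W' 0 0 1 0 0 0 = W' 0 0 a2 0 0 0 →
    mk a0 a1 a2 a3 a4 a5 a6 a7 a8 a9 a10 a11 * W' 0 0 0 1 0 0 = W' 0 0 0 a3 0 0 →
    mk a0 a1 a2 a3 a4 a5 a6 a7 a8 a9 a10 a11 * W' 0 0 0 0 1 0 = W' 0 0 0 0 a4 0 →
    mk a0 a1 a2 a3 a4 a5 a6 a7 a8 a9 a10 a11 * W' 0 0 0 0 0 1 = W' 0 0 0 0 0 a6 →
    mk a0 a1 a2 a3 a4 a5 a6 a7 a8 a9 a10 a11 = fun _ => a0 := by
  decide +kernel

open H8.Mono in
theorem ker_const {c : ArrayPt → Zˣ} (h : Pres ternaryGolayCode 1 c) (p : ArrayPt) :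
    c p = c (0, 0) := by
  let z : ArrayPt → Z := fun p => c p
  have k : ∀ t : T6, z * W t = W (inf (z * W t)) := fun t => (W_inf (h _ (W_mem t))).symm
  have k1 := k (1, 0, 0, 0, 0, 0)
  have k2 := k (0, 1, 0, 0, 0, 0)
  have k3 := k (0, 0, 1, 0, 0, 0)
  have k4 := k (0, 0, 0, 1, 0, 0)
  have k5 := k (0, 0, 0, 0, 1, 0)
  have k6 := k (0, 0, 0, 0, 0, 1)
  have e : ∀ t : T6, inf (z * W t) = (z (0, 0) * t.1, z (0, 1) * t.2.1, z (0, 2) * t.2.2.1,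
      z (1, 0) * t.2.2.2.1, z (1, 1) * t.2.2.2.2.1, z (2, 0) * t.2.2.2.2.2) := fun t => rfl
  rw [e] at k1 k2 k3 k4 k5 k6
  simp only [mul_one, mul_zero, W] at k1 k2 k3 k4 k5 k6
  have hz : ∀ p, z p ≠ 0 := fun p => (c p).ne_zero
  have := ker_chk _ (hz (0, 0)) _ (hz (0, 1)) _ (hz (0, 2)) _ (hz (1, 0)) _ (hz (1, 1)) _ (hz (1, 2))
    _ (hz (2, 0)) _ (hz (2, 1)) _ (hz (2, 2)) _ (hz (3, 0)) _ (hz (3, 1)) _ (hz (3, 2))
  rw [← mk_eta z] at this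
  exact Units.ext (congrFun (this k1 k2 k3 k4 k5 k6) p)

theorem unit_cases : ∀ u : Zˣ, u = 1 ∨ u = -1 := fun u => by
  have h : ∀ a : Z, a ≠ 0 → a = 1 ∨ a = -1 := by decide
  exact (h u u.ne_zero).imp (fun h => Units.ext h) fun h => Units.ext h

end H8.Tern
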