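import Cfsg.Agent.H8.Tern
import Cfsg.Agent.Lead.St7

set_option autoImplicit false
open Cfsg H8.Mono MulAction
open scoped Pointwise

namespace H8.Tern

abbrev BB : Set (Finset ArrayPt) :=
  {h : Finset ArrayPt | ∃ x ∈ ternaryGolayCode, ternarySupport x = h ∧ h.card = 6}

def ix (p : ArrayPt) : ℕ := 3 * p.1.val + p.2.val
def pt (j : ℕ) : ArrayPt := (Fin.ofNat 4 (j / 3), (j : Z))

def ell : ArrayPt ≃ Fin 12 where
  toFun p := Fin.ofNat 12 (ix p)
  invFun j := pt j
  left_inv := by intro p; revert p; decide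
  right_inv := by intro p; revert p; decide

def tt (n : ℕ) : T6 := (n, (n / 3 : ℕ), (n / 9 : ℕ), (n / 27 : ℕ), (n / 81 : ℕ), (n / 243 : ℕ))

def KK : List (ℕ × ℕ) := [(63, 229), (222, 696), (237, 289), (243, 574), (347, 439), (366, 318), (373, 667), (413, 154), (427, 61), (438, 102), (455, 499), (504, 594), (591, 565), (630, 579), (633, 379), (667, 112), (679, 22), (700, 117), (725, 415), (746, 543), (791, 97), (813, 37), (826, 192), (860, 711), (867, 247), (910, 66), (945, 163), (969, 514), (978, 327), (996, 252), (1117, 604), (1127, 259), (1146, 354), (1175, 187), (1198, 39), (1209, 190), (1227, 301), (1268, 657), (1295, 49), (1331, 85), (1340, 144), (1366, 417), (1385, 541), (1434, 219), (1445, 10), (1484, 279), (1489, 325), (1506, 489), (1566, 156), (1579, 34), (1589, 100), (1619, 652), (1644, 306), (1677, 64), (1714, 165), (1734, 264), (1752, 432), (1761, 487), (1817, 217), (1830, 12), (1861, 262), (1866, 516), (1904, 567), (1923, 7), (1940, 90), (1960, 27), (2135, 346), (2155, 517), (2172,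 441), (2191, 43), (2229, 91), (2234, 138), (2265, 703), (2278, 255), (2334, 120), (2343, 25), (2361, 109), (2381, 307), (2418, 651), (2451, 166), (2476, 63), (2506, 273), (2516, 576), (2529, 244), (2589, 208), (2606, 48), (2611, 169), (2650, 462), (2661, 496), (2710, 174), (2729, 55), (2755, 250), (2764, 522), (2800, 324), (2827, 58), (2868, 171), (2886, 507), (2897, 568), (2920, 270), (2949, 19), (2968, 189), (2978, 3), (3099, 142), (3117, 73), (3126, 183), (3150, 552), (3185, 406), (3228, 225), (3235, 4), (3269, 505), (3282, 570), (3304, 513), (3349, 172), (3370, 57), (3395, 493), (3416, 675), (3428, 495), (3462, 21), (3465, 28), (3504, 81), (3591, 13), (3640, 108), (3657, 271), (3668, 333), (3682, 246), (3722, 30), (3729, 82), (3748, 9), (3852, 36), (3858, 84), (3873, 1), (4032, 243)]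

theorem KK_chk : ∀ b ∈ KK, wt (tt b.2) = 6 ∧ ∀ p, b.1.testBit (ell p) = true → W (tt b.2) p ≠ 0 := by
  decide +kernel

theorem KK_cov : Lead.St.ch (fun l : List (Fin 12) => KK.any fun b => l.all fun x : Fin 12 =>
    b.1.testBit x) (List.finRange 12) 5 [] = true := by decide +kernel

theorem mem_supp {x : ArrayPt → Z} {p : ArrayPt} : p ∈ ternarySupport x ↔ x p ≠ 0 := by
  simp [ternarySupport]

theorem exists_block (s : Finset ArrayPt) (hs : s.card = 5) : ∃ b ∈ BB, s ⊆ b := by
  obtain ⟨l, -, h1, h2⟩ := Lead.St.enum_all KK_cov (s.map ell.toEmbedding) (by simpa using hs)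
  obtain ⟨b, hb, h3⟩ := List.any_eq_true.1 h2
  obtain ⟨h4, h5⟩ := KK_chk b hb
  refine ⟨_, ⟨W (tt b.2), W_mem _, rfl, h4⟩, fun p hp => mem_supp.2 (h5 p ?_)⟩
  exact List.all_eq_true.1 h3 _ ((h1 _).2 (Finset.mem_map_of_mem _ hp))

theorem small {x : ArrayPt → Z} (hx : x ∈ ternaryGolayCode) (h : (ternarySupport x).card < 6) :
    x = 0 := by
  by_contra h0
  have := weights hx h0
  omega

theorem block_unique {b c : Finset ArrayPt} (hb : b ∈ BB) (hc : c ∈ BB) (h : 5 ≤ (b ∩ c).card) :
    b = c := by
  obtain ⟨x, hx, rfl, hx6⟩ := hb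
  obtain ⟨y, hy, rfl, hy6⟩ := hc
  have hu := Finset.card_union_add_card_inter (ternarySupport x) (ternarySupport y)
  have key : ∀ a b : Z, (if a + b ≠ 0 then 1 else 0) + (if a - b ≠ 0 then 1 else 0) +
      (if a ≠ 0 ∧ b ≠ 0 then 1 else 0) ≤ 2 * (if a ≠ 0 ∨ b ≠ 0 then 1 else 0 : ℕ) := by decide
  have s := Finset.sum_le_sum fun p (_ : p ∈ (Finset.univ : Finset ArrayPt)) => key (x p) (y p)
  simp only [Finset.sum_add_distrib, ← Finset.mul_sum, ← Finset.card_filter] at s
  have e1 : (Finset.univ.filter fun p => x p ≠ 0 ∧ y p ≠ 0) = ternarySupport x ∩ ternarySupport y := by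
    ext p; simp [mem_supp]
  have e2 : (Finset.univ.filter fun p => x p ≠ 0 ∨ y p ≠ 0) = ternarySupport x ∪ ternarySupport y := by
    ext p; simp only [Finset.mem_filter, Finset.mem_univ, true_and, Finset.mem_union, mem_supp]
  rw [e1, e2] at s
  change (ternarySupport (x + y)).card + (ternarySupport (x - y)).card + _ ≤ _ at s
  by_cases h1 : (ternarySupport (x + y)).card < 6
  · have := small (add_mem hx hy) h1
    rw [eq_neg_of_add_eq_zero_left this]
    ext p; simp [mem_supp]
  · have := small (sub_mem hx hy) (by omega)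
    rw [sub_eq_zero.1 this]

theorem steiner : IsSteinerSystem 5 6 BB := by
  refine ⟨fun b ⟨_, _, _, h⟩ => h, fun s hs => ?_⟩
  obtain ⟨b, hb, h⟩ := exists_block s hs
  refine ⟨b, ⟨hb, h⟩, fun c hc => block_unique hc.1 hb ?_⟩
  rw [← hs]
  exact Finset.card_le_card (Finset.subset_inter hc.2 h)

theorem card_pts : Fintype.card ArrayPt = 12 := by simp [ArrayPt]

theorem ncard_BB : BB.ncard = 132 := by
  have := Lead.St.block_count steiner
  rw [card_pts] at this
  have e1 : Nat.choose 6 5 = 6 := by decide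
  have e2 : Nat.choose 12 5 = 792 := by decide
  rw [e1, e2] at this
  omega

instance : Finite ternaryGolayCode := inferInstance

theorem A_le : A ternaryGolayCode ≤ setSystemAut BB := by
  rintro σ ⟨c, hc⟩
  refine Lead.St.mem_aut_of ?_
  rintro _ ⟨x, hx, rfl, h6⟩
  have e : ternarySupport (monomialMap σ c x) = σ • ternarySupport x := by
    have := supp_mon σ c x
    unfold ternarySupport
    convert this using 1
    ext a
    rw [Finset.mem_smul_finset, Finset.mem_map]
    rfl
  exact ⟨_, hc x hx, e, by rw [Finset.card_smul_finset]; exact h6⟩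

def ff (n : ℕ) (p : ArrayPt) : ArrayPt := pt ((n >>> (4 * ix p)) % 16)
def sg (n : ℕ) (p : ArrayPt) : Z := if n.testBit (ix p) then -1 else 1

def Chk (e : ℕ × ℕ × ℕ) : Prop :=
  (∀ p, ff e.2.1 (ff e.1 p) = p) ∧ (∀ p, ff e.1 (ff e.2.1 p) = p) ∧
    (D fun p => sg e.2.2 p * W' 1 0 0 0 0 0 (ff e.2.1 p)) ∧
    (D fun p => sg e.2.2 p * W' 0 1 0 0 0 0 (ff e.2.1 p)) ∧
    (D fun p => sg e.2.2 p * W' 0 0 1 0 0 0 (ff e.2.1 p)) ∧
    (D fun p => sg e.2.2 p * W' 0 0 0 1 0 0 (ff e.2.1 p)) ∧
    (D fun p => sg e.2.2 p * W' 0 0 0 0 1 0 (ff e.2.1 p)) ∧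
    (D fun p => sg e.2.2 p * W' 0 0 0 0 0 1 (ff e.2.1 p))

instance (e : ℕ × ℕ × ℕ) : Decidable (Chk e) := by unfold Chk; infer_instance

theorem Chk.ex {e : ℕ × ℕ × ℕ} (h : Chk e) : ∃ σ ∈ A ternaryGolayCode, ∀ p, σ p = ff e.1 p := by
  refine ⟨⟨ff e.1, ff e.2.1, h.1, h.2.1⟩, ⟨fun p => if e.2.2.testBit (ix p) then -1 else 1,
    pres_of ?_⟩, fun p => rfl⟩
  have k : ∀ t : ArrayPt → Z, monomialMap ⟨ff e.1, ff e.2.1, h.1, h.2.1⟩
      (fun p => if e.2.2.testBit (ix p) then (-1 : Zˣ) else 1) t =
      fun p => sg e.2.2 p * t (ff e.2.1 p) := by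
    intro t; funext p
    simp only [monomialMap, sg]
    split_ifs <;> rfl
  simp only [k]
  exact h.2.2

def TT : List (List (ℕ × ℕ × ℕ)) := [[(205163983024656, 205163983024656, 0), (114875801285121, 114875801285121, 0), (171143312191746, 186601419583521, 0), (203987229090051, 200838984500001, 2764), (149235455697156, 167656838677281, 1940), (188533650432261, 188465698652961, 3428), (203028566319366, 203798352446241, 2514), (111366534013191, 95138016215841, 3102), (98289112523016, 129331828900641, 1224), (134738834825481, 151774303765281, 3746), (77607836262666, 106195122340641, 2824), (163099914215691, 8479751947041, 430)],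
  [(0, 0, 0), (205163983024656, 205163983024656, 0), (148896472117536, 148896472117536, 0), (183040958800176, 118230153958176, 2764), (117199865061696, 134787001041696, 1940), (167587380142416, 148135453475616, 3428), (95969627808096, 113630368056096, 2514), (186389881889136, 100781785563936, 3102), (128339622961536, 164384360514336, 1224), (82852190560656, 184818442388256, 3746), (199520902390176, 195118630322976, 2824), (148040433476016, 27948870026016, 430)],
  [(0, 0, 0), (0, 0, 0), (205163983024656, 205163983024656, 0), (167926364906256, 167926364906256, 2764), (135818296632336, 184072505803536, 1940), (201938729903376, 203992259183376, 3428), (152511949514256, 169717554103056, 2514), (92816805144336, 97264529457936, 3102), (165301675304976, 111817503752976, 1224), (185219212847376, 135422825480976, 3746), (115772311677456, 143646984323856, 2824), (76520923278096, 42435747726096, 430)],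
  [(0, 0, 0), (0, 0, 0), (0, 0, 0), (205163983024656, 205163983024656, 0), (147865428247056, 147865428247056, 0), (186605193351696, 171139535290896, 0), (199605510955536, 202694063505936, 6), (116911320035856, 99399427965456, 4090), (96304787325456, 129277051159056, 4092), (128266436579856, 115692283773456, 6), (82916315210256, 179793663050256, 4092), (167424912765456, 61273455280656, 4090)],
  [(0, 0, 0), (0, 0, 0), (0, 0, 0), (0, 0, 0), (205163983024656, 205163983024656, 0), (132399770186256, 132399770186256, 0), (183942805598736, 153208536773136, 6), (80841396400656, 95285065495056, 4090), (110731096240656, 164327252963856, 4092), (153208536773136, 183942805598736, 6), (164327252963856, 110731096240656, 4092), (95285065495056, 80841396400656, 4090)]]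

def te (k y : ℕ) : ℕ × ℕ × ℕ := (TT.getD k []).getD y (0, 0, 0)

theorem TT_chk : ∀ k < 5, ∀ y : ArrayPt, (∃ j < k, y = pt j) ∨ (Chk (te k (ix y)) ∧
    ff (te k (ix y)).1 (pt k) = y ∧ ∀ j < k, ff (te k (ix y)).1 (pt j) = pt j) := by
  decide +kernel

theorem pt_inj : ∀ i < 5, ∀ j < 5, pt i = pt j → i = j := by decide

theorem agree (σ : Equiv.Perm ArrayPt) : ∀ k ≤ 5, ∃ τ ∈ A ternaryGolayCode,
    ∀ j < k, τ (pt j) = σ (pt j) := by
  intro k
  induction k with
  | zero => exact fun _ => ⟨1, one_mem _, fun j hj => absurd hj (by omega)⟩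
  | succ k ih =>
    intro hk
    obtain ⟨τ, hτ, h⟩ := ih (by omega)
    rcases TT_chk k (by omega) (τ⁻¹ (σ (pt k))) with ⟨j, hj, e⟩ | ⟨a, b, c⟩
    · rw [Equiv.Perm.inv_eq_iff_eq, h j hj] at e
      have := pt_inj k (by omega) j (by omega) (σ.injective e)
      omega
    · obtain ⟨ρ, hρ, e⟩ := a.ex
      refine ⟨τ * ρ, mul_mem hτ hρ, fun j hj => ?_⟩
      rcases Nat.lt_succ_iff_lt_or_eq.1 hj with hj | rfl
      · rw [Equiv.Perm.mul_apply, e, c j hj, h j hj]
      · rw [Equiv.Perm.mul_apply, e, b]; simp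

theorem A_eq : A ternaryGolayCode = setSystemAut BB := by
  refine le_antisymm A_le fun σ hσ => ?_
  obtain ⟨τ, hτ, h⟩ := agree σ 5 le_rfl
  let x : Fin 5 ↪ ArrayPt := ⟨fun j => pt j, fun i j e => Fin.ext (pt_inj _ i.2 _ j.2 e)⟩
  have h3 := (Lead.St.aut12 card_pts steiner).2.2 x
  have hm : (⟨τ⁻¹ * σ, mul_mem (inv_mem (A_le hτ)) hσ⟩ : setSystemAut BB) ∈
      stabilizer (setSystemAut BB) x := by
    rw [mem_stabilizer_iff]
    ext1 j
    change (τ⁻¹ * σ) (pt j) = pt j
    rw [Equiv.Perm.mul_apply, ← h j j.2]; simp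
  rw [h3, Subgroup.mem_bot] at hm
  have : τ⁻¹ * σ = 1 := congrArg Subtype.val hm
  rw [← inv_mul_eq_one.1 this]; exact hτ

theorem card_aut : Nat.card (setSystemAut BB) = 95040 := by
  obtain ⟨e⟩ := (Lead.St.aut12 card_pts steiner).1
  rw [← Nat.card_congr e.toEquiv]
  obtain ⟨g, hg⟩ := H27.exists_smul_eD Lead.St.D12_mem
  rw [← hg, stabilizer_smul_eq_stabilizer_map_conj, Subgroup.card_map_of_injective
    (MulEquiv.injective _), H27.card_stab_eD]

theorem card_ker : Nat.card {c : ArrayPt → Zˣ // Pres ternaryGolayCode 1 c} = 2 := by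
  have : Nat.card Zˣ = Nat.card {c : ArrayPt → Zˣ // Pres ternaryGolayCode 1 c} :=
    Nat.card_eq_of_bijective (fun u => ⟨fun _ => u, Pres.const u⟩)
      ⟨fun u v h => congrFun (congrArg Subtype.val h) (0, 0),
        fun c => ⟨c.1 (0, 0), Subtype.ext (funext fun p => (ker_const c.2 p).symm)⟩⟩
  rw [← this, Nat.card_eq_fintype_card, ZMod.card_units 3]

end H8.Tern
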