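import Cfsg.Agent.H26.Hig3
import Cfsg.Agent.H9.Basic

/-! 2-groups of exponent 4 with central involutions permuted transitively by automorphisms. -/

set_option autoImplicit false
set_option linter.unusedSectionVars false

open Subgroup
open scoped commutatorElement

namespace H8

structure Tr (A : Type*) [Group A] (Z : Subgroup A) : Prop where
  pg : IsPGroup 2 A
  mem : ∀ y, y ∈ Z ↔ y * y = 1
  cen : ∀ y ∈ Z, ∀ g, y * g = g * y
  sq : ∀ g, g * g ∈ Z
  four : 4 ≤ Nat.card Z
  tr : ∀ x ∈ Z, ∀ y ∈ Z, x ≠ 1 → y ≠ 1 → ∃ φ : A ≃* A, φ x = y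

namespace Tr

variable {A : Type*} [Group A] [Finite A] {Z : Subgroup A} (h : Tr A Z)
include h

theorem normal : Z.Normal := ⟨fun z hz g => by rw [← h.cen z hz g, mul_inv_cancel_right]; exact hz⟩

theorem comm (a b : A) : ⁅a, b⁆ ∈ Z := by
  have e : ⁅a, b⁆ = (a * b * (a * b)) * (b⁻¹ * (a * a)⁻¹ * b⁻¹⁻¹) * (b * b)⁻¹ := by
    rw [commutatorElement_def]; group
  rw [e]
  exact mul_mem (mul_mem (h.sq _) (h.normal.conj_mem _ (inv_mem (h.sq a)) _)) (inv_mem (h.sq b))

theorem exists_ne : ∃ z ∈ Z, z ≠ 1 := by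
  by_contra hn
  push Not at hn
  have := h.four
  rw [(eq_bot_iff_forall Z).2 hn, card_bot] at this
  omega

theorem fib [Fintype A] [DecidableEq A] [DecidablePred (· ∈ Z)] : ∃ f : ℕ,
    (∀ e ∈ Z, e ≠ 1 → (Finset.univ.filter fun g : A => g * g = e).card = f) ∧
    ∀ s : A → ℤ, ∑ g : A, s (g * g) = s 1 * Nat.card Z + (∑ a : Z, s a - s 1) * f := by
  obtain ⟨z, hz, hz1⟩ := h.exists_ne
  let N : A → ℕ := fun a => (Finset.univ.filter fun g : A => g * g = a).card
  have hN0 : N 1 = Nat.card Z := by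
    rw [Nat.card_eq_fintype_card, Fintype.card_subtype]
    refine congrArg Finset.card ?_
    ext g
    simp [h.mem]
  have hN1 : ∀ a ∈ Z, a ≠ 1 → N a = N z := fun a ha ha1 => by
    obtain ⟨φ, rfl⟩ := h.tr z hz a ha hz1 ha1
    symm
    refine Finset.card_bijective φ φ.bijective fun g => ?_
    simp only [Finset.mem_filter, Finset.mem_univ, true_and, ← map_mul, φ.apply_eq_iff_eq]
  refine ⟨N z, hN1, fun s => ?_⟩
  have := Finset.sum_fiberwise' Finset.univ (fun g : A => (⟨g * g, h.sq g⟩ : Z)) fun a => s a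
  rw [← this, ← Finset.add_sum_erase _ _ (Finset.mem_univ (1 : Z)),
    ← Finset.add_sum_erase _ (fun a : Z => s a) (Finset.mem_univ (1 : Z)), OneMemClass.coe_one,
    add_sub_cancel_left, Finset.sum_mul]
  simp only [Finset.sum_const, nsmul_eq_mul, Subtype.ext_iff]
  congr 1
  · rw [← hN0, mul_comm]; rfl
  · refine Finset.sum_congr rfl fun a ha => ?_
    rw [← hN1 a a.2 fun e => Finset.ne_of_mem_erase ha (Subtype.ext e), mul_comm]

theorem gauss [Fintype A] {M : Subgroup Z} (hM : M.index = 2) :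
    ∃ (s : A → ℤ) (R : Subgroup A), s 1 = 1 ∧ ∑ᶠ a : Z, s a = 0 ∧ Z ≤ R ∧
      (∀ x, (∀ g, (⟨⁅g, x⁆, h.comm g x⟩ : Z) ∈ M) → x ∈ R) ∧
      ((∑ g : A, s (g * g)) ^ 2 = Nat.card A * Nat.card R ∨ (∑ g : A, s (g * g)) ^ 2 = 0) := by
  classical
  let s : A → ℤ := fun a => if a ∈ M.map Z.subtype then 1 else -1
  have hm : ∀ a (ha : a ∈ Z), a ∈ M.map Z.subtype ↔ (⟨a, ha⟩ : Z) ∈ M := fun a ha =>
    mem_map_iff_mem (f := Z.subtype) Z.subtype_injective (x := ⟨a, ha⟩)
  have hs : ∀ a ∈ Z, ∀ b ∈ Z, s (a * b) = s a * s b := fun a ha b hb => by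
    have := mul_mem_iff_of_index_two hM (a := ⟨a, ha⟩) (b := ⟨b, hb⟩)
    rw [← hm a, ← hm b] at this
    have h2 := (hm (a * b) (mul_mem ha hb)).trans this
    simp only [s, h2]
    by_cases h3 : a ∈ M.map Z.subtype <;> by_cases h4 : b ∈ M.map Z.subtype <;> simp [h3, h4]
  have hs0 : s 1 = 1 := if_pos (one_mem _)
  have hss : ∀ a, s a * s a = 1 := fun a => by simp only [s]; split_ifs <;> rfl
  have hsum : ∑ a : Z, s a = 0 := by
    obtain ⟨z, hz⟩ : ∃ z, z ∉ M := by
      by_contra hn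
      push Not at hn
      rw [(eq_top_iff' M).2 hn, index_top] at hM
      omega
    have := Equiv.sum_comp (Equiv.mulRight z) fun a : Z => s a
    simp only [Equiv.coe_mulRight, coe_mul, hs _ (Subtype.prop _) _ z.2, ← Finset.sum_mul] at this
    have h1 : s z = -1 := if_neg fun e => hz ((hm z z.2).1 e)
    rw [h1] at this
    omega
  have hZ := h.sq
  have hZ' := h.comm
  let α : A → A →* ℤ := fun x =>
    { toFun := fun g => s ⁅g, x⁆
      map_one' := by simp [hs0]
      map_mul' := fun g g' => by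
        rw [commutatorElement_mul_left_eq_conj_mul, ← h.cen _ (hZ' g' x), mul_inv_cancel_right,
          hs _ (hZ' _ _) _ (hZ' _ _), mul_comm] }
  have hα : ∀ x g, α x g = s ⁅g, x⁆ := fun _ _ => rfl
  have hsq : ∀ g x : A, s (g * x * (g * x)) = s (g * g) * s (x * x) * α x g⁻¹ := by
    intro g x
    have : g * x * (g * x) = g * g * ⁅g⁻¹, x⁆ * (x * x) := by rw [commutatorElement_def]; group
    rw [this, hs _ (mul_mem (hZ _) (hZ' _ _)) _ (hZ _), hs _ (hZ _) _ (hZ' _ _), hα]
    ring
  let R : Subgroup A :=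
    { carrier := {x | α x = 1}
      one_mem' := MonoidHom.ext fun g => by simp [hα, hs0]
      mul_mem' := fun {x x'} h1 h2 => MonoidHom.ext fun g => by
        have h3 := DFunLike.congr_fun h1 g
        have h4 := DFunLike.congr_fun h2 g
        rw [hα] at h3 h4
        rw [hα, commutatorElement_mul_right_eq_mul_conj, mul_assoc _ x, mul_assoc _ (x * _),
          ← h.cen _ (hZ' g x'), mul_inv_cancel_right, hs _ (hZ' _ _) _ (hZ' _ _), h3, h4]
        rfl
      inv_mem' := fun {x} h1 => MonoidHom.ext fun g => by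
        have h3 := DFunLike.congr_fun h1 g
        rw [hα] at h3
        rw [hα, commutatorElement_inv_right, ← h.cen _ (hZ' x g), inv_mul_cancel_right,
          ← commutatorElement_inv, inv_eq_of_mul_eq_one_right ((h.mem _).1 (hZ' g x)), h3] }
  have hR : ∀ x, x ∈ R ↔ α x = 1 := fun _ => Iff.rfl
  let β : R →* ℤ :=
    { toFun := fun x => s (x * x)
      map_one' := by simp [hs0]
      map_mul' := fun x x' => by
        rw [Subgroup.coe_mul, hsq, (hR _).1 x'.2, MonoidHom.one_apply, mul_one] }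
  have hZR : Z ≤ R := fun z hz => MonoidHom.ext fun g => by
    rw [hα, commutatorElement_eq_one_iff_mul_comm.2 (h.cen z hz g).symm, hs0]; rfl
  have e3 : (∑ g : A, s (g * g)) ^ 2 = Fintype.card A * ∑ x : R, β x := by
    calc _ = ∑ g : A, ∑ x : A, s (g * g) * s (g * x * (g * x)) := by
          rw [pow_two, Finset.sum_mul]
          refine Finset.sum_congr rfl fun g _ => ?_
          rw [← Finset.mul_sum, ← Equiv.sum_comp (Equiv.mulLeft g) fun x => s (x * x)]
          rfl
      _ = ∑ x : A, s (x * x) * ∑ g : A, α x g := by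
          rw [Finset.sum_comm]
          refine Finset.sum_congr rfl fun x _ => ?_
          rw [← Equiv.sum_comp (Equiv.inv A) (α x), Finset.mul_sum]
          refine Finset.sum_congr rfl fun g _ => ?_
          rw [hsq, ← mul_assoc, ← mul_assoc, hss, one_mul, Equiv.inv_apply]
      _ = _ := by
          rw [Finset.mul_sum]
          simp only [sum_hom_units (α _), mul_ite, Nat.cast_ite, Nat.cast_zero, mul_zero]
          rw [← Finset.sum_filter, Finset.sum_subtype (p := fun x => x ∈ R) _ (by simp [hR])]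
          exact Finset.sum_congr rfl fun x _ => mul_comm _ _
  refine ⟨s, R, hs0, by rw [finsum_eq_sum_of_fintype, hsum], hZR, fun x hx => MonoidHom.ext fun g => ?_, ?_⟩
  · exact if_pos ((hm _ _).2 (hx g))
  · rw [e3, sum_hom_units]
    split_ifs
    · left; rw [Nat.card_eq_fintype_card, Nat.card_eq_fintype_card]
    · right; simp

theorem exists_hyp {J : Subgroup Z} (hJ : J ≠ ⊤) : ∃ M : Subgroup Z, J ≤ M ∧ M.index = 2 := by
  obtain ⟨M, hM, hle⟩ := (eq_top_or_exists_le_coatom J).resolve_left hJ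
  exact ⟨M, hle, H9.index_of_isCoatom (h.pg.to_subgroup Z) hM⟩

theorem card_cases : Z = ⊤ ∨ Nat.card A = Nat.card Z ^ 2 ∨ Nat.card A = Nat.card Z ^ 3 := by
  classical
  have := Fintype.ofFinite A
  by_cases hZ : Z = ⊤
  · exact Or.inl hZ
  right
  obtain ⟨M, -, hM⟩ := h.exists_hyp (J := ⊥) fun e => by
    have := h.four
    rw [← card_top (G := Z), ← e, card_bot] at this
    omega
  obtain ⟨f, -, hf⟩ := h.fib
  obtain ⟨s, R, h0, h1, h2, -, h3⟩ := h.gauss hM
  have e1 := hf s
  have e2 := hf fun _ => 1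
  rw [finsum_eq_sum_of_fintype] at h1
  rw [h1, h0] at e1
  simp only [Finset.sum_const, Finset.card_univ, nsmul_eq_mul, mul_one, one_mul,
    ← Nat.card_eq_fintype_card] at e2
  obtain ⟨n, hn⟩ := IsPGroup.iff_card.1 (h.pg.to_subgroup Z)
  obtain ⟨m, hm⟩ := IsPGroup.iff_card.1 h.pg
  have h4 := h.four
  have hlt : Nat.card Z < Nat.card A := by
    rw [← card_top (G := A)]
    exact lt_of_le_of_ne (card_le_of_le le_top) fun e => hZ (eq_of_le_of_card_ge le_top e.ge)
  have h5 : (Nat.card Z : ℤ) ∣ Nat.card R := Int.natCast_dvd_natCast.2 (card_dvd_of_le h2)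
  rw [hm, hn] at hlt e2 ⊢
  rw [hn] at h4 e1 h5
  rw [hm] at h3
  have := H26.two_pow_cases (n := n) (m := m) (S := ∑ g : A, s (g * g))
    ((Nat.pow_le_pow_iff_right (by norm_num : 1 < 2)).1 (show 2 ^ 2 ≤ _ from h4))
    ((Nat.pow_lt_pow_iff_right (by norm_num : 1 < 2)).1 hlt)
    (by push_cast at e1 e2; rw [e1, e2]; ring)
    (by
      rcases h3 with h3 | h3 <;> rw [h3]
      · rw [mul_comm]; push_cast at h5 ⊢; exact mul_dvd_mul_left _ h5
      · exact dvd_zero _)
  rcases this with h | h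
  · left; rw [h, ← pow_mul, mul_comm]
  · right; rw [h, ← pow_mul, mul_comm]

theorem two (hc : Nat.card A = Nat.card Z ^ 2) :
    (∀ x y : A, x * x = y * y → x⁻¹ * y ∈ Z) ∧ ∀ e ∈ Z, ∃ x : A, x * x = e := by
  classical
  have := Fintype.ofFinite A
  obtain ⟨f, hf1, hf⟩ := h.fib
  have e2 := hf fun _ => 1
  simp only [Finset.sum_const, Finset.card_univ, nsmul_eq_mul, mul_one, one_mul,
    ← Nat.card_eq_fintype_card] at e2
  have h4 : (4 : ℤ) ≤ Nat.card Z := by exact_mod_cast h.four
  have hf2 : f = Nat.card Z := by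
    rw [hc] at e2
    push_cast at e2
    have : ((Nat.card Z : ℤ) - 1) * (f - Nat.card Z) = 0 := by linear_combination -e2
    rcases mul_eq_zero.1 this with e | e <;> omega
  refine ⟨fun x y e => ?_, fun e he => ?_⟩
  · by_cases h1 : x * x = 1
    · exact mul_mem (inv_mem ((h.mem x).2 h1)) ((h.mem y).2 (e ▸ h1))
    have h2 := hf1 _ (h.sq x) h1
    have h3 : (Finset.univ.image fun z : Z => x * z) = Finset.univ.filter fun g : A => g * g = x * x := by
      refine Finset.eq_of_subset_of_card_le (fun g hg => ?_) ?_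
      · obtain ⟨z, -, rfl⟩ := Finset.mem_image.1 hg
        refine Finset.mem_filter.2 ⟨Finset.mem_univ _, ?_⟩
        rw [mul_assoc, ← mul_assoc (z : A), h.cen z z.2, mul_assoc x, (h.mem z).1 z.2, mul_one]
      · rw [h2, hf2, Finset.card_image_of_injective _ fun a b e => Subtype.ext (mul_left_cancel e),
          Finset.card_univ, Nat.card_eq_fintype_card]
    have h5 : y ∈ Finset.univ.filter fun g : A => g * g = x * x :=
      Finset.mem_filter.2 ⟨Finset.mem_univ _, e.symm⟩
    rw [← h3] at h5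
    obtain ⟨z, -, rfl⟩ := Finset.mem_image.1 h5
    rw [inv_mul_cancel_left]; exact z.2
  · by_cases h1 : e = 1
    · exact ⟨1, by rw [h1, mul_one]⟩
    have h2 := hf1 e he h1
    obtain ⟨x, hx⟩ := Finset.card_pos.1 (show 0 < (Finset.univ.filter fun g : A => g * g = e).card by omega)
    exact ⟨x, (Finset.mem_filter.1 hx).2⟩

theorem three (hc : Nat.card A = Nat.card Z ^ 3) {x : A} (hx : x ∉ Z) :
    Nat.card (centralizer ({x} : Set A)) = Nat.card Z ^ 2 := by
  classical
  have := Fintype.ofFinite A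
  let c : A →* Z :=
    { toFun := fun g => ⟨⁅g, x⁆, h.comm g x⟩
      map_one' := Subtype.ext (by simp)
      map_mul' := fun g g' => Subtype.ext (by
        show ⁅g * g', x⁆ = ⁅g, x⁆ * ⁅g', x⁆
        rw [commutatorElement_mul_left_eq_conj_mul, ← h.cen _ (h.comm g' x), mul_inv_cancel_right,
          h.cen _ (h.comm g' x)]) }
  have hk : c.ker = centralizer ({x} : Set A) := by
    ext g
    rw [MonoidHom.mem_ker, mem_centralizer_singleton_iff, ← commutatorElement_eq_one_iff_mul_comm]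
    exact Subtype.ext_iff
  have h4 : (4 : ℤ) ≤ Nat.card Z := by exact_mod_cast h.four
  have hr : c.range = ⊤ := by
    by_contra hn
    obtain ⟨M, hle, hM⟩ := h.exists_hyp hn
    obtain ⟨f, -, hf⟩ := h.fib
    obtain ⟨s, R, h0, h1, h2, h2', h3⟩ := h.gauss hM
    have e1 := hf s
    have e2 := hf fun _ => 1
    rw [finsum_eq_sum_of_fintype] at h1
    rw [h1, h0] at e1
    simp only [Finset.sum_const, Finset.card_univ, nsmul_eq_mul, mul_one, one_mul,
      ← Nat.card_eq_fintype_card] at e2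
    rw [hc] at e2 h3
    push_cast at e2 h3
    have h5 : ((Nat.card Z : ℤ) - 1) * (f - (Nat.card Z ^ 2 + Nat.card Z)) = 0 := by
      linear_combination -e2
    have h6 : (f : ℤ) = Nat.card Z ^ 2 + Nat.card Z := by
      rcases mul_eq_zero.1 h5 with e | e <;> omega
    rw [e1, h6] at h3
    have h7 : (0 : ℤ) < Nat.card Z ^ 3 := by positivity
    rcases h3 with h3 | h3
    · have h8 : (Nat.card Z : ℤ) ^ 3 * (Nat.card R - Nat.card Z) = 0 := by linear_combination -h3
      have h9 : Nat.card R = Nat.card Z := by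
        rcases mul_eq_zero.1 h8 with e | e <;> omega
      exact hx (eq_of_le_of_card_ge h2 h9.le ▸ h2' x fun g => hle ⟨g, rfl⟩)
    · have h8 : (Nat.card Z : ℤ) ^ 3 * Nat.card Z = 0 := by linear_combination h3
      rcases mul_eq_zero.1 h8 with e | e <;> omega
  have h1 := c.ker.card_mul_index
  rw [index_ker, hr, card_top, hk, hc, pow_succ] at h1
  exact Nat.eq_of_mul_eq_mul_right Nat.card_pos h1

end Tr

end H8
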