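import Cfsg.Agent.H8.Th1
import Cfsg.Agent.H9.GY2
import Cfsg.Agent.S0058

/-! Solvable groups with one class of involutions: the quadratic map on a critical subgroup. -/

set_option autoImplicit false
set_option linter.unusedSectionVars false

open Subgroup Cfsg
open scoped commutatorElement

namespace H8

variable {G : Type*} [Group G] [Finite G]

def TrN (E A : Subgroup G) : Prop :=
  ∀ x ∈ E, ∀ y ∈ E, x ≠ 1 → y ≠ 1 → ∃ m ∈ normalizer (A : Set G), m * x * m⁻¹ = y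

theorem TrN.mono {E A A' : Subgroup G} (h : TrN E A)
    (hA : ∀ m ∈ normalizer (A : Set G), ∀ a ∈ A', m * a * m⁻¹ ∈ A') : TrN E A' := fun x hx y hy h1 h2 => by
  obtain ⟨m, hm, e⟩ := h x hx y hy h1 h2
  exact ⟨m, mem_normalizer_fintype (hA m hm), e⟩

theorem TrN.dvd {E A : Subgroup G} (h : TrN E A) (hE : ∀ y, y ∈ E ↔ y * y = 1) (hA : IsPGroup 2 A) :
    Nat.card E - 1 ∣ Nat.card A - 1 := by
  classical
  have := Fintype.ofFinite G
  let ι : G → G := fun x => x ^ (orderOf x / 2)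
  have hcard : ∀ X : Subgroup G, (Finset.univ.filter fun x => x ∈ X ∧ x ≠ 1).card = Nat.card X - 1 := by
    intro X
    rw [Nat.card_eq_fintype_card, Fintype.card_subtype,
      ← Finset.card_erase_of_mem (a := (1 : G)) (by simp)]
    congr 1
    ext x
    simp [and_comm]
  have hι : ∀ x ∈ A, x ≠ 1 → ι x ∈ E ∧ ι x ≠ 1 := fun x hx h1 => by
    obtain ⟨k, hk⟩ := (IsPGroup.iff_orderOf.1 hA) ⟨x, hx⟩
    rw [orderOf_mk] at hk
    rcases k with _ | k
    · exact absurd (orderOf_eq_one_iff.1 hk) h1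
    have h2 : orderOf x / 2 = 2 ^ k := by rw [hk, pow_succ]; omega
    refine ⟨(hE _).2 ?_, ?_⟩
    · simp only [ι]
      rw [← pow_add, h2, ← two_mul, ← pow_succ', ← hk, pow_orderOf_eq_one]
    · refine pow_ne_one_of_lt_orderOf (by rw [h2]; positivity) ?_
      rw [h2, hk]
      exact Nat.pow_lt_pow_right (by norm_num) (by omega)
  rw [← hcard, ← hcard A, Finset.card_eq_sum_card_fiberwise (f := ι)
    (s := Finset.univ.filter fun x => x ∈ A ∧ x ≠ 1)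
    (t := Finset.univ.filter fun x => x ∈ E ∧ x ≠ 1) (fun x hx => by
      simp only [Finset.coe_filter, Finset.mem_univ, true_and, Set.mem_setOf_eq] at hx ⊢
      exact hι x hx.1 hx.2)]
  rcases (Finset.univ.filter fun x => x ∈ E ∧ x ≠ 1).eq_empty_or_nonempty with e | ⟨z, hz⟩
  · rw [e]; simp
  rw [Finset.sum_const_nat (m := ((Finset.univ.filter fun x => x ∈ A ∧ x ≠ 1).filter
    fun x => ι x = z).card) fun a ha => ?_]
  · exact dvd_mul_right _ _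
  simp only [Finset.mem_filter, Finset.mem_univ, true_and] at hz ha
  obtain ⟨m, hm, rfl⟩ := h z hz.1 a ha.1 hz.2 ha.2
  symm
  refine Finset.card_bijective (MulAut.conj m) (MulAut.conj m).bijective fun g => ?_
  simp only [Finset.mem_filter, Finset.mem_univ, true_and, ι, MulEquiv.orderOf_eq, ← map_pow]
  rw [← MulAut.conj_apply m z, (MulAut.conj m).apply_eq_iff_eq, (MulAut.conj m).map_ne_one_iff,
    MulAut.conj_apply, ← mem_normalizer_iff.1 hm g]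

structure St (E B : Subgroup G) : Prop where
  mem : ∀ y, y ∈ E ↔ y * y = 1
  le : E ≤ B
  nB : B.Normal
  pg : IsPGroup 2 B
  cen : ∀ y ∈ E, ∀ b ∈ B, y * b = b * y
  sq : ∀ b ∈ B, b * b ∈ E
  four : 4 ≤ Nat.card E
  faith : ∀ y : G, Odd (orderOf y) → (∀ b ∈ B, b * y = y * b) → y = 1

namespace St

variable {E B : Subgroup G} (h : St E B)
include h

theorem nE : E.Normal := ⟨fun y hy g => (h.mem _).2 (by
  rw [conj_mul, (h.mem y).1 hy, mul_one, mul_inv_cancel])⟩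

theorem comm {a b : G} (ha : a ∈ B) (hb : b ∈ B) : ⁅a, b⁆ ∈ E := by
  have e : ⁅a, b⁆ = (a * b * (a * b)) * (b⁻¹ * (a * a)⁻¹ * b⁻¹⁻¹) * (b * b)⁻¹ := by
    rw [commutatorElement_def]; group
  rw [e]
  exact mul_mem (mul_mem (h.sq _ (mul_mem ha hb)) (h.nE.conj_mem _ (inv_mem (h.sq a ha)) _))
    (inv_mem (h.sq b hb))

theorem card_sub {A : Subgroup G} (h1 : E ≤ A) : Nat.card (E.subgroupOf A) = Nat.card E :=
  Nat.card_congr (subgroupOfEquivOfLe h1).toEquiv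

theorem tr {A : Subgroup G} (h1 : E ≤ A) (h2 : A ≤ B) (ht : TrN E A) : Tr A (E.subgroupOf A) where
  pg := h.pg.to_le h2
  mem y := by rw [mem_subgroupOf, h.mem]; exact (Subtype.ext_iff (a1 := y * y) (a2 := 1)).symm
  cen y hy g := Subtype.ext (h.cen y hy g (h2 g.2))
  sq g := h.sq g (h2 g.2)
  four := h.card_sub h1 ▸ h.four
  tr x hx y hy e1 e2 := by
    obtain ⟨m, hm, e⟩ := ht x hx y hy (fun e => e1 (Subtype.ext e)) fun e => e2 (Subtype.ext e)
    exact ⟨A.normalizerMonoidHom ⟨m, hm⟩, Subtype.ext e⟩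

theorem cases {A : Subgroup G} (h1 : E ≤ A) (h2 : A ≤ B) (ht : TrN E A) (hne : ¬ A ≤ E) :
    Nat.card A = Nat.card E ^ 2 ∨ Nat.card A = Nat.card E ^ 3 := by
  rw [← h.card_sub h1]
  exact (h.tr h1 h2 ht).card_cases.resolve_left fun e => hne (subgroupOf_eq_top.1 e)

theorem conj_mem {U : Subgroup G} (h1 : E ≤ U) (h2 : U ≤ B) {b u : G} (hb : b ∈ B) (hu : u ∈ U) :
    b * u * b⁻¹ ∈ U := by
  rw [show b * u * b⁻¹ = ⁅b, u⁆ * u by rw [commutatorElement_def]; group]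
  exact mul_mem (h1 (h.comm hb (h2 hu))) hu

/-- elements of `B` fixed by `X` modulo `U` -/
def fx {U : Subgroup G} (h1 : E ≤ U) (h2 : U ≤ B) (X : Set G) : Subgroup G where
  carrier := {b | b ∈ B ∧ ∀ x ∈ X, ⁅b, x⁆ ∈ U}
  one_mem' := ⟨one_mem _, fun x _ => by simp⟩
  mul_mem' := fun {a b} ha hb => ⟨mul_mem ha.1 hb.1, fun x hx => by
    rw [commutatorElement_mul_left_eq_conj_mul]
    exact mul_mem (h.conj_mem h1 h2 ha.1 (hb.2 x hx)) (ha.2 x hx)⟩
  inv_mem' := fun {a} ha => ⟨inv_mem ha.1, fun x hx => by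
    rw [show ⁅a⁻¹, x⁆ = a⁻¹ * ⁅a, x⁆⁻¹ * a⁻¹⁻¹ by simp only [commutatorElement_def]; group]
    exact h.conj_mem h1 h2 (inv_mem ha.1) (inv_mem (ha.2 x hx))⟩

theorem mem_fx {U : Subgroup G} {h1 : E ≤ U} {h2 : U ≤ B} {X : Set G} {b : G} :
    b ∈ h.fx h1 h2 X ↔ b ∈ B ∧ ∀ x ∈ X, ⁅b, x⁆ ∈ U := Iff.rfl

theorem fx_conj {U : Subgroup G} {h1 : E ≤ U} {h2 : U ≤ B} {X : Set G} {m : G}
    (hU : ∀ u ∈ U, m * u * m⁻¹ ∈ U) (hX : ∀ x ∈ X, m⁻¹ * x * m ∈ X) {b : G} (hb : b ∈ h.fx h1 h2 X) :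
    m * b * m⁻¹ ∈ h.fx h1 h2 X := ⟨h.nB.conj_mem _ hb.1 _, fun x hx => by
  rw [show ⁅m * b * m⁻¹, x⁆ = m * ⁅b, m⁻¹ * x * m⁆ * m⁻¹ by simp only [commutatorElement_def]; group]
  exact hU _ (hb.2 _ (hX x hx))⟩

theorem le_fx (X : Set G) : E ≤ h.fx le_rfl h.le X := fun e he => ⟨h.le he, fun x _ => by
  rw [commutatorElement_def, mul_assoc, mul_assoc, ← mul_assoc x]
  exact mul_mem he (h.nE.conj_mem _ (inv_mem he) _)⟩

theorem perp {g w x : G} (hg : ∀ e ∈ E, e * g = g * e) (hw : w ∈ B) (hwg : ⁅w, g⁆ ∈ E) (hx : x ∈ B) :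
    ⁅x, g⁆ * w = w * ⁅x, g⁆ := by
  have hc := h.comm (inv_mem hx) hw
  set c := ⁅x⁻¹, w⁆ with hc'
  set e := ⁅w, g⁆⁻¹ with he'
  have he : e ∈ E := inv_mem hwg
  have hX : g * x⁻¹ * g⁻¹ ∈ B := h.nB.conj_mem _ (inv_mem hx) _
  set X := g * x⁻¹ * g⁻¹ with hX'
  have e1 : x⁻¹ * w = c * w * x⁻¹ := by rw [hc', commutatorElement_def]; group
  have e2 : g * w * g⁻¹ = e * w := by rw [he', commutatorElement_def]; group
  have e3 : X * (e * w) = c * (e * w) * X := by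
    rw [← e2, hX', show g * x⁻¹ * g⁻¹ * (g * w * g⁻¹) = g * (x⁻¹ * w) * g⁻¹ by group, e1,
      ← mul_assoc, ← mul_assoc, ← hg c hc]
    group
  have e4 : X * w = c * w * X := by
    rw [← mul_assoc, ← h.cen e he X hX, ← mul_assoc c, ← h.cen e he c (h.le hc), mul_assoc e, mul_assoc e,
      mul_assoc e] at e3
    exact mul_left_cancel e3
  have e5 : w * x = x * c * w := by
    rw [show w * x = x * (x⁻¹ * w) * x by group, e1]; group
  rw [show ⁅x, g⁆ = x * X by rw [commutatorElement_def, hX']; group, mul_assoc, e4, ← mul_assoc w, e5]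
  group

theorem cent {y : G} (hy : Odd (orderOf y)) {K N : Subgroup G} (hN : N ≤ B)
    (h1 : ∀ b ∈ K, ⁅b, y⁆ ∈ N) (h2 : ∀ n ∈ N, n * y = y * n) : ∀ b ∈ K, b * y = y * b := by
  intro b hb
  set c := ⁅b, y⁆⁻¹ with hc
  have hcN : c ∈ N := inv_mem (h1 b hb)
  have e : ∀ k : ℕ, y ^ k * b = c ^ k * b * y ^ k := fun k => by
    induction k with
    | zero => simp
    | succ k ih =>
      have e1 : y * b = c * b * y := by rw [hc, commutatorElement_def]; group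
      rw [pow_succ' y, mul_assoc, ih, ← mul_assoc, ← mul_assoc, ← (show Commute c y from h2 c hcN).pow_left k,
        mul_assoc (c ^ k), e1, pow_succ c]
      group
  have e2 := e (orderOf y)
  rw [pow_orderOf_eq_one, one_mul, mul_one, eq_comm, mul_eq_right] at e2
  have e3 : c ^ 4 = 1 := by
    rw [show 4 = 2 + 2 from rfl, pow_add, pow_two]
    exact (h.mem _).1 (h.sq c (hN hcN))
  have e4 : orderOf c ∣ Nat.gcd (orderOf y) 4 :=
    Nat.dvd_gcd (orderOf_dvd_of_pow_eq_one e2) (orderOf_dvd_of_pow_eq_one e3)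
  rw [show Nat.gcd (orderOf y) 4 = 1 from (Nat.coprime_two_right.2 hy).pow_right 2, Nat.dvd_one,
    orderOf_eq_one_iff, hc, inv_eq_one] at e4
  exact commutatorElement_eq_one_iff_mul_comm.1 e4

theorem kill {A : Subgroup G} (h1 : E ≤ A) (h2 : A ≤ B) (ht : TrN E A)
    (hc : Nat.card A = Nat.card E ^ 2) {y : G} (hy : Odd (orderOf y)) (hyA : y ∈ normalizer (A : Set G))
    (hyE : ∀ e ∈ E, e * y = y * e) : y = 1 := by
  obtain ⟨t1, t2⟩ := (h.tr h1 h2 ht).two (by rw [h.card_sub h1, hc])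
  have hA : ∀ a ∈ A, a * y = y * a := h.cent hy h.le (fun a ha => by
    have := t1 ⟨a⁻¹, inv_mem ha⟩ ⟨y * a⁻¹ * y⁻¹, (mem_normalizer_iff.1 hyA _).1 (inv_mem ha)⟩
      (Subtype.ext (by
        show a⁻¹ * a⁻¹ = y * a⁻¹ * y⁻¹ * (y * a⁻¹ * y⁻¹)
        rw [conj_mul, ← hyE _ (h.sq _ (h2 (inv_mem ha))), mul_inv_cancel_right]))
    have e : ⁅a, y⁆ = a⁻¹⁻¹ * (y * a⁻¹ * y⁻¹) := by rw [commutatorElement_def]; group
    rw [e]; exact this) hyE
  refine h.faith y hy (h.cent hy h2 (fun b hb => ?_) hA)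
  have hc : ⁅b, y⁆ ∈ B := by
    rw [commutatorElement_def, mul_assoc, mul_assoc, ← mul_assoc y]
    exact mul_mem hb (h.nB.conj_mem _ (inv_mem hb) _)
  obtain ⟨a, ha⟩ := t2 ⟨_, h1 (h.sq _ hc)⟩ (h.sq _ hc)
  have ha' : (a : G) * a = ⁅b, y⁆ * ⁅b, y⁆ := congrArg Subtype.val ha
  have hp := h.perp hyE (h2 a.2) (by
    rw [commutatorElement_eq_one_iff_mul_comm.2 (hA a a.2)]; exact one_mem _) hb
  have : ⁅b, y⁆ * a ∈ E := (h.mem _).2 (by
    rw [mul_assoc, ← mul_assoc (a : G), ← hp, mul_assoc, ha', ← mul_assoc]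
    exact (h.mem _).1 (h.sq _ hc))
  exact (mul_mem_cancel_right a.2).1 (h1 this)

theorem mem_pCore {s : G} (h1 : ∀ e ∈ E, e * s = s * e) (h2 : ∀ b ∈ B, ⁅b, s⁆ ∈ E) : s ∈ pCore 2 G := by
  let C : Subgroup G :=
    { carrier := {s | (∀ e ∈ E, e * s = s * e) ∧ ∀ b ∈ B, ⁅b, s⁆ ∈ E}
      one_mem' := ⟨fun e _ => by simp, fun b _ => by simp⟩
      mul_mem' := fun {a c} ha hc => ⟨fun e he => by
        rw [← mul_assoc, ha.1 e he, mul_assoc, hc.1 e he, mul_assoc], fun b hb => by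
        rw [commutatorElement_mul_right_eq_mul_conj, mul_assoc _ a, mul_assoc _ (a * _)]
        exact mul_mem (ha.2 b hb) (h.nE.conj_mem _ (hc.2 b hb) _)⟩
      inv_mem' := fun {a} ha => ⟨fun e he => (show Commute e a from ha.1 e he).inv_right, fun b hb => by
        rw [show ⁅b, a⁻¹⁆ = a⁻¹ * ⁅b, a⁆⁻¹ * a⁻¹⁻¹ by simp only [commutatorElement_def]; group]
        exact h.nE.conj_mem _ (inv_mem (ha.2 b hb)) _⟩ }
  have hn : C.Normal := ⟨fun a ha g => ⟨fun e he => by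
    have := ha.1 _ (h.nE.conj_mem e he g⁻¹)
    rw [show e * (g * a * g⁻¹) = g * (g⁻¹ * e * g⁻¹⁻¹ * a) * g⁻¹ by group, this]; group, fun b hb => by
    rw [show ⁅b, g * a * g⁻¹⁆ = g * ⁅g⁻¹ * b * g⁻¹⁻¹, a⁆ * g⁻¹ by simp only [commutatorElement_def]; group]
    exact h.nE.conj_mem _ (ha.2 _ (h.nB.conj_mem _ hb _)) _⟩⟩
  have hp : IsPGroup 2 C := fun g => by
    obtain ⟨k, m, hm, e⟩ := Nat.exists_eq_two_pow_mul_odd (orderOf_pos (g : G)).ne'
    have hy : Odd (orderOf ((g : G) ^ 2 ^ k)) := hm.of_dvd_nat (orderOf_dvd_of_pow_eq_one (by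
      rw [← pow_mul, ← e, pow_orderOf_eq_one]))
    have hg := pow_mem g.2 (2 ^ k)
    exact ⟨k, Subtype.ext (h.faith _ hy (h.cent hy h.le hg.2 hg.1))⟩
  exact H1.le_pCore hp ⟨h1, h2⟩

end St

end H8
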