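import Cfsg.Agent.H8.Th2
import Cfsg.Agent.H1.SmallCrit

/-! Thompson: solvable groups with one class of involutions have 2-length one. -/

set_option autoImplicit false
set_option linter.unusedSectionVars false

open Subgroup Cfsg
open scoped commutatorElement

namespace H8

universe u

variable {G : Type*} [Group G] [Finite G]

theorem exists_cent_mod {P Q V : Subgroup G} (hP : IsPGroup 2 P) (hC : Q ≤ P) [hQ : Q.Normal]
    (h : ¬ Q ≤ V) : ∃ x ∈ Q, x ∉ V ∧ ∀ g ∈ P, ⁅x, g⁆ ∈ V := by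
  have := hP.isNilpotent
  obtain ⟨x, h1, h2, h3⟩ := H9.exists_not_mem_commutator_mem (G := P) (M := Q.subgroupOf P)
    (N := V.subgroupOf P) (H := ⊤) le_normalizer_of_normal
    fun e => h fun x hx => e (show (⟨x, hC hx⟩ : P) ∈ Q.subgroupOf P from hx)
  exact ⟨x, h1, h2, fun g hg => h3 ⟨g, hg⟩ trivial⟩

theorem St.main {E B S H : Subgroup G} (h : St E B) (hBT : B ≤ pCore 2 G) (hS : IsPGroup 2 S)
    (hTS : pCore 2 G ≤ S) (hSE : ∀ s ∈ S, ∀ e ∈ E, e * s = s * e) (ht : TrN E S)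
    (hH : (Nat.card H).Coprime 2) (hHE : ∀ y ∈ H, ∀ e ∈ E, e * y = y * e)
    (hn : (pCore 2 G ⊔ H).Normal) (hH1 : H ≠ ⊥) : S ≤ pCore 2 G := by
  set T := pCore 2 G with hT
  haveI := h.nB
  haveI := h.nE
  have hodd : ∀ y ∈ H, Odd (orderOf y) := fun y hy =>
    (Nat.coprime_two_right.1 hH).of_dvd_nat (H.orderOf_dvd_natCard hy)
  have hkill : ∀ A : Subgroup G, E ≤ A → A ≤ B → TrN E A → Nat.card A = Nat.card E ^ 2 →
      ¬ H ≤ normalizer (A : Set G) := fun A h1 h2 h3 h4 h5 =>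
    hH1 ((eq_bot_iff_forall H).2 fun y hy => h.kill h1 h2 h3 h4 (hodd y hy) (h5 hy) (hHE y hy))
  by_contra hST
  have hfx : ∀ s ∈ S, s ∉ T → ∃ x ∈ B, ⁅x, s⁆ ∉ E := fun s hs h1 => by
    by_contra h2
    push Not at h2
    exact h1 (h.mem_pCore (hSE s hs) h2)
  obtain ⟨s₀, hs₀, hs₀'⟩ := SetLike.not_le_iff_exists.1 hST
  have hBE : ¬ B ≤ E := fun e => by
    obtain ⟨x, hx, h1⟩ := hfx s₀ hs₀ hs₀'
    exact h1 ((h.le_fx {s₀} (e hx)).2 s₀ rfl)
  have hq : Nat.card E ^ 2 < Nat.card E ^ 3 :=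
    Nat.pow_lt_pow_right (by have := h.four; omega) (by norm_num)
  have htB : TrN E B := ht.mono fun m _ a ha => h.nB.conj_mem a ha m
  have hB := h.cases h.le le_rfl htB hBE
  have hB3 : ∀ A ≤ B, Nat.card A = Nat.card E ^ 3 → A = B := fun A h1 h2 =>
    eq_of_le_of_card_ge h1 (by omega)
  set U := h.fx le_rfl h.le (S : Set G) with hU
  have hEU : E ≤ U := h.le_fx _
  have hUB : U ≤ B := fun _ hb => hb.1
  have hSN : ∀ m ∈ normalizer (S : Set G), ∀ x ∈ (S : Set G), m⁻¹ * x * m ∈ (S : Set G) :=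
    fun m hm x hx => by simpa using (mem_normalizer_iff.1 (inv_mem hm) x).1 hx
  have hUN : ∀ m ∈ normalizer (S : Set G), ∀ u ∈ U, m * u * m⁻¹ ∈ U := fun m hm u hu =>
    h.fx_conj (fun e he => h.nE.conj_mem e he m) (hSN m hm) hu
  have htU : TrN E U := ht.mono hUN
  have hUE : ¬ U ≤ E := fun e => by
    obtain ⟨x, h1, h2, h3⟩ := exists_cent_mod hS (hBT.trans hTS) hBE
    exact h2 (e ⟨h1, h3⟩)
  have hUB' : U ≠ B := fun e => by
    obtain ⟨x, hx, h1⟩ := hfx s₀ hs₀ hs₀'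
    exact h1 ((e.ge hx).2 s₀ hs₀)
  have hU2 : Nat.card U = Nat.card E ^ 2 :=
    (h.cases hEU hUB htU hUE).resolve_right fun e => hUB' (hB3 U hUB e)
  have hB' : Nat.card B = Nat.card E ^ 3 :=
    hB.resolve_left fun e => hUB' (eq_of_le_of_card_ge hUB (by omega))
  have hTB : ∀ b ∈ B, ∀ t ∈ T, ⁅b, t⁆ ∈ E := by
    have h1 : ∀ m, ∀ a ∈ h.fx le_rfl h.le (T : Set G), m * a * m⁻¹ ∈ h.fx le_rfl h.le (T : Set G) :=
      fun m a ha => h.fx_conj (fun e he => h.nE.conj_mem e he m) (fun x hx => by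
        simpa using Normal.conj_mem inferInstance x hx m⁻¹) ha
    have h2 := ht.mono fun m _ => h1 m
    have h3 : h.fx le_rfl h.le (T : Set G) ≤ B := fun _ hb => hb.1
    rcases h.cases (h.le_fx _) h3 h2 (fun e => hUE fun u hu => e ⟨hu.1, fun t ht => hu.2 t (hTS ht)⟩)
      with e | e
    · exact absurd (fun y _ => mem_normalizer_fintype (h1 y)) (hkill _ (h.le_fx _) h3 h2 e)
    · exact fun b hb => ((hB3 _ h3 e).ge hb).2
  have hBS : ∀ b ∈ B, ∀ s ∈ S, ⁅b, s⁆ ∈ U := by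
    have h3 : h.fx hEU hUB (S : Set G) ≤ B := fun _ hb => hb.1
    have h4 : U ≤ h.fx hEU hUB (S : Set G) := fun u hu => ⟨hu.1, fun s hs => hEU (hu.2 s hs)⟩
    obtain ⟨x, h1, h2, h5⟩ := exists_cent_mod hS (hBT.trans hTS) fun e => hUB' (le_antisymm hUB e)
    rcases h.cases (hEU.trans h4) h3 (ht.mono fun m hm a ha => h.fx_conj (hUN m hm) (hSN m hm) ha)
      (fun e => hUE (h4.trans e)) with e | e
    · exact absurd ((eq_of_le_of_card_ge h4 (by omega)).ge ⟨h1, h5⟩) h2
    · exact fun b hb => ((hB3 _ h3 e).ge hb).2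
  have hfs : ∀ s ∈ S, s ∉ T → ∀ w ∈ B, ⁅w, s⁆ ∈ E → w ∈ U := fun s hs h1 w hw h2 => by
    obtain ⟨x, hx, h3⟩ := hfx s hs h1
    have hu := hBS x hx s hs
    have h4 := (h.tr h.le le_rfl htB).three (by rw [h.card_sub h.le, hB']) (x := ⟨_, hUB hu⟩) h3
    rw [h.card_sub h.le, ← hU2, ← Nat.card_congr (subgroupOfEquivOfLe hUB).toEquiv] at h4
    have h5 : ∀ w (hw : w ∈ B), ⁅w, s⁆ ∈ E → (⟨w, hw⟩ : B) ∈ centralizer ({⟨_, hUB hu⟩} : Set B) :=
      fun w hw h2 => mem_centralizer_singleton_iff.2 (Subtype.ext (h.perp (hSE s hs) hw h2 hx).symm)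
    exact (eq_of_le_of_card_ge (fun a ha => h5 a a.2 (ha.2 s hs)) h4.le :
      U.subgroupOf B = _).ge (h5 w hw h2)
  have hsq : ∀ s ∈ S, s * s ∈ T := fun s hs => h.mem_pCore (hSE _ (mul_mem hs hs)) fun b hb => by
    have hu := hBS b hb s hs
    rw [commutatorElement_mul_right_eq_mul_conj, show ⁅b, s⁆ * s * ⁅b, s⁆ * s⁻¹ =
      ⁅b, s⁆ * ⁅⁅b, s⁆, s⁆⁻¹ * ⁅b, s⁆ by simp only [commutatorElement_def]; group,
      mul_assoc, h.cen _ (inv_mem (hu.2 s hs)) _ hu.1, ← mul_assoc]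
    exact mul_mem (h.sq _ hu.1) (inv_mem (hu.2 s hs))
  let π := QuotientGroup.mk' T
  have hπ : ∀ a ∈ S.map π, a * a = 1 := by
    rintro _ ⟨s, hs, rfl⟩
    rw [← map_mul]
    exact (QuotientGroup.eq_one_iff _).2 (hsq s hs)
  haveI : IsMulCommutative (S.map π) := H1.isMulCommutative_iff'.2 fun a ha b hb => by
    rw [← inv_eq_of_mul_eq_one_right (hπ _ (mul_mem ha hb)), mul_inv_rev,
      inv_eq_of_mul_eq_one_right (hπ a ha), inv_eq_of_mul_eq_one_right (hπ b hb)]
  have hc : Nat.card S = Nat.card (S.map π) * Nat.card T := by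
    rw [← H1.card_map_mk'_mul S T, inf_eq_right.2 hTS]
  have hnc : ¬ IsCyclic (S.map π) := H9.not_isCyclic_of_elementary (p := 2)
    (fun a ha => by rw [pow_two, hπ a ha]) (by
      obtain ⟨k, hk⟩ := IsPGroup.iff_card.1 (hS.map π)
      rcases k with _ | _ | k
      · rw [hk, pow_zero, one_mul] at hc
        exact absurd (eq_of_le_of_card_ge hTS hc.le).ge hST
      · exfalso
        have h1 := ht.dvd h.mem hS
        have h2 := (ht.mono (A' := T) fun m _ a ha => Normal.conj_mem inferInstance a ha m).dvd h.mem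
          (H1.isPGroup_pCore 2)
        have h0 : 0 < Nat.card T := Nat.card_pos
        rw [hc, hk, show 2 ^ (0 + 1) * Nat.card T - 1 = 2 * (Nat.card T - 1) + 1 by omega] at h1
        have := Nat.le_of_dvd one_pos ((Nat.dvd_add_right (h2.mul_left 2)).1 h1)
        have := h.four
        omega
      · rw [hk]
        exact Nat.pow_lt_pow_right (a := 2) (m := 1) (by norm_num) (by omega))
  have hHn : (H.map π).Normal := by
    have : (T ⊔ H).map π = H.map π := by rw [Subgroup.map_sup, QuotientGroup.map_mk'_self, bot_sup_eq]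
    exact this ▸ hn.map π (QuotientGroup.mk'_surjective T)
  have hgen := Cfsg.Agent.S0058.result (S.map π) (H.map π) hnc le_normalizer_of_normal
    (H1.IsPGroup.coprime_card (hS.map π) (hH.coprime_dvd_left (card_map_dvd H π)))
  have hTN : T ≤ normalizer (U : Set G) := fun t ht => mem_normalizer_fintype (hUN t (le_normalizer (hTS ht)))
  refine hkill U hEU hUB htU hU2 ?_
  have : H.map π ≤ (normalizer (U : Set G)).map π := by
    rw [← hgen]
    refine iSup₂_le ?_
    rintro _ ⟨⟨s, hs, rfl⟩, h1⟩ _ ⟨⟨y, hy, rfl⟩, h2⟩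
    refine mem_map_of_mem π (mem_normalizer_fintype fun u hu => ?_)
    have h3 : s ∉ T := fun e => h1 ((QuotientGroup.eq_one_iff _).2 e)
    have h4 : s⁻¹ * (y⁻¹ * s * y) ∈ T := by
      rw [← QuotientGroup.eq_one_iff]
      show π _ = 1
      rw [map_mul, map_mul, map_mul, map_inv, map_inv, mul_assoc (π y)⁻¹,
        ← mem_centralizer_singleton_iff.1 h2]
      group
    refine hfs s hs h3 _ (h.nB.conj_mem _ hu.1 _) ?_
    rw [show ⁅y * u * y⁻¹, s⁆ = y * ⁅u, s * (s⁻¹ * (y⁻¹ * s * y))⁆ * y⁻¹ by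
      simp only [commutatorElement_def]; group]
    exact h.nE.conj_mem _ (hu.2 _ (mul_mem hs (hTS h4))) _
  rw [map_le_iff_le_comap, comap_map_eq, QuotientGroup.ker_mk', sup_eq_left.2 hTN] at this
  exact this

open H9 in
theorem thompson_one_class (n : ℕ) : ∀ (G : Type u) [Group G] [Finite G],
    Nat.card G = n → Group.IsSolvable G →
    (∃ (P : Subgroup G) (x y : G), IsPGroup 2 P ∧ x ∈ P ∧ y ∈ P ∧ x ≠ y ∧ x ≠ 1 ∧ x ^ 2 = 1 ∧
      y ≠ 1 ∧ y ^ 2 = 1) →
    (∀ x y : G, x ≠ 1 → x ^ 2 = 1 → y ≠ 1 → y ^ 2 = 1 → IsConj x y) → PLengthLE 2 1 G := by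
  induction n using Nat.strong_induction_on with
  | _ n ih =>
  intro G _ _ hn hG ⟨P, x, y, hP, hxP, hyP, hxy, hx1, hx2, hy1, hy2⟩ hconj
  by_cases h0 : pPrimeCore 2 G = ⊥
  swap
  · rw [← H1.pLengthLE_quotient_pPrimeCore_iff]
    set O := pPrimeCore 2 G
    have hO : (Nat.card O).Coprime 2 := H1.coprime_card_pPrimeCore 2
    have hinj : ∀ z ∈ P, QuotientGroup.mk' O z = 1 → z = 1 := fun z hz h => by
      have : z ∈ P ⊓ O := ⟨hz, (QuotientGroup.eq_one_iff _).1 h⟩
      rwa [H1.inf_eq_bot_of_isPGroup_of_coprime hP hO, mem_bot] at this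
    refine ih _ (hn ▸ H1.card_quotient_lt h0) (G ⧸ O) rfl inferInstance
      ⟨P.map (QuotientGroup.mk' O), QuotientGroup.mk' O x, QuotientGroup.mk' O y, hP.map _,
        mem_map_of_mem _ hxP, mem_map_of_mem _ hyP, fun h => hxy ?_, fun h => hx1 (hinj x hxP h),
        by rw [← map_pow, hx2, map_one], fun h => hy1 (hinj y hyP h),
        by rw [← map_pow, hy2, map_one]⟩ ?_
    · rw [← mul_inv_eq_one]
      exact hinj _ (mul_mem hxP (inv_mem hyP)) (by rw [map_mul, map_inv, h, mul_inv_cancel])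
    · intro a b ha1 ha2 hb1 hb2
      obtain ⟨a, ha, rfl⟩ := exists_lift_orderOf O hO a (orderOf_two ha1 ha2)
      obtain ⟨b, hb, rfl⟩ := exists_lift_orderOf O hO b (orderOf_two hb1 hb2)
      exact (QuotientGroup.mk' O).map_isConj (hconj a b (by rintro rfl; simp at ha)
        (ha ▸ pow_orderOf_eq_one a) (by rintro rfl; simp at hb) (hb ▸ pow_orderOf_eq_one b))
  have hGp : IsPSolvable 2 G := H1.isPSolvable_of_isSolvable 2 hG
  have ht := autTrans_of_conj hconj
  obtain ⟨H, hH, hch, hs, hb⟩ := exists_ppp_compl hGp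
  apply pLengthLE_one_of_index
  rcases ht.dichotomy hGp h0 hH hch hs with h | h
  · exact h
  set T := pCore 2 G with hT
  have hTp : IsPGroup 2 T := H1.isPGroup_pCore 2
  have hV : ∀ y : G, y ^ 2 = 1 → y ∈ T ⊓ centralizer (T : Set G) := fun y hy => by
    by_cases hy1 : y = 1
    · rw [hy1]; exact one_mem _
    · exact ht.mem_center_pCore hGp h0 (orderOf_two hy1 hy)
  set N := normalizer (H : Set G) with hN
  have hVN : ∀ y : G, y ^ 2 = 1 → y ∈ N := fun y hy => by
    by_cases hy1 : y = 1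
    · rw [hy1]; exact one_mem _
    · exact centralizer_le_normalizer _ (h y (orderOf_two hy1 hy))
  by_cases hNt : N = ⊤
  · haveI : H.Normal := normalizer_eq_top_iff.1 hNt
    rw [hb (le_bot_iff.1 (h0 ▸ H1.le_pPrimeCore hH)), index_top]; exact Nat.coprime_one_left 2
  have hcN : ∀ a b : G, a ≠ 1 → a ^ 2 = 1 → b ≠ 1 → b ^ 2 = 1 → ∃ m ∈ N, m * a * m⁻¹ = b :=
    fun a b ha1 ha2 hb1 hb2 => by
    obtain ⟨c, hc⟩ := isConj_iff.1 (hconj a b ha1 ha2 hb1 hb2)
    have h1 : c ∈ N ⊔ T := by rw [sup_comm, hs]; trivial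
    obtain ⟨m, hm, t, ht, rfl⟩ := (H1.mem_sup_of_le_normalizer_right le_normalizer_of_normal).1 h1
    refine ⟨m, hm, ?_⟩
    rw [← hc, mul_assoc m t, (hV a ha2).2 t ht]; group
  have hcN' : ∀ a b : N, a ≠ 1 → a ^ 2 = 1 → b ≠ 1 → b ^ 2 = 1 → IsConj a b :=
    fun a b ha1 ha2 hb1 hb2 => by
    obtain ⟨m, hm, e⟩ := hcN a b (fun h => ha1 (Subtype.ext h)) (congrArg Subtype.val ha2)
      (fun h => hb1 (Subtype.ext h)) (congrArg Subtype.val hb2)
    exact isConj_iff.2 ⟨⟨m, hm⟩, Subtype.ext e⟩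
  have hTN : IsPGroup 2 (T.subgroupOf N) := hTp.comap_of_injective _ N.subtype_injective
  have hl : PLengthLE 2 1 N := ih _ (hn ▸ H1.card_lt_card_of_ne_top hNt) N rfl inferInstance
    ⟨T.subgroupOf N, ⟨x, hVN x hx2⟩, ⟨y, hVN y hy2⟩, hTN, (hV x hx2).1, (hV y hy2).1,
      fun h => hxy (congrArg Subtype.val h), fun h => hx1 (congrArg Subtype.val h), Subtype.ext hx2,
      fun h => hy1 (congrArg Subtype.val h), Subtype.ext hy2⟩ hcN'
  obtain ⟨S0⟩ : Nonempty (Sylow 2 N) := inferInstance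
  have hTS0 : T.subgroupOf N ≤ S0 := (H1.le_pCore hTN).trans (H1.pCore_le_sylow S0)
  let S : Subgroup G := (S0 : Subgroup N).map N.subtype ⊔ T
  have hSp : IsPGroup 2 S := (S0.isPGroup'.map _).to_sup_of_normal_right hTp
  have hVS : ∀ y : G, y ^ 2 = 1 → y ∈ S := fun y hy => mem_sup_right (hV y hy).1
  have hST : S ≤ T := by
    by_cases hH1 : H = ⊥
    · rw [hb hH1]; exact le_top
    let E : Subgroup G :=
      { carrier := {y | y ^ 2 = 1}
        one_mem' := one_pow 2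
        inv_mem' := fun {a} ha => by
          show a⁻¹ ^ 2 = 1
          rw [inv_pow, show a ^ 2 = 1 from ha, inv_one]
        mul_mem' := fun {a b} ha hb => by
          show (a * b) ^ 2 = 1
          rw [(show Commute a b from (hV b hb).2 a (hV a ha).1).mul_pow, show a ^ 2 = 1 from ha,
            show b ^ 2 = 1 from hb, one_mul] }
    have hE : ∀ y, y ∈ E ↔ y * y = 1 := fun y => by rw [← pow_two]; rfl
    have hET : E ≤ T := fun y hy => (hV y hy).1
    have hEc : ∀ e ∈ E, ∀ t ∈ T, e * t = t * e := fun e he t ht => ((hV e he).2 t ht).symm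
    haveI hEn : E.Normal := ⟨fun a ha g => by
      show (g * a * g⁻¹) ^ 2 = 1
      rw [conj_pow, show a ^ 2 = 1 from ha, mul_one, mul_inv_cancel]⟩
    obtain ⟨D, hDT, hDn, hD4, -, hDc⟩ := H1.exists_small_critical hTp
    haveI : D.Normal := normalizer_eq_top_iff.1 (top_le_iff.1 (normalizer_eq_top T ▸ hDn))
    have hBT : D ⊔ E ≤ T := sup_le hDT hET
    have hSt : St E (D ⊔ E) :=
      { mem := hE
        le := le_sup_right
        nB := inferInstance
        pg := hTp.to_le hBT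
        cen := fun y hy b hb => hEc y hy b (hBT hb)
        sq := fun b hb => by
          obtain ⟨d, hd, e, he, rfl⟩ := (H1.mem_sup_of_le_normalizer_right le_normalizer_of_normal).1 hb
          rw [mul_assoc, ← mul_assoc e, hEc e he d (hDT hd), mul_assoc, (hE e).1 he, mul_one]
          show (d * d) ^ 2 = 1
          rw [← pow_two, ← pow_mul]
          rcases hD4 d hd with h | h
          · rw [pow_mul, h, one_pow]
          · exact h.2
        four := by
          obtain ⟨k, hk⟩ := IsPGroup.iff_card.1 (hTp.to_le hET)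
          have h3 : 2 < Nat.card E := by
            have := Fintype.ofFinite E
            rw [Nat.card_eq_fintype_card]
            exact Fintype.two_lt_card_iff.2 ⟨1, ⟨x, hx2⟩, ⟨y, hy2⟩,
              fun e => hx1 (congrArg Subtype.val e).symm, fun e => hy1 (congrArg Subtype.val e).symm,
              fun e => hxy (congrArg Subtype.val e)⟩
          rw [hk] at h3 ⊢
          exact Nat.pow_le_pow_right (n := 2) (i := 2) (by norm_num)
            ((Nat.pow_lt_pow_iff_right (a := 2) (n := 1) (by norm_num)).1 h3)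
        faith := fun y hy hc => by
          have h1 : y ∈ T := H1.IsPSolvable.centralizer_pCore_le hGp h0
            (hDc y (le_normalizer_of_normal (mem_top y)) (Nat.coprime_two_right.2 hy)
              fun d hd => hc d (mem_sup_left hd))
          obtain ⟨k, hk⟩ := (IsPGroup.iff_orderOf.1 hTp) ⟨y, h1⟩
          rw [orderOf_mk] at hk
          rcases k with _ | k
          · exact orderOf_eq_one_iff.1 hk
          · rw [hk, pow_succ] at hy
            exact absurd hy (by simp) }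
    have htr : TrN E S := fun a ha2 b hb2 ha1 hb1 => by
      obtain ⟨m, hm, e⟩ := conj_in_normalizer_of_pLength hl S0 (x := ⟨a, hVN a ha2⟩)
        (y := ⟨b, hVN b hb2⟩) (hTS0 (hV a ha2).1) (hTS0 (hV b hb2).1)
        (hcN' _ _ (fun h => ha1 (congrArg Subtype.val h)) (Subtype.ext ha2)
          (fun h => hb1 (congrArg Subtype.val h)) (Subtype.ext hb2))
      refine ⟨m, ?_, congrArg Subtype.val e⟩
      refine H1.le_normalizer_sup (A := zpowers (m : G)) ?_ le_normalizer_of_normal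
        (mem_zpowers _)
      rw [zpowers_le]
      exact le_normalizer_map N.subtype (mem_map_of_mem _ hm)
    refine hSt.main hBT hSp le_sup_right (fun s hs e he => ?_) htr hH (fun y hy e he => ?_)
      inferInstance hH1
    · obtain ⟨z, h1, h2, h3⟩ := exists_cent_mod (Q := E) (V := ⊥) hSp (hET.trans le_sup_right)
        fun h => hx1 (mem_bot.1 (h hx2))
      by_cases he1 : e = 1
      · simp [he1]
      obtain ⟨m, hm, rfl⟩ := htr z h1 e he (fun h => h2 (mem_bot.2 h)) he1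
      have := commutatorElement_eq_one_iff_mul_comm.1
        (mem_bot.1 (h3 _ ((mem_normalizer_iff.1 (inv_mem hm) s).1 hs)))
      rw [show m * z * m⁻¹ * s = m * (z * (m⁻¹ * s * m⁻¹⁻¹)) * m⁻¹ by group, this]; group
    · by_cases he1 : e = 1
      · simp [he1]
      exact (h e (orderOf_two he1 he) y hy).symm
  have h1 : T.index ∣ (S0 : Subgroup N).index := by
    rw [← relIndex_top_right, ← hs, sup_comm,
      H1.relIndex_sup_of_le_normalizer le_normalizer_of_normal]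
    exact index_dvd_of_le fun s hs => hST (mem_sup_left (mem_map_of_mem _ hs))
  exact Nat.Coprime.coprime_dvd_left h1
    ((Nat.Prime.coprime_iff_not_dvd Nat.prime_two).2 S0.not_dvd_index).symm

open H9 in
theorem thompson_one_class' {G : Type u} [Group G] [Finite G]
    (hG : Group.IsSolvable G) (S : Sylow 2 G)
    (htwo : ∃ x y : G, x ∈ (S : Subgroup G) ∧ y ∈ (S : Subgroup G) ∧ x ≠ y ∧ x ≠ 1 ∧ x ^ 2 = 1 ∧
      y ≠ 1 ∧ y ^ 2 = 1)
    (hconj : ∀ x y : G, x ≠ 1 → x ^ 2 = 1 → y ≠ 1 → y ^ 2 = 1 → IsConj x y) :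
    PLengthLE 2 1 G ∧ ((∃ m r : ℕ, Nonempty (↥(S : Subgroup G) ≃*
      (Fin r → Multiplicative (ZMod (2 ^ m))))) ∨ (¬ IsMulCommutative (S : Subgroup G) ∧
      ∃ Y : Subgroup (MulAut ↥(S : Subgroup G)), Group.IsSolvable Y ∧
      ∀ x y : ↥(S : Subgroup G), x ≠ 1 → x ^ 2 = 1 → y ≠ 1 → y ^ 2 = 1 → ∃ a ∈ Y, a x = y)) := by
  obtain ⟨x, y, hx, hy, h⟩ := htwo
  have hl := thompson_one_class _ G rfl hG ⟨S, x, y, S.isPGroup', hx, hy, h⟩ hconj
  obtain ⟨Y, hY, hY2⟩ := exists_solvable_aut hG (S : Subgroup G) fun a ha b hb ha1 ha2 hb1 hb2 =>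
    conj_in_normalizer_of_pLength hl S ha hb (hconj a b ha1 ha2 hb1 hb2)
  refine ⟨hl, ?_⟩
  by_cases hc : IsMulCommutative (S : Subgroup G)
  · left
    haveI : Nontrivial (S : Subgroup G) := ⟨⟨⟨x, hx⟩, ⟨y, hy⟩, fun e => h.1 (congrArg Subtype.val e)⟩⟩
    open scoped IsMulCommutative in
    refine homocyclic_of_trans (S := (S : Subgroup G)) S.isPGroup' fun a b ha hb => ?_
    obtain ⟨c, -, hc⟩ := hY2 a b (by rintro rfl; simp at ha)
      (by have := pow_orderOf_eq_one a; rwa [ha] at this)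
      (by rintro rfl; simp at hb) (by have := pow_orderOf_eq_one b; rwa [hb] at this)
    exact ⟨c, hc ▸ mem_zpowers _⟩
  · exact Or.inr ⟨hc, Y, hY, hY2⟩

end H8
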