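import Mathlib

/-! Theta series of lattices attached to self-dual codes: the transformation law. -/

set_option autoImplicit false

open Complex Real

namespace H8.Theta

theorem hasSum_mul' {ι κ : Type} {f : ι → ℂ} {g : κ → ℂ} {s t : ℂ} (hf : HasSum f s) (hg : HasSum g t) :
    HasSum (fun x : ι × κ => f x.1 * g x.2) (s * t) :=
  hf.mul hg (summable_mul_of_summable_norm hf.summable.norm hg.summable.norm)

theorem hasSum_pi {n : ℕ} : ∀ (f : Fin n → ℤ → ℂ) (s : Fin n → ℂ), (∀ i, HasSum (f i) (s i)) →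
    HasSum (fun m : Fin n → ℤ => ∏ i, f i (m i)) (∏ i, s i) := by
  induction n with
  | zero => intro f s _; simpa using hasSum_fintype fun m : Fin 0 → ℤ => (1 : ℂ)
  | succ n ih =>
    intro f s h
    have h2 := hasSum_mul' (h 0) (ih (fun i => f i.succ) (fun i => s i.succ) fun i => h i.succ)
    rw [Fin.prod_univ_succ, ← (Fin.consEquiv fun _ => ℤ).hasSum_iff]
    convert h2 using 2 with x
    simp [Fin.prod_univ_succ, Fin.consEquiv]

variable {n : ℕ} (d : Fin n → ℕ)

noncomputable def g (τ : ℂ) (k : Fin n → ℤ) : ℂ := ∏ i, cexp (π * I * τ * (k i) ^ 2 / d i)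

noncomputable def e (k c : Fin n → ℤ) : ℂ := ∏ i, cexp (2 * π * I * (k i * c i / d i))

def red (k : Fin n → ℤ) : Fin n → ℤ := fun i => k i % d i

structure SD (L : AddSubgroup (Fin n → ℤ)) : Prop where
  pos : ∀ i, 0 < d i
  mem : ∀ m : Fin n → ℤ, (fun i => (d i : ℤ) * m i) ∈ L
  dual : ∀ k, k ∈ L ↔ ∀ l ∈ L, ∃ z : ℤ, ∑ i, (k i * l i / d i : ℚ) = z

open Classical in
noncomputable def theta (L : AddSubgroup (Fin n → ℤ)) (τ : ℂ) : ℂ :=
  ∑' k, if k ∈ L then g d τ k else 0

open Classical in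
noncomputable def code (L : AddSubgroup (Fin n → ℤ)) : Finset (Fin n → ℤ) :=
  (Fintype.piFinset fun i => Finset.Ico (0 : ℤ) (d i)).filter (· ∈ L)

variable {d} {L : AddSubgroup (Fin n → ℤ)}

theorem e_add (k a b : Fin n → ℤ) : e d k (a + b) = e d k a * e d k b := by
  simp only [e, ← Finset.prod_mul_distrib, ← Complex.exp_add, Pi.add_apply]
  refine Finset.prod_congr rfl fun i _ => congrArg _ ?_
  push_cast; ring

theorem e_eq (k c : Fin n → ℤ) : e d k c = cexp (2 * π * I * ((∑ i, (k i * c i / d i : ℚ) : ℚ) : ℂ)) := by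
  rw [e, ← Complex.exp_sum, ← Finset.mul_sum]
  push_cast; rfl

theorem e_eq_one_iff (k c : Fin n → ℤ) : e d k c = 1 ↔ ∃ z : ℤ, ∑ i, (k i * c i / d i : ℚ) = z := by
  rw [e_eq, Complex.exp_eq_one_iff]
  refine exists_congr fun z => ?_
  rw [mul_comm, mul_left_inj' Complex.two_pi_I_ne_zero]
  exact_mod_cast Iff.rfl

namespace SD

variable (h : SD d L)
include h

theorem sub_red (k : Fin n → ℤ) : k = red d k + fun i => (d i : ℤ) * (k i / d i) :=
  funext fun i => (Int.emod_add_mul_ediv _ _).symm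

theorem red_mem {k : Fin n → ℤ} : red d k ∈ L ↔ k ∈ L := by
  conv_rhs => rw [h.sub_red k]
  exact (add_mem_cancel_right (h.mem _)).symm

theorem mem_code {c : Fin n → ℤ} : c ∈ code d L ↔ red d c = c ∧ c ∈ L := by
  simp only [code, Finset.mem_filter, Fintype.mem_piFinset, Finset.mem_Ico, funext_iff, red]
  refine and_congr_left' (forall_congr' fun i => ?_)
  have := h.pos i
  exact ⟨fun e => Int.emod_eq_of_lt e.1 e.2, fun e => e ▸ ⟨Int.emod_nonneg _ (by omega),
    Int.emod_lt_of_pos _ (by omega)⟩⟩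

theorem e_red (k c : Fin n → ℤ) : e d k (red d c) = e d k c := by
  conv_rhs => rw [h.sub_red c, e_add]
  rw [(e_eq_one_iff k fun i => (d i : ℤ) * (c i / d i)).2 ⟨∑ i, k i * (c i / d i), ?_⟩, mul_one]
  rw [Int.cast_sum]
  refine Finset.sum_congr rfl fun i _ => ?_
  have : (d i : ℚ) ≠ 0 := by exact_mod_cast (h.pos i).ne'
  rw [Int.cast_mul, Int.cast_mul, Int.cast_natCast]
  field_simp

omit h in
theorem red_red_add (a b : Fin n → ℤ) : red d (red d a + b) = red d (a + b) :=
  funext fun i => by simp [red]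

open Classical in
theorem sum_e (k : Fin n → ℤ) : ∑ c ∈ code d L, e d k c = if k ∈ L then ((code d L).card : ℂ) else 0 := by
  split_ifs with hk
  · rw [Finset.sum_congr rfl fun c hc => (e_eq_one_iff k c).2 ((h.dual k).1 hk c (h.mem_code.1 hc).2)]
    simp
  rw [h.dual] at hk
  push Not at hk
  obtain ⟨l, hl, h1⟩ := hk
  have h2 : e d k l ≠ 1 := fun e => by
    obtain ⟨z, hz⟩ := (e_eq_one_iff k l).1 e
    exact h1 z hz
  have hm : ∀ l ∈ L, ∀ c ∈ code d L, red d (c + l) ∈ code d L := fun l hl c hc =>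
    h.mem_code.2 ⟨by simpa using red_red_add (d := d) (c + l) 0, h.red_mem.2 (add_mem (h.mem_code.1 hc).2 hl)⟩
  have h3 : ∑ c ∈ code d L, e d k (red d (c + l)) = ∑ c ∈ code d L, e d k c :=
    Finset.sum_bij' (fun c _ => red d (c + l)) (fun c _ => red d (c + -l)) (hm l hl) (hm _ (neg_mem hl))
      (fun c hc => by rw [red_red_add, add_neg_cancel_right, (h.mem_code.1 hc).1])
      (fun c hc => by rw [red_red_add, neg_add_cancel_right, (h.mem_code.1 hc).1]) fun _ _ => rfl
  simp only [h.e_red, e_add, ← Finset.sum_mul] at h3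
  exact (mul_right_eq_self₀.1 h3).resolve_left h2

theorem card_ne : ((code d L).card : ℂ) ≠ 0 :=
  Nat.cast_ne_zero.2 (Finset.card_ne_zero.2 ⟨0, h.mem_code.2 ⟨funext fun i => by simp [red], zero_mem _⟩⟩)

theorem im_div {τ : ℂ} (hτ : 0 < τ.im) (i : Fin n) : 0 < (τ / d i).im := by
  rw [Complex.div_natCast_im]
  exact div_pos hτ (by exact_mod_cast h.pos i)

open Classical in
theorem hasSum_aux {τ : ℂ} (hτ : 0 < τ.im) : HasSum (fun k => if k ∈ L then g d τ k else 0)
    ((∑ c ∈ code d L, ∏ i, jacobiTheta₂ (c i / d i) (τ / d i)) / (code d L).card) := by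
  have h1 : ∀ c : Fin n → ℤ, HasSum (fun k => g d τ k * e d k c) (∏ i, jacobiTheta₂ (c i / d i) (τ / d i)) :=
    fun c => by
    convert hasSum_pi _ _ fun i => hasSum_jacobiTheta₂_term (c i / d i) (h.im_div hτ i) using 2 with k
    simp only [g, e, ← Finset.prod_mul_distrib, ← Complex.exp_add, jacobiTheta₂_term]
    refine Finset.prod_congr rfl fun i _ => congrArg _ ?_
    ring
  have h2 := (hasSum_sum (s := code d L) fun c _ => h1 c).div_const ((code d L).card : ℂ)
  refine (funext fun k => ?_ : (fun k => (∑ c ∈ code d L, g d τ k * e d k c) / ((code d L).card : ℂ)) =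
    fun k => if k ∈ L then g d τ k else 0) ▸ h2
  rw [← Finset.mul_sum, h.sum_e]
  split_ifs
  · rw [mul_div_cancel_right₀ _ h.card_ne]
  · simp

theorem theta_eq {τ : ℂ} (hτ : 0 < τ.im) : theta d L τ =
    (∑ c ∈ code d L, ∏ i, jacobiTheta₂ (c i / d i) (τ / d i)) / (code d L).card :=
  (h.hasSum_aux hτ).tsum_eq

open Classical in
theorem hasSum_theta {τ : ℂ} (hτ : 0 < τ.im) : HasSum (fun k => if k ∈ L then g d τ k else 0) (theta d L τ) :=
  (h.hasSum_aux hτ).summable.hasSum

theorem differentiableAt {τ : ℂ} (hτ : 0 < τ.im) : DifferentiableAt ℂ (theta d L) τ := by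
  have : theta d L =ᶠ[nhds τ] fun τ =>
      (∑ c ∈ code d L, ∏ i, jacobiTheta₂ (c i / d i) (τ / d i)) / (code d L).card := by
    filter_upwards [(isOpen_lt continuous_const Complex.continuous_im).mem_nhds hτ] with σ hσ
    exact h.theta_eq hσ
  refine DifferentiableAt.congr_of_eventuallyEq ?_ this
  refine DifferentiableAt.div_const (DifferentiableAt.fun_sum fun c _ =>
    DifferentiableAt.fun_finset_prod fun i _ => ?_) _
  exact (differentiableAt_jacobiTheta₂_snd (c i / d i) (h.im_div hτ i)).comp τ (f := fun σ : ℂ => σ / d i)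
    (by fun_prop)

theorem theta_inv {τ : ℂ} (hτ : 0 < τ.im) : theta d L (-1 / τ) = ∑ c ∈ code d L, ∏ i,
    cexp (-π * I * (c i / d i) ^ 2 / (τ / d i)) * jacobiTheta₂ (c i / d i / (τ / d i)) (-1 / (τ / d i)) := by
  classical
  have h0 : τ ≠ 0 := fun e => by simp [e] at hτ
  have him : ∀ {σ : ℂ}, 0 < σ.im → 0 < (-1 / σ).im := fun {σ} hσ => by
    rw [neg_div, neg_im, one_div, inv_im, neg_div, neg_neg]
    exact div_pos hσ (normSq_pos.2 fun e => by simp [e] at hσ)
  have h1 : ∀ c ∈ code d L, HasSum (fun k => if red d k = c then g d (-1 / τ) k else 0) (∏ i,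
      cexp (-π * I * (c i / d i) ^ 2 / (τ / d i)) * jacobiTheta₂ (c i / d i / (τ / d i)) (-1 / (τ / d i))) :=
    fun c hc => by
    have hi : Function.Injective fun (m : Fin n → ℤ) i => c i - d i * m i := fun a b e => funext fun i => by
      have h2 := congrFun e i
      have h3 : (d i : ℤ) ≠ 0 := by exact_mod_cast (h.pos i).ne'
      exact mul_left_cancel₀ h3 (sub_right_injective h2)
    have hc1 := (h.mem_code.1 hc).1
    rw [← hi.hasSum_iff fun k hk => if_neg fun e => hk ⟨fun i => -(k i / d i), funext fun i => by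
      rw [← e]; beta_reduce; rw [mul_neg, sub_neg_eq_add]; exact Int.emod_add_mul_ediv _ _⟩]
    convert hasSum_pi _ _ fun i => (hasSum_jacobiTheta₂_term (c i / d i / (τ / d i))
      (him (h.im_div hτ i))).mul_left (cexp (-π * I * (c i / d i) ^ 2 / (τ / d i))) using 2 with m
    rw [Function.comp_apply, if_pos (funext fun i => by
      simp only [red, Int.sub_mul_emod_self_left]; exact congrFun hc1 i)]
    simp only [g, ← Complex.exp_add, jacobiTheta₂_term]
    refine Finset.prod_congr rfl fun i _ => congrArg _ ?_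
    have h3 : (d i : ℂ) ≠ 0 := by exact_mod_cast (h.pos i).ne'
    push_cast
    field_simp
    ring
  refine (h.hasSum_theta (him hτ)).unique ?_
  convert hasSum_sum h1 using 2 with k
  rw [Finset.sum_ite_eq]
  refine if_congr ?_ rfl rfl
  rw [h.mem_code, h.red_mem]
  exact ⟨fun e => ⟨by simpa using red_red_add (d := d) k 0, e⟩, fun e => e.2⟩

theorem theta_S : ∃ c : ℂ, ∀ τ : ℂ, 0 < τ.im →
    theta d L (-1 / τ) = c * ((-I * τ) ^ (1 / 2 : ℂ)) ^ n * theta d L τ := by
  refine ⟨(code d L).card * ∏ i, (((d i : ℝ)⁻¹ : ℝ) : ℂ) ^ (1 / 2 : ℂ), fun τ hτ => ?_⟩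
  have h0 : τ ≠ 0 := fun e => by simp [e] at hτ
  rw [h.theta_inv hτ, h.theta_eq hτ, mul_assoc, mul_assoc, mul_comm ((code d L).card : ℂ), mul_assoc, mul_assoc,
    div_mul_cancel₀ _ h.card_ne, ← mul_assoc, Finset.mul_sum]
  refine Finset.sum_congr rfl fun c _ => ?_
  rw [← Fin.prod_const, ← Finset.prod_mul_distrib, ← Finset.prod_mul_distrib]
  refine Finset.prod_congr rfl fun i _ => ?_
  have h3 : (d i : ℂ) ≠ 0 := by exact_mod_cast (h.pos i).ne'
  have h4 : -I * (τ / d i) ≠ 0 := mul_ne_zero (neg_ne_zero.2 I_ne_zero) (div_ne_zero h0 h3)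
  have h5 : (0 : ℝ) < (d i : ℝ)⁻¹ := inv_pos.2 (by exact_mod_cast h.pos i)
  have h6 : -I * τ ≠ 0 := mul_ne_zero (neg_ne_zero.2 I_ne_zero) h0
  have h7 : (((d i : ℝ)⁻¹ : ℝ) : ℂ) ^ (1 / 2 : ℂ) * (-I * τ) ^ (1 / 2 : ℂ) = (-I * (τ / d i)) ^ (1 / 2 : ℂ) := by
    rw [cpow_def_of_ne_zero h4, cpow_def_of_ne_zero h6, cpow_def_of_ne_zero (ofReal_ne_zero.2 h5.ne'),
      ← Complex.exp_add, ← add_mul, ← ofReal_log h5.le, ← log_ofReal_mul h5 h6]
    congr 3
    push_cast
    ring
  rw [jacobiTheta₂_functional_equation (c i / d i) (τ / d i), h7, ← mul_assoc, ← mul_assoc,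
    mul_one_div_cancel (cpow_ne_zero_iff.2 (Or.inl h4)), one_mul]

end SD

end H8.Theta
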