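import Cfsg.Agent.H8.Theta1

/-! The theta series of an even unimodular lattice of rank 24 is a modular form of weight 12. -/

set_option autoImplicit false

open Complex Real Matrix

namespace H8.Theta

variable {n : ℕ} {B : Matrix (Fin n) (Fin n) ℤ}

theorem exists_diag (hs : B.IsSymm) (hpos : ∀ x : Fin n → ℤ, x ≠ 0 → 0 < x ⬝ᵥ (B *ᵥ x)) :
    ∃ (P : Matrix (Fin n) (Fin n) ℤ) (d : Fin n → ℕ), (∀ i, 0 < d i) ∧
      P * B * Pᵀ = diagonal fun i => (d i : ℤ) := by
  let B' : Matrix (Fin n) (Fin n) ℚ := B.map (Int.castRingHom ℚ)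
  have hs' : (Matrix.toBilin' B').IsSymm := by
    rw [Matrix.isSymm_toBilin'_iff_isSymm]
    exact hs.map _
  obtain ⟨v, hv⟩ := LinearMap.BilinForm.exists_orthogonal_basis (B := Matrix.toBilin' B')
    (LinearMap.BilinForm.isSymm_iff.1 hs')
  let w := v.reindex (finCongr (Module.finrank_fin_fun ℚ))
  obtain ⟨b, hb⟩ := IsLocalization.exist_integer_multiples_of_finite (nonZeroDivisors ℤ)
    fun p : Fin n × Fin n => w p.1 p.2
  choose P hP using hb
  have hb0 : ((b : ℤ) : ℚ) ≠ 0 := by exact_mod_cast nonZeroDivisors.coe_ne_zero b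
  have hP' : ∀ i j, (P (i, j) : ℚ) = (b : ℤ) * w i j := fun i j => by simpa using hP (i, j)
  let Q : Matrix (Fin n) (Fin n) ℤ := Matrix.of fun i j => P (i, j)
  have e1 : ∀ i j, (Q * B * Qᵀ) i j = Q i ⬝ᵥ (B *ᵥ Q j) := fun i j => by
    rw [Matrix.mul_assoc]; rfl
  have e2 : ∀ i j, ((Q i ⬝ᵥ (B *ᵥ Q j) : ℤ) : ℚ) = (b : ℤ) * (b : ℤ) * Matrix.toBilin' B' (w i) (w j) := by
    intro i j
    simp only [Matrix.toBilin'_apply', dotProduct, mulVec, Q, Matrix.of_apply, B', Matrix.map_apply,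
      eq_intCast, Int.cast_sum, Int.cast_mul, hP', Finset.mul_sum]
    exact Finset.sum_congr rfl fun _ _ => Finset.sum_congr rfl fun _ _ => by ring
  have e3 : ∀ i, 0 < Q i ⬝ᵥ (B *ᵥ Q i) := fun i => hpos _ fun e => w.ne_zero i (funext fun j => by
    have := hP' i j
    rw [show P (i, j) = 0 from congrFun e j, Int.cast_zero] at this
    exact (mul_eq_zero.1 this.symm).resolve_left hb0)
  refine ⟨Q, fun i => (Q i ⬝ᵥ (B *ᵥ Q i)).toNat, fun i => by have := e3 i; beta_reduce; omega, ?_⟩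
  ext i j
  rw [e1]
  by_cases h : i = j
  · subst h
    rw [diagonal_apply_eq, Int.toNat_of_nonneg (e3 i).le]
  · rw [diagonal_apply_ne _ h]
    have := e2 i j
    have h2 : Matrix.toBilin' B' (w i) (w j) = 0 := by
      simp only [w, Module.Basis.reindex_apply]
      exact hv fun e => h ((finCongr _).symm.injective e)
    rw [h2, mul_zero] at this
    exact_mod_cast this

theorem exists_sd (hs : B.IsSymm) (hpos : ∀ x : Fin n → ℤ, x ≠ 0 → 0 < x ⬝ᵥ (B *ᵥ x)) (hdet : B.det = 1) :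
    ∃ (d : Fin n → ℕ) (φ : (Fin n → ℤ) →+ (Fin n → ℤ)), SD d φ.range ∧ Function.Injective φ ∧
      ∀ x y, ∑ i, (φ x i * φ y i / d i : ℚ) = (x ⬝ᵥ (B *ᵥ y) : ℤ) := by
  obtain ⟨P, d, hd, hP⟩ := exists_diag hs hpos
  let c := Int.castRingHom ℚ
  let φ : (Fin n → ℤ) →+ (Fin n → ℤ) := (Matrix.mulVecLin (P * B)).toAddMonoidHom
  have hφ : ∀ x, φ x = (P * B) *ᵥ x := fun _ => rfl
  have hd' : ∀ i, (d i : ℚ) ≠ 0 := fun i => by exact_mod_cast (hd i).ne'
  let D : Matrix (Fin n) (Fin n) ℚ := diagonal fun i => (d i : ℚ)⁻¹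
  have h1 : P.map c * B.map c * (P.map c)ᵀ = diagonal fun i => (d i : ℚ) := by
    rw [← transpose_map, ← Matrix.map_mul, ← Matrix.map_mul, hP, diagonal_map (map_zero c)]
    rfl
  have h2 : P.map c * B.map c * (P.map c)ᵀ * D = 1 := by
    rw [h1, diagonal_mul_diagonal, ← diagonal_one]
    exact congrArg _ (funext fun i => mul_inv_cancel₀ (hd' i))
  have h3 : B.map c * (P.map c)ᵀ * D * P.map c = 1 := by
    rw [Matrix.mul_assoc (P.map c), Matrix.mul_assoc (P.map c)] at h2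
    exact mul_eq_one_comm.1 h2
  have hc : ∀ (A : Matrix (Fin n) (Fin n) ℤ) (x : Fin n → ℤ), c ∘ (A *ᵥ x) = A.map c *ᵥ (c ∘ x) :=
    fun A x => funext fun i => RingHom.map_mulVec c A x i
  have hs' : (B.map c)ᵀ = B.map c := hs.map c
  have h4 : ∀ (k y : Fin n → ℤ), ∑ i, (k i * φ y i / d i : ℚ) =
      (B.map c *ᵥ ((P.map c)ᵀ * D) *ᵥ (c ∘ k)) ⬝ᵥ (c ∘ y) := fun k y => by
    have : ∑ i, (k i * φ y i / d i : ℚ) = (D *ᵥ (c ∘ k)) ⬝ᵥ (c ∘ φ y) :=
      Finset.sum_congr rfl fun i _ => by simp [D, mulVec_diagonal, c]; ring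
    rw [this, hφ, hc, dotProduct_mulVec, ← mulVec_transpose, Matrix.map_mul, transpose_mul, hs',
      mulVec_mulVec, mulVec_mulVec, Matrix.mul_assoc]
  have h5 : ∀ x y, ∑ i, (φ x i * φ y i / d i : ℚ) = (x ⬝ᵥ (B *ᵥ y) : ℤ) := fun x y => by
    rw [h4, hφ, hc, mulVec_mulVec, mulVec_mulVec, Matrix.map_mul, ← Matrix.mul_assoc, ← Matrix.mul_assoc,
      h3, Matrix.one_mul, ← hc, dotProduct_mulVec, ← mulVec_transpose, hs.eq]
    exact (RingHom.map_dotProduct c _ _).symm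
  refine ⟨d, φ, ⟨hd, fun m => ⟨Pᵀ *ᵥ m, ?_⟩, fun k => ⟨?_, fun h => ?_⟩⟩, ?_, h5⟩
  · rw [hφ, mulVec_mulVec, hP]
    exact funext fun i => mulVec_diagonal _ _ _
  · rintro ⟨x, rfl⟩ _ ⟨y, rfl⟩
    exact ⟨_, h5 x y⟩
  · choose z hz using fun j => h _ ⟨Pi.single j 1, rfl⟩
    have h6 : B.map c *ᵥ ((P.map c)ᵀ * D) *ᵥ (c ∘ k) = c ∘ z := funext fun j => by
      have := hz j
      rw [h4, show c ∘ (Pi.single j 1 : Fin n → ℤ) = Pi.single j 1 from
        funext fun i => by by_cases e : i = j <;> simp [e, Pi.single_apply], dotProduct_single_one] at this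
      exact this
    refine ⟨B.adjugate *ᵥ z, ?_⟩
    have h7 : c ∘ φ (B.adjugate *ᵥ z) = c ∘ k := by
      rw [hφ, mulVec_mulVec, Matrix.mul_assoc, mul_adjugate, hdet, one_smul, Matrix.mul_one, hc, ← h6,
        mulVec_mulVec, mulVec_mulVec, ← Matrix.mul_assoc, h2, one_mulVec]
    exact funext fun i => Int.cast_injective (α := ℚ) (congrFun h7 i)
  · refine (injective_iff_map_eq_zero φ).2 fun x hx => by_contra fun h0 => ?_
    have := h5 x x
    have h6 := hpos x h0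
    simp only [hx, Pi.zero_apply, Int.cast_zero, mul_zero, zero_div, Finset.sum_const_zero] at this
    rw [← Int.cast_zero, Int.cast_inj] at this
    omega

noncomputable def th (B : Matrix (Fin n) (Fin n) ℤ) (τ : ℂ) : ℂ :=
  ∑' x : Fin n → ℤ, cexp (π * I * τ * (x ⬝ᵥ (B *ᵥ x) : ℤ))

theorem th_main (hs : B.IsSymm) (hpos : ∀ x : Fin n → ℤ, x ≠ 0 → 0 < x ⬝ᵥ (B *ᵥ x)) (hdet : B.det = 1) :
    (∀ τ : ℂ, 0 < τ.im → HasSum (fun x : Fin n → ℤ => cexp (π * I * τ * (x ⬝ᵥ (B *ᵥ x) : ℤ))) (th B τ)) ∧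
    (∀ τ : ℂ, 0 < τ.im → DifferentiableAt ℂ (th B) τ) ∧
    ∃ c : ℂ, ∀ τ : ℂ, 0 < τ.im → th B (-1 / τ) = c * ((-I * τ) ^ (1 / 2 : ℂ)) ^ n * th B τ := by
  classical
  obtain ⟨d, φ, h, hi, he⟩ := exists_sd hs hpos hdet
  have h1 : ∀ τ, (fun k => if k ∈ φ.range then g d τ k else 0) ∘ φ =
      fun x : Fin n → ℤ => cexp (π * I * τ * (x ⬝ᵥ (B *ᵥ x) : ℤ)) := fun τ => funext fun x => by
    rw [Function.comp_apply, if_pos ⟨x, rfl⟩, g, ← Complex.exp_sum]
    have := congrArg (fun q : ℚ => (q : ℂ)) (he x x)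
    simp only [Rat.cast_intCast] at this
    rw [← this]
    push_cast
    rw [Finset.mul_sum]
    exact congrArg _ (Finset.sum_congr rfl fun i _ => by ring)
  have h2 : th B = theta d φ.range := funext fun τ => by
    rw [th, ← h1, theta]
    exact hi.tsum_eq fun k hk => by_contra fun e => hk (if_neg e)
  refine ⟨fun τ hτ => ?_, fun τ hτ => h2 ▸ h.differentiableAt hτ, h2 ▸ h.theta_S⟩
  rw [← h1, h2]
  exact (hi.hasSum_iff fun k hk => if_neg hk).2 (h.hasSum_theta hτ)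

open UpperHalfPlane hiding I in
open scoped UpperHalfPlane in
open ModularForm MatrixGroups SlashInvariantForm Function in
theorem th_form {B : Matrix (Fin 24) (Fin 24) ℤ} (hs : B.IsSymm)
    (hpos : ∀ x : Fin 24 → ℤ, x ≠ 0 → 0 < x ⬝ᵥ (B *ᵥ x)) (heven : ∀ x : Fin 24 → ℤ, (2 : ℤ) ∣ x ⬝ᵥ (B *ᵥ x))
    (hdet : B.det = 1) : ∃ f : ModularForm 𝒮ℒ 12, ∀ m : ℕ, (qExpansion 1 f).coeff m =
      {x : Fin 24 → ℤ | x ⬝ᵥ (B *ᵥ x) = 2 * m}.ncard := by
  obtain ⟨h1, h2, c, h3⟩ := th_main hs hpos hdet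
  have hnn : ∀ x : Fin 24 → ℤ, 0 ≤ x ⬝ᵥ (B *ᵥ x) := fun x => by
    by_cases e : x = 0
    · simp [e]
    · exact (hpos x e).le
  have h4 : ∀ τ : ℂ, ((-I * τ) ^ (1 / 2 : ℂ)) ^ 24 = τ ^ 12 := fun τ => by
    rw [show 24 = 2 * 12 from rfl, pow_mul, one_div, cpow_ofNat_inv_pow, mul_pow, neg_pow,
      show 12 = 4 * 3 from rfl, pow_mul I, I_pow_four]
    norm_num
  have h5 : th B I ≠ 0 := fun e => by
    have := h1 I (by simp)
    rw [e] at this
    have h6 := le_hasSum (Complex.hasSum_re this) 0 fun x _ => by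
      rw [show π * I * I * ((x ⬝ᵥ (B *ᵥ x) : ℤ) : ℂ) = ((-π * (x ⬝ᵥ (B *ᵥ x) : ℤ) : ℝ) : ℂ) by
        rw [mul_assoc (π : ℂ), I_mul_I]; push_cast; ring, exp_ofReal_re]
      exact (Real.exp_pos _).le
    norm_num at h6
  have hc : c = 1 := by
    have := h3 I (by simp)
    rw [h4, show -1 / I = I by simp, show 12 = 4 * 3 from rfl, pow_mul, I_pow_four, one_pow, mul_one] at this
    exact (mul_eq_right₀ h5).1 this.symm
  let f : ℍ → ℂ := fun z => th B z
  have hS : f ∣[(12 : ℤ)] ModularGroup.S = f := by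
    ext z
    have := h3 z z.2
    rw [h4, hc, one_mul, neg_div, one_div, ← inv_neg] at this
    rw [SL_slash_apply, UpperHalfPlane.modular_S_smul, ModularGroup.denom_S]
    simp only [f, this, _root_.zpow_neg, zpow_ofNat]
    field_simp [z.ne_zero]
  have hT : f ∣[(12 : ℤ)] ModularGroup.T = f := by
    ext z
    rw [SL_slash_apply, modular_T_smul, ModularGroup.denom_apply]
    have : th B (1 + z) = th B z := tsum_congr fun x => by
      obtain ⟨k, hk⟩ := heven x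
      rw [hk, show π * I * (1 + z) * ((2 * k : ℤ) : ℂ) = π * I * z * ((2 * k : ℤ) : ℂ) + k * (2 * π * I) by
        push_cast; ring, Complex.exp_add, exp_int_mul_two_pi_mul_I, mul_one]
    simp [f, this, ModularGroup.coe_T]
  have hq : ∀ τ : ℍ, HasSum (fun m : ℕ => ({x : Fin 24 → ℤ | x ⬝ᵥ (B *ᵥ x) = 2 * m}.ncard : ℂ) •
      Periodic.qParam 1 τ ^ m) (f τ) := fun τ => by
    have := (h1 τ τ.2).tsum_fiberwise fun x => (x ⬝ᵥ (B *ᵥ x) / 2).toNat
    refine (congrArg (HasSum · _) (funext fun m => ?_)).mp this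
    have e : (fun x : Fin 24 → ℤ => (x ⬝ᵥ (B *ᵥ x) / 2).toNat) ⁻¹' {m} = {x | x ⬝ᵥ (B *ᵥ x) = 2 * m} := by
      ext x
      have := hnn x
      have := heven x
      simp only [Set.mem_preimage, Set.mem_singleton_iff, Set.mem_setOf_eq]
      omega
    rw [e, tsum_congr (g := fun _ => Periodic.qParam 1 τ ^ m) fun x => ?_, tsum_const, nsmul_eq_mul,
      smul_eq_mul, Nat.card_coe_set_eq]
    rw [show x.1 ⬝ᵥ (B *ᵥ x.1) = 2 * m from x.2, Periodic.qParam, ← Complex.exp_nat_mul]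
    congr 1
    push_cast
    ring
  let F : ModularForm 𝒮ℒ 12 :=
    { toFun := f
      slash_action_eq' := fun A hA => by
        obtain ⟨A, rfl⟩ := hA
        exact slash_action_generators_SL2Z hS hT A
      holo' := by
        rw [UpperHalfPlane.mdifferentiable_iff]
        refine .congr (fun z hz => (h2 z hz).differentiableWithinAt) fun z hz => ?_
        simp [f, ofComplex_apply_of_im_pos hz]
      bdd_at_cusps' := fun hc => by
        rw [Subgroup.IsArithmetic.isCusp_iff_isCusp_SL2Z] at hc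
        rw [OnePoint.isBoundedAt_iff_forall_SL2Z hc]
        intro γ _
        rw [slash_action_generators_SL2Z hS hT]
        exact isBoundedAtImInfty_of_hasSum_qExpansion one_pos hq }
  exact ⟨F, fun m => (ModularFormClass.qExpansion_coeff_unique one_pos one_mem_strictPeriods_SL
    (f := F) hq m).symm⟩

open UpperHalfPlane ModularForm MatrixGroups EisensteinSeries in
theorem coeffs (f : ModularForm 𝒮ℒ 12) (h0 : (qExpansion 1 f).coeff 0 = 1) (h1 : (qExpansion 1 f).coeff 1 = 0) :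
    (qExpansion 1 f).coeff 2 = 196560 ∧ (qExpansion 1 f).coeff 3 = 16773120 ∧
      (qExpansion 1 f).coeff 4 = 398034000 := by
  let A : ModularForm 𝒮ℒ 12 := ModularForm.mcast (by decide) (E₄.pow 3)
  let C : ModularForm 𝒮ℒ 12 := ModularForm.mcast (by decide) (E₆.pow 2)
  let F : ModularForm 𝒮ℒ 12 := f - ((7 / 12 : ℂ) • A + (5 / 12 : ℂ) • C)
  have hA : qExpansion 1 A = qExpansion 1 E₄ * qExpansion 1 E₄ * qExpansion 1 E₄ := by
    simp only [A, ModularForm.qExpansion_mcast, ModularForm.qExpansion_pow one_pos one_mem_strictPeriods_SL]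
    ring
  have hC : qExpansion 1 C = qExpansion 1 E₆ * qExpansion 1 E₆ := by
    simp only [C, ModularForm.qExpansion_mcast, ModularForm.qExpansion_pow one_pos one_mem_strictPeriods_SL]
    ring
  have e : qExpansion 1 F = qExpansion 1 f - ((7 / 12 : ℂ) • qExpansion 1 A + (5 / 12 : ℂ) • qExpansion 1 C) := by
    rw [← ModularForm.qExpansion_smul one_pos one_mem_strictPeriods_SL _ A,
      ← ModularForm.qExpansion_smul one_pos one_mem_strictPeriods_SL _ C]
    refine (ModularForm.qExpansion_sub one_pos one_mem_strictPeriods_SL f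
      ((7 / 12 : ℂ) • A + (5 / 12 : ℂ) • C)).trans (congrArg _ ?_)
    exact ModularForm.qExpansion_add one_pos one_mem_strictPeriods_SL ((7 / 12 : ℂ) • A) ((5 / 12 : ℂ) • C)
  have s4 : ∀ m, (qExpansion 1 E₄).coeff m = if m = 0 then (1 : ℂ) else 240 * ArithmeticFunction.sigma 3 m :=
    fun m => by norm_num [E_qExpansion_coeff _ ⟨2, rfl⟩, show bernoulli 4 = -1 / 30 by decide +kernel]
  have s6 : ∀ m, (qExpansion 1 E₆).coeff m = if m = 0 then (1 : ℂ) else -504 * ArithmeticFunction.sigma 5 m :=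
    fun m => by norm_num [E_qExpansion_coeff _ ⟨3, rfl⟩, show bernoulli 6 = 1 / 42 by decide +kernel]
  have t1 : ArithmeticFunction.sigma 3 1 = 1 ∧ ArithmeticFunction.sigma 3 2 = 9 ∧
      ArithmeticFunction.sigma 3 3 = 28 ∧ ArithmeticFunction.sigma 3 4 = 73 ∧
      ArithmeticFunction.sigma 5 1 = 1 ∧ ArithmeticFunction.sigma 5 2 = 33 ∧
      ArithmeticFunction.sigma 5 3 = 244 ∧ ArithmeticFunction.sigma 5 4 = 1057 := by decide +kernel
  have hc : ∀ m, (qExpansion 1 F).coeff m = (qExpansion 1 f).coeff m - (7 / 12 *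
      (qExpansion 1 E₄ * qExpansion 1 E₄ * qExpansion 1 E₄).coeff m +
      5 / 12 * (qExpansion 1 E₆ * qExpansion 1 E₆).coeff m) := fun m => by
    rw [e, hA, hC]; simp
  have hF : F = 0 := sturm_bound_levelOne (lt_of_lt_of_le (show ((1 : ℕ) : ℕ∞) < (2 : ℕ) by norm_num)
    (PowerSeries.nat_le_order _ 2 fun i hi => by
      rw [hc]
      interval_cases i
      · rw [h0]
        norm_num [PowerSeries.coeff_mul, s4, s6, -PowerSeries.coeff_zero_eq_constantCoeff]
      · rw [h1]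
        norm_num [PowerSeries.coeff_mul, Finset.Nat.antidiagonal_succ, s4, s6, t1,
          -PowerSeries.coeff_zero_eq_constantCoeff]))
  have hz : ∀ m, (qExpansion 1 F).coeff m = 0 := fun m => by simp [hF, qExpansion_zero]
  refine ⟨?_, ?_, ?_⟩
  all_goals
    rw [sub_eq_zero.1 ((hc _).symm.trans (hz _))]
    norm_num [PowerSeries.coeff_mul, Finset.Nat.antidiagonal_succ, s4, s6, t1,
      -PowerSeries.coeff_zero_eq_constantCoeff]

end H8.Theta
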